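import Mathlib
import Cfsg.Agent.H14.CSub
import Cfsg.Agent.H14.Coord
import Cfsg.Agent.H14.Steiner

/-!
# Certificates for the uniqueness of small Steiner systems

A family `B` of `k`-sets in which every `t`-set lies in a member and in which the intersection
numbers are restricted is labelled block by block.
-/

set_option autoImplicit false
set_option linter.unusedSectionVars false

namespace Cfsg.Agent.H14

open MulAction
open scoped Pointwise

/-- the hypotheses on the design. -/
structure DGood {Ω : Type*} [DecidableEq Ω] (t k okm : ℕ) (B : Set (Finset Ω)) : Prop where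
  card : ∀ b ∈ B, b.card = k
  ex : ∀ s : Finset Ω, s.card = t → ∃ b ∈ B, s ⊆ b
  lt : ∀ b ∈ B, ∀ c ∈ B, b ≠ c → (b ∩ c).card < t
  int : ∀ b ∈ B, ∀ c ∈ B, b ≠ c → okm.testBit (b ∩ c).card = true

/-- exchange bits `i` and `j`. -/
noncomputable def swapb (m i j : ℕ) : ℕ :=
  force m fun m => Bool.rec (Nat.xor m (Nat.lor (two i) (two j))) m (Nat.beq (bitN m i) (bitN m j))

theorem testBit_swapb (m i j x : ℕ) : (swapb m i j).testBit x = m.testBit (Equiv.swap i j x) := by
  rw [swapb, force_eq]
  have key : ∀ a b : Bool, Nat.beq a.toNat b.toNat = (a == b) := by decide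
  rw [bitN_eq, bitN_eq, key]
  rcases h : (m.testBit i == m.testBit j) with _ | _
  · show (m ^^^ (two i ||| two j)).testBit x = _
    rw [Nat.testBit_xor, Nat.testBit_or, testBit_two, testBit_two]
    have h' : m.testBit i ≠ m.testBit j := by simpa using h
    by_cases hi : x = i
    · subst hi
      rw [Equiv.swap_apply_left]
      revert h'; cases m.testBit x <;> cases m.testBit j <;> simp
    · by_cases hj : x = j
      · subst hj
        rw [Equiv.swap_apply_right]
        revert h'; cases m.testBit x <;> cases m.testBit i <;> simp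
      · rw [Equiv.swap_apply_of_ne_of_ne hi hj]
        simp [Ne.symm hi, Ne.symm hj]
  · show m.testBit x = _
    have h' : m.testBit i = m.testBit j := by simpa using h
    by_cases hi : x = i
    · subst hi; rw [Equiv.swap_apply_left, h']
    · by_cases hj : x = j
      · subst hj; rw [Equiv.swap_apply_right, h']
      · rw [Equiv.swap_apply_of_ne_of_ne hi hj]

theorem swap_lt {n i j x : ℕ} (hi : i < n) (hj : j < n) (hx : x < n) : Equiv.swap i j x < n := by
  rw [Equiv.swap_apply_def]; split_ifs <;> assumption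

/-- the numbering with two numbers exchanged. -/
def Coord.sw {Ω : Type*} (C : Coord Ω) (i j : ℕ) (hi : i < C.n) (hj : j < C.n) : Coord Ω where
  n := C.n
  idx p := Equiv.swap i j (C.idx p)
  pt x := C.pt (Equiv.swap i j x)
  idx_lt p := swap_lt hi hj (C.idx_lt p)
  pt_idx p := by rw [Equiv.swap_apply_self, C.pt_idx]
  idx_pt x hx := by rw [C.idx_pt _ (swap_lt hi hj hx), Equiv.swap_apply_self]

section
variable {Ω : Type*} [Fintype Ω] [DecidableEq Ω]

theorem Coord.set_sw (C : Coord Ω) (i j : ℕ) (hi : i < C.n) (hj : j < C.n) (m : ℕ) :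
    (C.sw i j hi hj).set m = C.set (swapb m i j) := by
  ext p
  rw [Coord.mem_set, Coord.mem_set, testBit_swapb]
  rfl

/-- the numbering has `n` points and begins with `h 0, …, h (f-1)`. -/
def DLab (n f : ℕ) (h : ℕ → Ω) (C : Coord Ω) : Prop := C.n = n ∧ ∀ i < f, C.pt i = h i

theorem DLab.sw {n f : ℕ} {h : ℕ → Ω} {C : Coord Ω} (H : DLab n f h C) {i j : ℕ}
    (hi : f ≤ i) (hj : f ≤ j) (hi' : i < C.n) (hj' : j < C.n) : DLab n f h (C.sw i j hi' hj') :=
  ⟨H.1, fun x hx => by
    show C.pt (Equiv.swap i j x) = _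
    rw [Equiv.swap_apply_of_ne_of_ne (by omega) (by omega), H.2 x hx]⟩

/-- all masks of the list are blocks in the numbering `C`. -/
def DIn (C : Coord Ω) (B : Set (Finset Ω)) (l : List ℕ) : Prop := ∀ m ∈ l, C.set m ∈ B

end

/-- membership in a list of numbers. -/
noncomputable def memN (m : ℕ) (K : List ℕ) : Bool := force m fun m => anyL K (Nat.beq m)

theorem memN_iff {m : ℕ} {K : List ℕ} : memN m K = true ↔ m ∈ K := by
  rw [memN, force_eq, anyL_iff]
  constructor
  · rintro ⟨a, ha, e⟩; rwa [nbeq_iff.mp e]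
  · intro h; exact ⟨m, h, nbeq_iff.mpr rfl⟩

/-- exchange two bits in all members of a list. -/
noncomputable def mapSw (i j : ℕ) (l : List ℕ) : List ℕ :=
  List.rec (motive := fun _ => List ℕ) [] (fun a _ ih => swapb a i j :: ih) l

theorem mem_mapSw {i j : ℕ} {l : List ℕ} {m : ℕ} (h : m ∈ l) : swapb m i j ∈ mapSw i j l := by
  induction l with
  | nil => simp at h
  | cons a l ih =>
    show _ ∈ swapb a i j :: mapSw i j l
    rcases List.mem_cons.mp h with rfl | h
    · exact List.mem_cons_self
    · exact List.mem_cons_of_mem _ (ih h)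

/-- `f ≤ i < n`. -/
noncomputable def inR (f n i : ℕ) : Bool := band (Nat.ble f i) (Nat.ble (Nat.succ i) n)

theorem inR_iff {f n i : ℕ} : inR f n i = true ↔ f ≤ i ∧ i < n := by
  rw [inR, band_iff, nble_iff, nble_iff]; rfl

/-- move the first mask towards `c` by exchanges until all masks are known. -/
noncomputable def dgo (f n c : ℕ) (K : List ℕ) (fuel : ℕ) : List ℕ → Bool :=
  Nat.rec (motive := fun _ => List ℕ → Bool) (fun l => allL l (fun m => memN m K))
    (fun _ ih l => bor (allL l (fun m => memN m K))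
      (force (l.headD 0) fun w => force (Nat.xor w c) fun d =>
        force (Nat.log2 (Nat.land d w)) fun i => force (Nat.log2 (Nat.land d c)) fun j =>
          band (inR f n i) (band (inR f n j) (ih (mapSw i j l))))) fuel

/-- first the given exchanges, then `dgo`. -/
noncomputable def dpre (f n c : ℕ) (K : List ℕ) (fuel : ℕ) (ρ : List (ℕ × ℕ)) : List ℕ → Bool :=
  List.rec (motive := fun _ => List ℕ → Bool) (dgo f n c K fuel)
    (fun p _ ih l => band (inR f n p.1) (band (inR f n p.2) (ih (mapSw p.1 p.2 l)))) ρ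

section
variable {Ω : Type*} [Fintype Ω] [DecidableEq Ω] {B : Set (Finset Ω)}

theorem din_sw {C : Coord Ω} {i j : ℕ} (hi : i < C.n) (hj : j < C.n) {l : List ℕ}
    (h : DIn C B (mapSw i j l)) : DIn (C.sw i j hi hj) B l := fun m hm => by
  rw [Coord.set_sw]; exact h _ (mem_mapSw hm)

theorem dgo_sound {f n c : ℕ} {h : ℕ → Ω} {K : List ℕ} {C : Coord Ω} (hC : DLab n f h C)
    (hK : DIn C B K) (fuel : ℕ) :
    ∀ l, dgo f n c K fuel l = true → ∃ C' : Coord Ω, DLab n f h C' ∧ DIn C' B l := by
  induction fuel with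
  | zero =>
    intro l H
    exact ⟨C, hC, fun m hm => hK _ (memN_iff.mp (allL_iff.mp H m hm))⟩
  | succ u ih =>
    intro l H
    have h' : bor (allL l (fun m => memN m K))
      (force (l.headD 0) fun w => force (Nat.xor w c) fun d =>
        force (Nat.log2 (Nat.land d w)) fun i => force (Nat.log2 (Nat.land d c)) fun j =>
          band (inR f n i) (band (inR f n j) (dgo f n c K u (mapSw i j l)))) = true := H
    rw [bor_iff] at h'
    rcases h' with h' | h'
    · exact ⟨C, hC, fun m hm => hK _ (memN_iff.mp (allL_iff.mp h' m hm))⟩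
    · simp only [force_eq, band_iff, inR_iff] at h'
      obtain ⟨h1, h2, h3⟩ := h'
      obtain ⟨C', hC', hl⟩ := ih _ h3
      exact ⟨C'.sw _ _ (by rw [hC'.1]; exact h1.2) (by rw [hC'.1]; exact h2.2),
        hC'.sw h1.1 h2.1 _ _, din_sw _ _ hl⟩

theorem dpre_sound {f n c : ℕ} {h : ℕ → Ω} {K : List ℕ} {C : Coord Ω} (hC : DLab n f h C)
    (hK : DIn C B K) (fuel : ℕ) (ρ : List (ℕ × ℕ)) :
    ∀ l, dpre f n c K fuel ρ l = true → ∃ C' : Coord Ω, DLab n f h C' ∧ DIn C' B l := by
  induction ρ with
  | nil => exact dgo_sound hC hK fuel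
  | cons p ρ ih =>
    intro l H
    have h' : band (inR f n p.1) (band (inR f n p.2)
      (dpre f n c K fuel ρ (mapSw p.1 p.2 l))) = true := H
    simp only [band_iff, inR_iff] at h'
    obtain ⟨h1, h2, h3⟩ := h'
    obtain ⟨C', hC', hl⟩ := ih _ h3
    exact ⟨C'.sw _ _ (by rw [hC'.1]; exact h1.2) (by rw [hC'.1]; exact h2.2),
      hC'.sw h1.1 h2.1 _ _, din_sw _ _ hl⟩

end

/-- `f (m ||| D)` for all `D < 2^j` with `r` bits, none of them in `a`. -/
noncomputable def allSub (a : ℕ) (f : ℕ → Bool) (j : ℕ) : ℕ → ℕ → Bool :=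
  Nat.rec (motive := fun _ => ℕ → ℕ → Bool) (fun r m => bor (Nat.ble 1 r) (f m))
    (fun i ih r m => Bool.rec (f m)
      (Bool.rec (band (ih r m) (force (Nat.pred r) fun r' => force (Nat.lor m (two i)) fun m' =>
        ih r' m')) (ih r m) (tb a i)) (Nat.ble 1 r)) j

theorem popc_succ (n m : ℕ) : popc (n + 1) m = popc n m + (m.testBit n).toNat := by
  rw [popc, sumLt_succ, bitN_eq]; rfl

theorem eq_zero_of_popc {n m : ℕ} (h : popc n m = 0) (hm : ∀ i, n ≤ i → m.testBit i = false) :
    m = 0 := by
  apply Nat.eq_of_testBit_eq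
  intro i
  rw [Nat.zero_testBit]
  rcases Nat.lt_or_ge i n with hi | hi
  · rw [popc_eq, Finset.card_eq_zero, Finset.filter_eq_empty_iff] at h
    simpa using h (Finset.mem_range.mpr hi)
  · exact hm i hi

theorem allSub_sound {a : ℕ} {f : ℕ → Bool} (j : ℕ) : ∀ r m, allSub a f j r m = true →
    ∀ D, (∀ i, j ≤ i → D.testBit i = false) → (∀ i, D.testBit i = true → a.testBit i = false) →
      popc j D = r → f (m ||| D) = true := by
  induction j with
  | zero =>
    intro r m h D h1 _ h3
    have hr : r = 0 := by rw [← h3]; rfl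
    subst hr
    have hD := eq_zero_of_popc h3 h1
    subst hD
    have h' : bor (Nat.ble 1 0) (f m) = true := h
    rw [bor_iff] at h'
    simpa using h'
  | succ j ih =>
    intro r m h D h1 h2 h3
    have h' : (Bool.rec (f m) (Bool.rec (band (allSub a f j r m) (force (Nat.pred r) fun r' =>
      force (Nat.lor m (two j)) fun m' => allSub a f j r' m')) (allSub a f j r m) (tb a j))
        (Nat.ble 1 r) : Bool) = true := h
    rcases Nat.eq_zero_or_pos r with rfl | hr
    · have hD := eq_zero_of_popc h3 h1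
      subst hD
      rw [Nat.or_zero]
      exact h'
    · have e : Nat.ble 1 r = true := nble_iff.mpr hr
      rw [e] at h'
      rw [popc_succ] at h3
      rcases hb : D.testBit j with _ | _
      · have h0 : allSub a f j r m = true := by
          rcases ha : tb a j with _ | _
          · rw [ha] at h'
            exact (band_iff.mp h').1
          · rw [ha] at h'; exact h'
        refine ih r m h0 D (fun i hi => ?_) h2 (by rw [hb] at h3; simpa using h3)
        rcases Nat.eq_or_lt_of_le hi with rfl | hi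
        · exact hb
        · exact h1 i hi
      · have ha : tb a j = false := by rw [tb_eq]; exact h2 j hb
        rw [ha] at h'
        have h0 := (band_iff.mp h').2
        simp only [force_eq] at h0
        have := ih _ _ h0 (D ^^^ two j) (fun i hi => ?_) (fun i hi => ?_) ?_
        · have e2 : Nat.lor m (two j) ||| (D ^^^ two j) = m ||| D := by
            apply Nat.eq_of_testBit_eq
            intro i
            show ((m ||| two j) ||| (D ^^^ two j)).testBit i = _
            simp only [Nat.testBit_or, Nat.testBit_xor, testBit_two]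
            by_cases hi : j = i
            · subst hi; simp [hb]
            · simp [hi]
          rwa [e2] at this
        · rw [Nat.testBit_xor, testBit_two]
          rcases Nat.eq_or_lt_of_le hi with rfl | hi
          · simp [hb]
          · rw [h1 i hi]; simp [Nat.ne_of_lt hi]
        · rw [Nat.testBit_xor, testBit_two] at hi
          by_cases hij : j = i
          · subst hij; simp [hb] at hi
          · exact h2 i (by simpa [hij] using hi)
        · rw [hb] at h3
          rw [popc_congr j (m' := D)]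
          · show _ = r - 1
            simp at h3; omega
          · intro i hi
            rw [Nat.testBit_xor, testBit_two]
            simp [Nat.ne_of_gt hi]

/-- union of the known blocks meeting `S` in `t - 1` points. -/
noncomputable def dav (t S : ℕ) (K : List ℕ) : ℕ :=
  List.rec (motive := fun _ => ℕ → ℕ) (fun acc => acc)
    (fun b _ ih acc => force (Bool.rec acc (Nat.lor acc b)
      (Nat.beq (Nat.succ (pop24 (Nat.land b S))) t)) ih) K S

theorem dav_aux (t S : ℕ) (K : List ℕ) (i : ℕ) : ∀ acc,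
    (List.rec (motive := fun _ => ℕ → ℕ) (fun acc => acc)
    (fun b _ ih acc => force (Bool.rec acc (Nat.lor acc b)
      (Nat.beq (Nat.succ (pop24 (Nat.land b S))) t)) ih) K acc).testBit i = true →
      acc.testBit i = true ∨ ∃ b ∈ K, pop24 (b &&& S) + 1 = t ∧ b.testBit i = true := by
  induction K with
  | nil => intro acc h; exact Or.inl h
  | cons b K ih =>
    intro acc h
    simp only [force_eq] at h ih
    rcases ih _ h with h' | ⟨b', hb', h'⟩
    · rcases e : Nat.beq (Nat.succ (pop24 (Nat.land b S))) t with _ | _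
      · rw [e] at h'; exact Or.inl h'
      · rw [e] at h'
        have h'' : (acc ||| b).testBit i = true := h'
        rw [Nat.testBit_or, Bool.or_eq_true] at h''
        rcases h'' with h'' | h''
        · exact Or.inl h''
        · exact Or.inr ⟨b, List.mem_cons_self, nbeq_iff.mp e, h''⟩
    · exact Or.inr ⟨b', List.mem_cons_of_mem _ hb', h'⟩

/-- a candidate block has a forbidden intersection with a known block. -/
noncomputable def drej (okm c : ℕ) (K : List ℕ) : Bool :=
  anyL K fun b => Bool.rec (Bool.rec true false (Nat.beq b c)) false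
    (tb okm (pop24 (Nat.land b c)))

/-- one step: `S`, the new block `w`, and the relabellings. -/
noncomputable def dstep (f xok n t k okm : ℕ) (G K : List ℕ) (S w : ℕ) (R : List (List (ℕ × ℕ))) : Bool :=
  band (Nat.ble S (ones n)) (band (Nat.ble w (ones n)) (band (Nat.beq (pop24 S) t)
    (force (dav t S K) fun a => allSub a (fun c => bor (Nat.beq c w) (bor (drej okm c K)
      (bor (bnot (tb xok (pop24 (Nat.land c (ones f)))))
        (anyL R fun ρ => dpre f n c (c :: K) (Nat.sub k t) ρ (w :: G))))) n (Nat.sub k t) S)))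

/-- the generators after a step. -/
noncomputable def dG (G : List ℕ) (w : ℕ) (R : List (List (ℕ × ℕ))) : List ℕ :=
  List.rec (motive := fun _ => List ℕ) G (fun _ _ _ => w :: G) R

/-- all steps. -/
noncomputable def drun (f xok n t k okm : ℕ) (steps : List (ℕ × ℕ × List (List (ℕ × ℕ)))) :
    List ℕ → List ℕ → Bool :=
  List.rec (motive := fun _ => List ℕ → List ℕ → Bool) (fun _ _ => true)
    (fun s _ ih G K => band (dstep f xok n t k okm G K s.1 s.2.1 s.2.2)
      (ih (dG G s.2.1 s.2.2) (s.2.1 :: K))) steps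

theorem popc_eq_pop24 {n m : ℕ} (hn : n ≤ 24) (hm : m < 2 ^ n) : popc n m = pop24 m := by
  rw [pop24_eq, popc_eq, popc_eq]
  congr 1
  ext i
  simp only [Finset.mem_filter, Finset.mem_range]
  constructor
  · rintro ⟨h1, h2⟩; exact ⟨by omega, h2⟩
  · rintro ⟨_, h2⟩
    refine ⟨?_, h2⟩
    by_contra h
    rw [Nat.testBit_eq_false_of_lt (lt_of_lt_of_le hm (Nat.pow_le_pow_right (by norm_num)
      (not_lt.mp h)))] at h2
    exact absurd h2 (by simp)

theorem lt_of_ble_ones {m n : ℕ} (h : Nat.ble m (ones n) = true) : m < 2 ^ n := by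
  have := nble_iff.mp h
  rw [ones_eq] at this
  have : 0 < 2 ^ n := by positivity
  omega

section
variable {Ω : Type*} [Fintype Ω] [DecidableEq Ω] {B : Set (Finset Ω)}

theorem Coord.card_set24 (C : Coord Ω) (hn : C.n ≤ 24) {m : ℕ} (hm : m < 2 ^ C.n) :
    (C.set m).card = pop24 m := by rw [C.card_set, popc_eq_pop24 hn hm]

/-- the state of the labelling. -/
structure DSt (n f : ℕ) (h : ℕ → Ω) (B : Set (Finset Ω)) (G K : List ℕ) : Prop where
  ex : ∃ C : Coord Ω, DLab n f h C ∧ DIn C B G
  der : ∀ C : Coord Ω, DLab n f h C → DIn C B G → DIn C B K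
  lt : ∀ m ∈ K, m < 2 ^ n

theorem DLab.set_ones {n f : ℕ} {h : ℕ → Ω} {C : Coord Ω} (H : DLab n f h C) (hf : f ≤ n) :
    C.set (ones f) = (Finset.range f).image h := by
  ext p
  rw [C.mem_set, testBit_ones, Finset.mem_image, decide_eq_true_iff]
  constructor
  · intro hp; exact ⟨_, Finset.mem_range.mpr hp, by rw [← H.2 _ hp, C.pt_idx]⟩
  · rintro ⟨i, hi, rfl⟩
    have hi' := Finset.mem_range.mp hi
    rw [← H.2 i hi', C.idx_pt i (by rw [H.1]; omega)]
    exact hi'

theorem dstep_cand {f xok n t k okm : ℕ} {lab : ℕ → Ω} (hn : n ≤ 24) (hf : f ≤ n)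
    (hB : DGood t k okm B)
    (hx : ∀ b ∈ B, xok.testBit (b ∩ (Finset.range f).image lab).card = true)
    {G K : List ℕ} {S w : ℕ}
    {R : List (List (ℕ × ℕ))} (h : dstep f xok n t k okm G K S w R = true)
    (hlt : ∀ m ∈ K, m < 2 ^ n) {C : Coord Ω} (hC' : DLab n f lab C) (hK : DIn C B K) :
    C.set w ∈ B ∨ (R ≠ [] ∧ ∃ C' : Coord Ω, DLab n f lab C' ∧ DIn C' B (w :: G)) := by
  have hC := hC'.1
  subst hC
  simp only [dstep, band_iff, force_eq] at h
  obtain ⟨h1, -, h3, h4⟩ := h
  have hS := lt_of_ble_ones h1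
  have hSc : (C.set S).card = t := by rw [C.card_set24 hn hS, nbeq_iff.mp h3]
  obtain ⟨b, hb, hSb⟩ := hB.ex _ hSc
  have hD : C.mask (b \ C.set S) < 2 ^ C.n := C.mask_lt _
  have hc : C.set (S ||| C.mask (b \ C.set S)) = b := by
    rw [C.set_or, C.set_mask, Finset.union_sdiff_of_subset hSb]
  have hclt : S ||| C.mask (b \ C.set S) < 2 ^ C.n := Nat.or_lt_two_pow hS hD
  have key := allSub_sound _ _ _ h4 (C.mask (b \ C.set S))
    (fun i hi => Nat.testBit_eq_false_of_lt (lt_of_lt_of_le hD
      (Nat.pow_le_pow_right (by norm_num) hi))) (fun i hi => ?_) ?_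
  · generalize S ||| C.mask (b \ C.set S) = c at hc hclt key
    rw [bor_iff, bor_iff, bor_iff] at key
    rcases key with key | key | key | key
    · left; rw [← nbeq_iff.mp key, hc]; exact hb
    · exfalso
      obtain ⟨b', hb', e⟩ := anyL_iff.mp key
      have hne : b' ≠ c := by
        intro e'; subst e'
        rw [nbeq_iff.mpr rfl] at e
        revert e; cases tb okm (pop24 (Nat.land b' b')) <;> simp
      have := hB.int _ (hK _ hb') _ hb (by
        rw [← hc]; exact fun e' => hne (C.set_inj (hlt _ hb') hclt e'))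
      rw [← hc, ← C.set_and, C.card_set24 hn (Nat.and_lt_two_pow _ hclt), ← tb_eq] at this
      have e2 : tb okm (pop24 (Nat.land b' c)) = true := this
      rw [e2] at e
      exact absurd e (by simp)
    · exfalso
      have := hx b hb
      rw [← hc, ← hC'.set_ones hf, ← C.set_and, C.card_set24 hn (lt_of_le_of_lt Nat.and_le_left
        hclt), ← tb_eq] at this
      exact bnot_iff.mp key this
    · right
      obtain ⟨ρ, hρ, e⟩ := anyL_iff.mp key
      refine ⟨List.ne_nil_of_mem hρ, dpre_sound hC' (B := B) (C := C) (fun m hm => ?_) _ _ _ e⟩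
      rcases List.mem_cons.mp hm with rfl | hm
      · rw [hc]; exact hb
      · exact hK _ hm
  · obtain ⟨hi1, hi2⟩ := (C.testBit_mask _ _).mp hi
    rw [Finset.mem_sdiff] at hi2
    by_contra ha
    have ha' : (dav t S K).testBit i = true := by simpa using ha
    rcases dav_aux t S K i S ha' with h' | ⟨b', hb', e, h'⟩
    · exact hi2.2 ((C.pt_mem_set hi1).mpr h')
    · have hb'B := hK _ hb'
      have hcard : (C.set b' ∩ C.set S).card + 1 = t := by
        rw [← C.set_and, C.card_set24 hn (Nat.and_lt_two_pow _ hS), e]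
      have hne : C.set b' ≠ b := by
        intro e'
        rw [e', Finset.inter_eq_right.mpr hSb] at hcard
        omega
      have h5 := hB.lt _ hb'B _ hb hne
      have h6 : insert (C.pt i) (C.set b' ∩ C.set S) ⊆ C.set b' ∩ b := by
        intro x hx
        rcases Finset.mem_insert.mp hx with rfl | hx
        · exact Finset.mem_inter.mpr ⟨(C.pt_mem_set hi1).mpr h', hi2.1⟩
        · exact Finset.mem_inter.mpr ⟨(Finset.mem_inter.mp hx).1, hSb (Finset.mem_inter.mp hx).2⟩
      have h7 := Finset.card_le_card h6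
      rw [Finset.card_insert_of_notMem (fun hx => hi2.2 (Finset.mem_inter.mp hx).2)] at h7
      omega
  · rw [← C.card_set, C.set_mask, Finset.card_sdiff_of_subset hSb, hB.card b hb, hSc]
    rfl

theorem dstep_sound {f xok n t k okm : ℕ} {lab : ℕ → Ω} (hn : n ≤ 24) (hf : f ≤ n)
    (hB : DGood t k okm B)
    (hx : ∀ b ∈ B, xok.testBit (b ∩ (Finset.range f).image lab).card = true)
    {G K : List ℕ} {S w : ℕ}
    {R : List (List (ℕ × ℕ))} (h : dstep f xok n t k okm G K S w R = true)
    (hs : DSt n f lab B G K) : DSt n f lab B (dG G w R) (w :: K) := by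
  have hw : w < 2 ^ n := by
    simp only [dstep, band_iff] at h
    exact lt_of_ble_ones h.2.1
  have hlt : ∀ m ∈ w :: K, m < 2 ^ n := fun m hm => by
    rcases List.mem_cons.mp hm with rfl | hm
    · exact hw
    · exact hs.lt _ hm
  cases R with
  | nil =>
    refine ⟨hs.ex, fun C hC hG m hm => ?_, hlt⟩
    have hK := hs.der C hC hG
    rcases List.mem_cons.mp hm with rfl | hm
    · rcases dstep_cand hn hf hB hx h hs.lt hC hK with h' | h'
      · exact h'
      · exact absurd rfl h'.1
    · exact hK _ hm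
  | cons ρ R =>
    show DSt n f lab B (w :: G) (w :: K)
    refine ⟨?_, fun C hC hG m hm => ?_, hlt⟩
    · obtain ⟨C, hC, hG⟩ := hs.ex
      rcases dstep_cand hn hf hB hx h hs.lt hC (hs.der C hC hG) with h' | h'
      · refine ⟨C, hC, fun m hm => ?_⟩
        rcases List.mem_cons.mp hm with rfl | hm
        · exact h'
        · exact hG _ hm
      · exact h'.2
    · rcases List.mem_cons.mp hm with rfl | hm
      · exact hG _ List.mem_cons_self
      · exact hs.der C hC (fun m hm => hG m (List.mem_cons_of_mem _ hm)) _ hm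

/-- final lists. -/
noncomputable def dfinG (steps : List (ℕ × ℕ × List (List (ℕ × ℕ)))) : List ℕ → List ℕ :=
  List.rec (motive := fun _ => List ℕ → List ℕ) (fun G => G)
    (fun s _ ih G => ih (dG G s.2.1 s.2.2)) steps

/-- final lists. -/
noncomputable def dfinK (steps : List (ℕ × ℕ × List (List (ℕ × ℕ)))) : List ℕ → List ℕ :=
  List.rec (motive := fun _ => List ℕ → List ℕ) (fun K => K)
    (fun s _ ih K => ih (s.2.1 :: K)) steps

theorem drun_sound {f xok n t k okm : ℕ} {lab : ℕ → Ω} (hn : n ≤ 24) (hf : f ≤ n)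
    (hB : DGood t k okm B)
    (hx : ∀ b ∈ B, xok.testBit (b ∩ (Finset.range f).image lab).card = true)
    (steps : List (ℕ × ℕ × List (List (ℕ × ℕ)))) : ∀ G K, drun f xok n t k okm steps G K = true →
      DSt n f lab B G K → DSt n f lab B (dfinG steps G) (dfinK steps K) := by
  induction steps with
  | nil => intro G K _ h; exact h
  | cons s steps ih =>
    intro G K h hs
    have h' : band (dstep f xok n t k okm G K s.1 s.2.1 s.2.2)
      (drun f xok n t k okm steps (dG G s.2.1 s.2.2) (s.2.1 :: K)) = true := h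
    rw [band_iff] at h'
    exact ih _ _ h'.2 (dstep_sound hn hf hB hx h'.1 hs)

/-- a numbering of a type with `n + 1` elements. -/
noncomputable def coordOfCard {n : ℕ} (h : Fintype.card Ω = n + 1) : Coord Ω where
  n := n + 1
  idx p := (Fintype.equivFinOfCardEq h p).val
  pt i := (Fintype.equivFinOfCardEq h).symm (Fin.ofNat (n + 1) i)
  idx_lt p := (Fintype.equivFinOfCardEq h p).isLt
  pt_idx p := by simp
  idx_pt i hi := by simp [Fin.ofNat, Nat.mod_eq_of_lt hi]

theorem exists_dlab {n : ℕ} (h : Fintype.card Ω = n + 1) (lab : ℕ → Ω) (f : ℕ) (hf : f ≤ n + 1)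
    (hl : ∀ i < f, ∀ j < f, lab i = lab j → i = j) : ∃ C : Coord Ω, DLab (n + 1) f lab C := by
  induction f with
  | zero => exact ⟨coordOfCard h, rfl, fun _ hi => by simp at hi⟩
  | succ f ih =>
    obtain ⟨C, hC⟩ := ih (by omega) fun i hi j hj => hl i (by omega) j (by omega)
    have hk : f ≤ C.idx (lab f) := by
      by_contra h'
      have h1 := hC.2 _ (not_le.mp h')
      rw [C.pt_idx] at h1
      have := hl _ (by omega) _ (by omega) h1
      omega
    have hf' : f < C.n := by rw [hC.1]; omega
    refine ⟨C.sw f _ hf' (C.idx_lt (lab f)), hC.1, fun i hi => ?_⟩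
    rcases Nat.lt_succ_iff_lt_or_eq.mp hi with hi | rfl
    · exact (hC.sw le_rfl hk hf' (C.idx_lt (lab f))).2 i hi
    · show C.pt (Equiv.swap _ _ _) = _
      rw [Equiv.swap_apply_left, C.pt_idx]

theorem dst_nil {n : ℕ} (h : Fintype.card Ω = n + 1) (lab : ℕ → Ω) (f : ℕ) (hf : f ≤ n + 1)
    (hl : ∀ i < f, ∀ j < f, lab i = lab j → i = j) : DSt (n + 1) f lab B [] [] := by
  obtain ⟨C, hC⟩ := exists_dlab h lab f hf hl
  exact ⟨⟨C, hC, fun _ hm => by simp at hm⟩, fun _ _ h => h, fun _ hm => by simp at hm⟩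

end

/-- no repetition. -/
noncomputable def nodupN (l : List ℕ) : Bool :=
  List.rec (motive := fun _ => Bool) true
    (fun a l ih => Bool.rec ih false (memN a l)) l

theorem nodupN_sound {l : List ℕ} (h : nodupN l = true) : l.Nodup := by
  induction l with
  | nil => exact List.nodup_nil
  | cons a l ih =>
    have h' : (Bool.rec (nodupN l) false (memN a l) : Bool) = true := h
    rcases e : memN a l with _ | _
    · rw [e] at h'
      refine List.nodup_cons.mpr ⟨fun hm => ?_, ih h'⟩
      rw [memN_iff.mpr hm] at e; exact absurd e (by simp)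
    · rw [e] at h'; exact absurd h' (by simp)

section
variable {Ω : Type*} [Fintype Ω] [DecidableEq Ω] {B : Set (Finset Ω)}

/-- the family of the masks of a list. -/
def Coord.fam (C : Coord Ω) (L : List ℕ) : Set (Finset Ω) := {b | ∃ m ∈ L, C.set m = b}

theorem Coord.ncard_fam (C : Coord Ω) {L : List ℕ} (hL : L.Nodup) (hlt : ∀ m ∈ L, m < 2 ^ C.n) :
    (C.fam L).ncard = L.length := by
  have : C.fam L = C.set '' (L.toFinset : Set ℕ) := by
    ext b; simp [Coord.fam]
  rw [this, Set.InjOn.ncard_image, Set.ncard_coe_finset, List.toFinset_card_of_nodup hL]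
  intro a ha b hb e
  exact C.set_inj (hlt a (by simpa using ha)) (hlt b (by simpa using hb)) e

theorem DSt.eq_fam {n f : ℕ} {lab : ℕ → Ω} {G K : List ℕ} (h : DSt n f lab B G K)
    (hK : nodupN K = true) (hc : B.ncard ≤ K.length) :
    ∃ C : Coord Ω, DLab n f lab C ∧ B = C.fam K := by
  obtain ⟨C, hC, hG⟩ := h.ex
  refine ⟨C, hC, (Set.eq_of_subset_of_ncard_le ?_ ?_ (Set.toFinite _)).symm⟩
  · rintro _ ⟨m, hm, rfl⟩; exact h.der C hC hG m hm
  · rw [C.ncard_fam (nodupN_sound hK) (by rw [hC.1]; exact h.lt)]; exact hc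

/-- the bijection between two numbered types. -/
def Coord.trans {β : Type*} (C : Coord Ω) (C' : Coord β) (h : C.n = C'.n) : Ω ≃ β where
  toFun p := C'.pt (C.idx p)
  invFun q := C.pt (C'.idx q)
  left_inv p := by simp only [C'.idx_pt _ (h ▸ C.idx_lt p), C.pt_idx]
  right_inv q := by simp only [C.idx_pt _ (h ▸ C'.idx_lt q), C'.pt_idx]

theorem Coord.image_trans {β : Type*} [Fintype β] [DecidableEq β] (C : Coord Ω) (C' : Coord β)
    (h : C.n = C'.n) (m : ℕ) : (C.set m).image (C.trans C' h) = C'.set m := by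
  ext q
  rw [Finset.mem_image]
  constructor
  · rintro ⟨p, hp, rfl⟩
    show C'.pt (C.idx p) ∈ _
    rw [C'.pt_mem_set (h ▸ C.idx_lt p)]
    exact C.mem_set.mp hp
  · intro hq
    refine ⟨(C.trans C' h).symm q, ?_, by simp⟩
    show C.pt (C'.idx q) ∈ _
    rw [C.pt_mem_set (h ▸ C'.idx_lt q)]
    exact C'.mem_set.mp hq

theorem Coord.iso_fam {β : Type*} [Fintype β] [DecidableEq β] (C : Coord Ω) (C' : Coord β)
    (h : C.n = C'.n) (L : List ℕ) : SetSystemIso (C.fam L) (C'.fam L) := by
  refine ⟨C.trans C' h, ?_⟩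
  ext b
  constructor
  · rintro ⟨_, ⟨m, hm, rfl⟩, rfl⟩
    exact ⟨m, hm, (C.image_trans C' h m).symm⟩
  · rintro ⟨m, hm, rfl⟩
    exact ⟨_, ⟨m, hm, rfl⟩, C.image_trans C' h m⟩

end

/-- image of a mask under a partial map. -/
noncomputable def imgA (asg : List (ℕ × ℕ)) (b : ℕ) : ℕ :=
  List.rec (motive := fun _ => ℕ) 0
    (fun p _ ih => Bool.rec ih (Nat.lor (two p.2) ih) (tb b p.1)) asg

/-- domain of a partial map. -/
noncomputable def domA (asg : List (ℕ × ℕ)) : ℕ :=
  List.rec (motive := fun _ => ℕ) 0 (fun p _ ih => Nat.lor (two p.1) ih) asg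

theorem testBit_imgA {asg : List (ℕ × ℕ)} {b y : ℕ} :
    (imgA asg b).testBit y = true ↔ ∃ p ∈ asg, b.testBit p.1 = true ∧ p.2 = y := by
  induction asg with
  | nil => simp [imgA]
  | cons p asg ih =>
    have e : imgA (p :: asg) b = Bool.rec (imgA asg b) (Nat.lor (two p.2) (imgA asg b))
      (tb b p.1) := rfl
    rw [e, tb_eq]
    rcases h : b.testBit p.1 with _ | _
    · simp [ih, h]
    · show (two p.2 ||| imgA asg b).testBit y = true ↔ _
      simp [Nat.testBit_or, testBit_two, ih, h]

theorem testBit_domA {asg : List (ℕ × ℕ)} {x : ℕ} :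
    (domA asg).testBit x = true ↔ ∃ p ∈ asg, p.1 = x := by
  induction asg with
  | nil => simp [domA]
  | cons p asg ih =>
    show (two p.1 ||| domA asg).testBit x = true ↔ _
    simp [Nat.testBit_or, testBit_two, ih]

/-- search for the automorphisms extending a partial map; only the identity survives. -/
noncomputable def autChk (n : ℕ) (L : List ℕ) (lv : List (ℕ × List ℕ)) : List (ℕ × ℕ) → Bool :=
  List.rec (motive := fun _ => List (ℕ × ℕ) → Bool)
    (fun asg => band (Nat.beq (domA asg) (ones n)) (allL asg fun p => Nat.beq p.1 p.2))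
    (fun s _ ih asg => band (Nat.ble (Nat.succ s.1) n) (allLt n fun y =>
      bor (anyL asg fun p => band (Nat.beq p.2 y) (bnot (Nat.beq p.1 s.1)))
        (bor (anyL s.2 fun b => band (Nat.beq (Nat.land b (domA ((s.1, y) :: asg))) b)
          (band (memN b L) (bnot (memN (imgA ((s.1, y) :: asg) b) L))))
          (ih ((s.1, y) :: asg))))) lv

section
variable {Ω : Type*} [Fintype Ω] [DecidableEq Ω] {B : Set (Finset Ω)}

theorem autChk_sound {C : Coord Ω} {L : List ℕ} (hL : ∀ m ∈ L, m < 2 ^ C.n) {g : Equiv.Perm Ω}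
    (hg : g ∈ setSystemAut (C.fam L)) (lv : List (ℕ × List ℕ)) : ∀ asg,
      autChk C.n L lv asg = true → (∀ p ∈ asg, p.1 < C.n ∧ p.2 < C.n ∧ g (C.pt p.1) = C.pt p.2) →
        g = 1 := by
  induction lv with
  | nil =>
    intro asg h hi
    have h' : band (Nat.beq (domA asg) (ones C.n)) (allL asg fun p => Nat.beq p.1 p.2) = true := h
    rw [band_iff, nbeq_iff, allL_iff] at h'
    ext x
    have : (domA asg).testBit (C.idx x) = true := by
      rw [h'.1, testBit_ones]; simpa using C.idx_lt x
    obtain ⟨p, hp, e⟩ := testBit_domA.mp this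
    have h1 := (hi p hp).2.2
    rw [← nbeq_iff.mp (h'.2 p hp), e, C.pt_idx] at h1
    exact h1
  | cons s lv ih =>
    intro asg h hi
    have h' : band (Nat.ble (Nat.succ s.1) C.n) (allLt C.n fun y =>
      bor (anyL asg fun p => band (Nat.beq p.2 y) (bnot (Nat.beq p.1 s.1)))
        (bor (anyL s.2 fun b => band (Nat.beq (Nat.land b (domA ((s.1, y) :: asg))) b)
          (band (memN b L) (bnot (memN (imgA ((s.1, y) :: asg) b) L))))
          (autChk C.n L lv ((s.1, y) :: asg)))) = true := h
    rw [band_iff, nble_iff, allLt_iff] at h'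
    obtain ⟨h1, h2⟩ := h'
    have h3 := h2 (C.idx (g (C.pt s.1))) (C.idx_lt _)
    have hi' : ∀ p ∈ (s.1, C.idx (g (C.pt s.1))) :: asg,
        p.1 < C.n ∧ p.2 < C.n ∧ g (C.pt p.1) = C.pt p.2 := fun p hp => by
      rcases List.mem_cons.mp hp with rfl | hp
      · exact ⟨h1, C.idx_lt _, (C.pt_idx _).symm⟩
      · exact hi p hp
    rw [bor_iff, bor_iff] at h3
    rcases h3 with h3 | h3 | h3
    · exfalso
      obtain ⟨p, hp, e⟩ := anyL_iff.mp h3
      rw [band_iff, bnot_iff, nbeq_iff, nbeq_iff] at e
      obtain ⟨h4, -, h5⟩ := hi p hp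
      rw [e.1, C.pt_idx] at h5
      exact e.2 (C.pt_inj h4 h1 (g.injective h5))
    · exfalso
      obtain ⟨b, -, e⟩ := anyL_iff.mp h3
      rw [band_iff, band_iff, bnot_iff, nbeq_iff, memN_iff, memN_iff] at e
      generalize (s.1, C.idx (g (C.pt s.1))) :: asg = A at e hi'
      obtain ⟨e1, e2, e3⟩ := e
      have hb : g • C.set b ∈ C.fam L := by
        have : g • C.set b ∈ g • C.fam L := Set.smul_mem_smul_set ⟨b, e2, rfl⟩
        rwa [mem_stabilizer_iff.mp hg] at this
      obtain ⟨m, hm, e4⟩ := hb
      apply e3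
      suffices m = imgA A b by rw [← this]; exact hm
      apply Nat.eq_of_testBit_eq
      intro y
      rw [Bool.eq_iff_iff, testBit_imgA]
      constructor
      · intro hy
        have hy' : y < C.n := by
          by_contra h'
          rw [Nat.testBit_eq_false_of_lt (lt_of_lt_of_le (hL m hm)
            (Nat.pow_le_pow_right (by norm_num) (not_lt.mp h')))] at hy
          exact absurd hy (by simp)
        have h4 := (C.pt_mem_set hy').mpr hy
        rw [e4] at h4
        obtain ⟨x, hx, e5⟩ := Finset.mem_smul_finset.mp h4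
        have h5 := C.mem_set.mp hx
        have h6 : (domA A).testBit (C.idx x) = true := by
          have h7 : (b &&& domA A).testBit (C.idx x) = true := by
            have e1' : b &&& domA A = b := e1
            rw [e1']; exact h5
          rw [Nat.testBit_and, Bool.and_eq_true] at h7
          exact h7.2
        obtain ⟨p, hp, e6⟩ := testBit_domA.mp h6
        refine ⟨p, hp, by rw [e6]; exact h5, ?_⟩
        obtain ⟨-, h8, h9⟩ := hi' p hp
        rw [e6, C.pt_idx] at h9
        exact C.pt_inj h8 hy' (by rw [← h9]; exact e5)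
      · rintro ⟨p, hp, h4, rfl⟩
        obtain ⟨h7, h8, h9⟩ := hi' p hp
        rw [← C.pt_mem_set h8, e4, ← h9]
        exact Finset.smul_mem_smul_finset ((C.pt_mem_set h7).mpr h4)
    · exact ih _ h3 hi'

theorem dgood_of_steiner {t k okm : ℕ} (hB : IsSteinerSystem t k B)
    (h : ∀ b ∈ B, ∀ c ∈ B, b ≠ c → okm.testBit (b ∩ c).card = true) : DGood t k okm B :=
  ⟨hB.1, fun _ hs => steiner_exists hB hs, fun _ hb _ hc hne => by
    by_contra h'; exact hne (steiner_eq hB hb hc (not_lt.mp h')), h⟩

end

end Cfsg.Agent.H14
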