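import Mathlib
import Cfsg.Agent.L1.Des

/-!
# The Steiner systems S(2,5,21), S(3,6,22), S(4,5,11), S(5,6,12) in a standard numbering
-/

set_option autoImplicit false
set_option maxRecDepth 100000

namespace Cfsg.Agent.H14

theorem steiner11_inter {α : Type*} [Fintype α] [DecidableEq α] {B : Set (Finset α)}
    {b : Finset α} (hα : Fintype.card α = 11) (hB : IsSteinerSystem 4 5 B) {c : Finset α}
    (hb : b ∈ B) (hc : c ∈ B) (hbc : b ≠ c) :
    (b ∩ c).card = 1 ∨ (b ∩ c).card = 2 ∨ (b ∩ c).card = 3 := by
  have h := tri_ne_zero (lam11_block hα hB hb le_rfl) hc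
  have h4 : (b ∩ c).card < 4 := by
    by_contra h'; exact hbc (steiner_eq hB hb hc (not_lt.mp h'))
  rw [hB.1 b hb] at h
  generalize (b ∩ c).card = i at h h4
  interval_cases i <;> first | omega | exact absurd (by decide) h

/-- labelling steps. -/
def dsteps21 : List (ℕ × ℕ × List (List (ℕ × ℕ))) := [
  (3, 31, [[]]), (33, 481, [[]]), (513, 7681, [[]]), (8193, 122881, [[]]), (131073, 1966081, []),
  (34, 139810, [[]]), (36, 279588, [[]]), (40, 559144, [[]]), (48, 1118256, []), (66, 1082434,
  [[], [(0, 5), (1, 16), (2, 12), (3, 4), (3, 20), (9, 14), (11, 2), (11, 18), (15, 1), (15, 17),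
  (19, 3)], [(0, 5), (1, 14), (2, 10), (3, 2), (4, 18), (9, 15), (3, 11), (12, 19), (1, 9), (16,
  17), (4, 12)], [(0, 5), (1, 16), (2, 12), (3, 4), (3, 20), (9, 15), (10, 11), (10, 3), (2, 19),
  (14, 9), (14, 1), (14, 17), (18, 10)], [(0, 5), (1, 14), (2, 10), (3, 2), (4, 18), (9, 16), (3,
  12), (11, 4), (3, 20), (1, 9), (15, 1), (15, 17), (19, 3)], [(0, 5), (1, 15), (2, 11), (4, 19),
  (9, 16), (10, 12), (2, 4), (10, 20), (14, 9), (14, 17), (18, 10)]]), (516, 590404, []), (8200,
  274504, []), (80, 149584, []), (130, 329858, [[], [(0, 6), (2, 20), (3, 10), (4, 15), (9, 17),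
  (3, 4), (11, 14), (12, 11), (13, 9), (12, 16), (3, 2), (12, 19), (18, 12)]]), (258, 545026, []),
  (132, 168068, []), (260, 1059076, []), (136, 1065608, []), (264, 197896, []), (144, 533648, []),
  (272, 295696, [])]

/-- the blocks. -/
def dL21 : List ℕ := [
  295696, 533648, 197896, 1065608, 1059076, 168068, 545026, 329858, 149584, 274504, 590404,
  1082434, 1118256, 559144, 279588, 139810, 1966081, 122881, 7681, 481, 31]

theorem drun21 : drun 0 1 21 2 5 2 dsteps21 [] [] = true := by decide +kernel

theorem dfin21 : dfinK dsteps21 [] = dL21 := by decide +kernel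

theorem dnd21 : nodupN dL21 = true := by decide +kernel

theorem dlen21 : dL21.length = 21 := by decide +kernel

theorem std21 {Ω : Type*} [Fintype Ω] [DecidableEq Ω] {B : Set (Finset Ω)}
    (h : Fintype.card Ω = 21) (hB : IsSteinerSystem 2 5 B) :
    ∃ C : Coord Ω, C.n = 21 ∧ B = C.fam dL21 := by
  have hg : DGood 2 5 2 B := dgood_of_steiner hB fun b hb c hc hne => by
    rw [steiner21_inter h hB hb hc hne]; decide
  have hs := drun_sound (by norm_num) (by norm_num) hg (lab := (coordOfCard h).pt)
    (fun b _ => by simp) dsteps21 [] [] drun21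
    (dst_nil h _ 0 (by norm_num) (by simp))
  rw [dfin21] at hs
  suffices H : B.ncard ≤ dL21.length by
    obtain ⟨C, hC, e⟩ := hs.eq_fam dnd21 H
    exact ⟨C, hC.1, e⟩
  have := steiner_ncard hB
  rw [h] at this
  rw [dlen21]
  norm_num [Nat.choose] at this
  omega

theorem dlt21 : ∀ m ∈ dL21, m < 2 ^ 21 := by decide +kernel

/-- labelling steps. -/
def dsteps21q : List (ℕ × ℕ × List (List (ℕ × ℕ))) := [
  (3, 115, [[]]), (12, 412, [[]]), (528, 7696, [[]]), (8208, 122896, [[]]), (131088, 1966096, []),
  (5, 139781, [[]]), (6, 279558, [[]]), (36, 559140, [[]]), (68, 1118276, []), (9, 1082377, [[],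
  [(13, 17), (14, 18), (15, 19), (16, 20)], [(9, 13), (10, 14), (11, 15), (12, 16)], [(9, 17),
  (10, 18), (11, 19), (12, 20), (13, 9), (14, 10), (15, 11), (16, 12)], [(9, 13), (10, 14), (11,
  15), (12, 16), (9, 17), (10, 18), (11, 19), (12, 20)], [(9, 17), (10, 18), (11, 19), (12,
  20)]]), (514, 590346, []), (8224, 274472, []), (2112, 149576, []), (129, 329857, [[], [(5, 6),
  (11, 12), (13, 17), (14, 18), (15, 20), (16, 19)]]), (257, 545025, []), (130, 168066, []), (258,
  1059074, []), (160, 1065632, []), (288, 197920, []), (192, 533696, []), (320, 295744, [])]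

/-- the blocks. -/
def dL21q : List ℕ := [
  295744, 533696, 197920, 1065632, 1059074, 168066, 545025, 329857, 149576, 274472, 590346,
  1082377, 1118276, 559140, 279558, 139781, 1966096, 122896, 7696, 412, 115]

theorem drun21q : drun 4 7 21 2 5 2 dsteps21q [] [] = true := by decide +kernel

theorem dfin21q : dfinK dsteps21q [] = dL21q := by decide +kernel

theorem dnd21q : nodupN dL21q = true := by decide +kernel

theorem dlen21q : dL21q.length = 21 := by decide +kernel

theorem std21q {Ω : Type*} [Fintype Ω] [DecidableEq Ω] {B : Set (Finset Ω)}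
    (h : Fintype.card Ω = 21) (hB : IsSteinerSystem 2 5 B)
    (lab : ℕ → Ω) (hl : ∀ i < 4, ∀ j < 4, lab i = lab j → i = j)
    (hx : ∀ b ∈ B, (b ∩ (Finset.range 4).image lab).card ≤ 2) :
    ∃ C : Coord Ω, DLab 21 4 lab C ∧ B = C.fam dL21q := by
  have hg : DGood 2 5 2 B := dgood_of_steiner hB fun b hb c hc hne => by
    rw [steiner21_inter h hB hb hc hne]; decide
  have hs := drun_sound (by norm_num) (by norm_num) hg (lab := lab)
    (fun b hb => by
      have := hx b hb
      generalize (b ∩ (Finset.range 4).image lab).card = i at this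
      interval_cases i <;> decide) dsteps21q [] [] drun21q
    (dst_nil h _ 4 (by norm_num) hl)
  rw [dfin21q] at hs
  refine hs.eq_fam dnd21q ?_
  have := steiner_ncard hB
  rw [h] at this
  rw [dlen21q]
  norm_num [Nat.choose] at this
  omega

theorem dlt21q : ∀ m ∈ dL21q, m < 2 ^ 21 := by decide +kernel

/-- labelling steps. -/
def dsteps21h : List (ℕ × ℕ × List (List (ℕ × ℕ))) := [
  (3, 451, [[]]), (12, 1612, [[]]), (17, 6673, [[]]), (18, 25618, [[]]), (36, 10404, [[]]), (40,
  20776, []), (5, 114693, [[]]), (6, 397318, [[]]), (20, 1573140, []), (9, 663561, [[]]), (33,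
  1311777, []), (262208, 804928, []), (640, 1196672, []), (10, 1083402, [[]]), (34, 590370, []),
  (24, 327832, []), (48, 163952, []), (4160, 1126464, []), (1152, 562304, []), (768, 303872, []),
  (1280, 199936, [])]

/-- the blocks. -/
def dL21h : List ℕ := [
  199936, 303872, 562304, 1126464, 163952, 327832, 590370, 1083402, 1196672, 804928, 1311777,
  663561, 1573140, 397318, 114693, 20776, 10404, 25618, 6673, 1612, 451]

theorem drun21h : drun 6 7 21 2 5 2 dsteps21h [] [] = true := by decide +kernel

theorem dfin21h : dfinK dsteps21h [] = dL21h := by decide +kernel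

theorem dnd21h : nodupN dL21h = true := by decide +kernel

theorem dlen21h : dL21h.length = 21 := by decide +kernel

theorem std21h {Ω : Type*} [Fintype Ω] [DecidableEq Ω] {B : Set (Finset Ω)}
    (h : Fintype.card Ω = 21) (hB : IsSteinerSystem 2 5 B)
    (lab : ℕ → Ω) (hl : ∀ i < 6, ∀ j < 6, lab i = lab j → i = j)
    (hx : ∀ b ∈ B, (b ∩ (Finset.range 6).image lab).card ≤ 2) :
    ∃ C : Coord Ω, DLab 21 6 lab C ∧ B = C.fam dL21h := by
  have hg : DGood 2 5 2 B := dgood_of_steiner hB fun b hb c hc hne => by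
    rw [steiner21_inter h hB hb hc hne]; decide
  have hs := drun_sound (by norm_num) (by norm_num) hg (lab := lab)
    (fun b hb => by
      have := hx b hb
      generalize (b ∩ (Finset.range 6).image lab).card = i at this
      interval_cases i <;> decide) dsteps21h [] [] drun21h
    (dst_nil h _ 6 (by norm_num) hl)
  rw [dfin21h] at hs
  refine hs.eq_fam dnd21h ?_
  have := steiner_ncard hB
  rw [h] at this
  rw [dlen21h]
  norm_num [Nat.choose] at this
  omega

theorem dlt21h : ∀ m ∈ dL21h, m < 2 ^ 21 := by decide +kernel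

/-- labelling steps. -/
def dsteps22 : List (ℕ × ℕ × List (List (ℕ × ℕ))) := [
  (7, 63, [[]]), (67, 963, [[]]), (1027, 15363, [[]]), (16387, 245763, [[]]), (262147, 3932163,
  []), (76, 3276, [[], [(2, 14), (3, 15), (4, 16), (5, 17), (10, 2), (11, 3), (12, 4), (13, 5)],
  [(2, 18), (3, 19), (4, 20), (5, 21), (10, 2), (11, 3), (12, 4), (13, 5), (14, 10), (15, 11),
  (16, 12), (17, 13)]]), (16404, 49492, [[], [(2, 10), (3, 11), (4, 12), (5, 13), (6, 2), (7, 3),
  (8, 4), (9, 5)]]), (69, 331845, [[]]), (70, 663622, [[]]), (4105, 659593, []), (65553, 598289,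
  []), (545, 401953, []), (138, 336010, []), (274, 397586, []), (546, 594466, []), (4108, 13068,
  []), (65556, 197268, []), (100, 3146340, []), (164, 786852, []), (88, 787032, []), (152,
  3146136, []), (104, 196968, []), (168, 49832, []), (112, 12528, []), (304, 3888, []), (19456,
  3197952, []), (68608, 986112, []), (28672, 847872, []), (77824, 3354624, []), (73, 1073225,
  [[]]), (133, 2138245, []), (32785, 1085969, []), (289, 2117921, []), (134, 1069190, []), (74,
  2134090, []), (530, 2122258, []), (290, 1089826, []), (147460, 2506764, []), (98308, 1671180,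
  []), (147472, 1720368, []), (98320, 2457648, []), (16576, 2703552, []), (32960, 1474752, []),
  (17152, 1393408, []), (33536, 2786048, []), (81, 2229329, [[]]), (261, 1181957, []), (517,
  542213, []), (265, 296201, []), (521, 2165257, []), (145, 280721, []), (97, 559201, []), (161,
  1115297, []), (262, 2163974, []), (518, 297478, []), (266, 542986, []), (522, 1181194, []), (82,
  1116242, []), (146, 558226, []), (98, 279650, []), (162, 2230434, []), (1044, 1319956, []),
  (2068, 2627604, []), (1060, 168996, []), (2084, 92196, []), (1048, 87064, []), (2072, 174104,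
  []), (1064, 2630696, []), (2088, 1316904, []), (1344, 1578304, []), (2368, 2369856, []), (1600,
  108096, []), (2624, 154176, []), (1408, 157056, []), (2432, 104832, []), (1664, 2365056, []),
  (2688, 1583744, [])]

/-- the blocks. -/
def dL22 : List ℕ := [
  1583744, 2365056, 104832, 157056, 154176, 108096, 2369856, 1578304, 1316904, 2630696, 174104,
  87064, 92196, 168996, 2627604, 1319956, 2230434, 279650, 558226, 1116242, 1181194, 542986,
  297478, 2163974, 1115297, 559201, 280721, 2165257, 296201, 542213, 1181957, 2229329, 2786048,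
  1393408, 1474752, 2703552, 2457648, 1720368, 1671180, 2506764, 1089826, 2122258, 2134090,
  1069190, 2117921, 1085969, 2138245, 1073225, 3354624, 847872, 986112, 3197952, 3888, 12528,
  49832, 196968, 3146136, 787032, 786852, 3146340, 197268, 13068, 594466, 397586, 336010, 401953,
  598289, 659593, 663622, 331845, 49492, 3276, 3932163, 245763, 15363, 963, 63]

theorem drun22 : drun 0 1 22 3 6 5 dsteps22 [] [] = true := by decide +kernel

theorem dfin22 : dfinK dsteps22 [] = dL22 := by decide +kernel

theorem dnd22 : nodupN dL22 = true := by decide +kernel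

theorem dlen22 : dL22.length = 77 := by decide +kernel

theorem std22 {Ω : Type*} [Fintype Ω] [DecidableEq Ω] {B : Set (Finset Ω)}
    (h : Fintype.card Ω = 22) (hB : IsSteinerSystem 3 6 B) :
    ∃ C : Coord Ω, C.n = 22 ∧ B = C.fam dL22 := by
  have hg : DGood 3 6 5 B := dgood_of_steiner hB fun b hb c hc hne => by
    rcases steiner22_inter h hB hb hc hne with e | e <;> rw [e] <;> decide
  have hs := drun_sound (by norm_num) (by norm_num) hg (lab := (coordOfCard h).pt)
    (fun b _ => by simp) dsteps22 [] [] drun22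
    (dst_nil h _ 0 (by norm_num) (by simp))
  rw [dfin22] at hs
  suffices H : B.ncard ≤ dL22.length by
    obtain ⟨C, hC, e⟩ := hs.eq_fam dnd22 H
    exact ⟨C, hC.1, e⟩
  have := steiner_ncard hB
  rw [h] at this
  rw [dlen22]
  norm_num [Nat.choose] at this
  omega

theorem dlt22 : ∀ m ∈ dL22, m < 2 ^ 22 := by decide +kernel

/-- labelling steps. -/
def dsteps11 : List (ℕ × ℕ × List (List (ℕ × ℕ))) := [
  (15, 31, [[]]), (39, 103, [[]]), (135, 391, [[]]), (519, 1543, []), (120, 121, [[]]), (1920,
  1921, []), (43, 171, [[], [(3, 5), (4, 6), (7, 9), (8, 10)]]), (643, 659, [[], [(3, 5), (4,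
  6)]]), (547, 803, []), (1059, 1075, []), (195, 1219, []), (579, 587, []), (1283, 1291, []),
  (297, 301, []), (553, 1577, []), (329, 457, []), (1097, 1101, []), (649, 653, []), (1161, 1177,
  []), (777, 793, []), (305, 433, []), (561, 565, []), (209, 213, []), (593, 1617, []), (1297,
  1301, []), (225, 737, []), (353, 1377, []), (1185, 1189, []), (833, 837, []), (338, 339, []),
  (46, 558, [[], [(2, 5), (4, 7), (2, 10), (6, 4), (6, 8), (6, 9), (6, 2)]]), (270, 334, []),
  (1038, 1166, []), (150, 182, []), (278, 790, []), (1046, 1110, []), (294, 1318, []), (198, 710,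
  []), (58, 314, []), (90, 218, []), (538, 1562, []), (106, 1130, []), (394, 906, []), (114, 626,
  []), (402, 1426, []), (226, 482, []), (674, 1698, []), (834, 1858, []), (60, 1084, []), (92,
  604, []), (156, 412, []), (108, 236, []), (780, 1804, []), (116, 372, []), (660, 1684, []),
  (612, 1636, []), (420, 932, []), (452, 1476, []), (184, 696, []), (344, 1368, []), (360, 872,
  []), (424, 1448, []), (712, 1736, []), (240, 1264, []), (816, 1840, []), (464, 976, [])]

/-- the blocks. -/
def dL11 : List ℕ := [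
  976, 1840, 1264, 1736, 1448, 872, 1368, 696, 1476, 932, 1636, 1684, 372, 1804, 236, 412, 604,
  1084, 1858, 1698, 482, 1426, 626, 906, 1130, 1562, 218, 314, 710, 1318, 1110, 790, 182, 1166,
  334, 558, 339, 837, 1189, 1377, 737, 1301, 1617, 213, 565, 433, 793, 1177, 653, 1101, 457, 1577,
  301, 1291, 587, 1219, 1075, 803, 659, 171, 1921, 121, 1543, 391, 103, 31]

theorem drun11 : drun 0 1 11 4 5 14 dsteps11 [] [] = true := by decide +kernel

theorem dfin11 : dfinK dsteps11 [] = dL11 := by decide +kernel

theorem dnd11 : nodupN dL11 = true := by decide +kernel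

theorem dlen11 : dL11.length = 66 := by decide +kernel

theorem std11 {Ω : Type*} [Fintype Ω] [DecidableEq Ω] {B : Set (Finset Ω)}
    (h : Fintype.card Ω = 11) (hB : IsSteinerSystem 4 5 B) :
    ∃ C : Coord Ω, C.n = 11 ∧ B = C.fam dL11 := by
  have hg : DGood 4 5 14 B := dgood_of_steiner hB fun b hb c hc hne => by
    rcases steiner11_inter h hB hb hc hne with e | e | e <;> rw [e] <;> decide
  have hs := drun_sound (by norm_num) (by norm_num) hg (lab := (coordOfCard h).pt)
    (fun b _ => by simp) dsteps11 [] [] drun11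
    (dst_nil h _ 0 (by norm_num) (by simp))
  rw [dfin11] at hs
  suffices H : B.ncard ≤ dL11.length by
    obtain ⟨C, hC, e⟩ := hs.eq_fam dnd11 H
    exact ⟨C, hC.1, e⟩
  have := steiner_ncard hB
  rw [h] at this
  rw [dlen11]
  norm_num [Nat.choose] at this
  omega

theorem dlt11 : ∀ m ∈ dL11, m < 2 ^ 11 := by decide +kernel

/-- labelling steps. -/
def dsteps12 : List (ℕ × ℕ × List (List (ℕ × ℕ))) := [
  (31, 63, [[]]), (1984, 4032, []), (79, 207, [[]]), (1840, 3888, []), (271, 783, [[]]), (1039,
  3087, []), (496, 1008, []), (1264, 3312, []), (241, 243, [[]]), (3841, 3843, []), (124, 252,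
  []), (1804, 3852, []), (87, 343, [[], [(4, 6), (5, 7), (8, 10), (9, 11)]]), (1704, 3752, []),
  (372, 1396, [[]]), (651, 2699, []), (468, 2516, []), (852, 860, []), (3236, 3492, []), (1832,
  1896, []), (2952, 2968, []), (151, 2199, []), (535, 1559, []), (103, 1127, []), (583, 2631, []),
  (647, 679, []), (1159, 1415, []), (2311, 2343, []), (91, 603, []), (2075, 2331, []), (171, 427,
  []), (555, 1579, []), (2091, 2155, []), (331, 1355, []), (1163, 1179, []), (1075, 1331, []),
  (2099, 2611, []), (1107, 3155, []), (403, 915, []), (355, 867, []), (1187, 3235, []), (451,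
  2499, []), (707, 1731, []), (316, 2364, []), (572, 1596, []), (1180, 3228, []), (1132, 3180,
  []), (428, 940, []), (460, 1484, []), (716, 2764, []), (692, 2740, []), (1620, 3668, []), (916,
  1940, []), (740, 1764, []), (868, 2916, []), (632, 2680, []), (440, 1464, []), (728, 1752, []),
  (1368, 3416, []), (488, 2536, []), (93, 1117, [[], [(3, 11), (5, 7), (6, 3), (5, 10), (8, 5),
  (9, 8), (9, 6)]]), (285, 413, []), (541, 2589, []), (557, 621, []), (2093, 2221, []), (333,
  2381, []), (653, 1677, []), (1293, 1325, []), (117, 2165, []), (181, 1205, []), (309, 821, []),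
  (213, 725, []), (1301, 3349, []), (229, 485, []), (1573, 3621, []), (1221, 3269, []), (837,
  1861, []), (901, 2949, []), (121, 377, []), (185, 697, []), (1081, 3129, []), (217, 2265, []),
  (793, 1817, []), (233, 1257, []), (809, 2857, []), (457, 969, []), (1609, 3657, []), (1417,
  3465, []), (625, 1649, []), (433, 2481, []), (465, 1489, []), (849, 2897, []), (1681, 3729, []),
  (737, 2785, []), (1377, 3425, []), (929, 1953, []), (94, 2142, []), (158, 670, []), (286, 1310,
  []), (110, 366, []), (174, 1198, []), (558, 2606, []), (590, 1614, []), (398, 2446, []), (118,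
  630, []), (182, 438, []), (1078, 3126, []), (214, 1238, []), (790, 2838, []), (230, 2278, []),
  (806, 1830, []), (454, 966, []), (1350, 3398, []), (1670, 3718, []), (122, 1146, []), (186,
  2234, []), (314, 826, []), (218, 474, []), (1562, 3610, []), (234, 746, []), (1322, 3370, []),
  (1226, 3274, []), (842, 2890, []), (906, 1930, []), (370, 2418, []), (690, 1714, []), (722,
  2770, []), (850, 1874, []), (1426, 3474, []), (482, 1506, []), (1634, 3682, []), (930, 2978, [])]

/-- the blocks. -/
def dL12 : List ℕ := [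
  2978, 3682, 1506, 3474, 1874, 2770, 1714, 2418, 1930, 2890, 3274, 3370, 746, 3610, 474, 826,
  2234, 1146, 3718, 3398, 966, 1830, 2278, 2838, 1238, 3126, 438, 630, 2446, 1614, 2606, 1198,
  366, 1310, 670, 2142, 1953, 3425, 2785, 3729, 2897, 1489, 2481, 1649, 3465, 3657, 969, 2857,
  1257, 1817, 2265, 3129, 697, 377, 2949, 1861, 3269, 3621, 485, 3349, 725, 821, 1205, 2165, 1325,
  1677, 2381, 2221, 621, 2589, 413, 1117, 2536, 3416, 1752, 1464, 2680, 2916, 1764, 1940, 3668,
  2740, 2764, 1484, 940, 3180, 3228, 1596, 2364, 1731, 2499, 3235, 867, 915, 3155, 2611, 1331,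
  1179, 1355, 2155, 1579, 427, 2331, 603, 2343, 1415, 679, 2631, 1127, 1559, 2199, 2968, 1896,
  3492, 860, 2516, 2699, 1396, 3752, 343, 3852, 252, 3843, 243, 3312, 1008, 3087, 783, 3888, 207,
  4032, 63]

theorem drun12 : drun 0 1 12 5 6 29 dsteps12 [] [] = true := by decide +kernel

theorem dfin12 : dfinK dsteps12 [] = dL12 := by decide +kernel

theorem dnd12 : nodupN dL12 = true := by decide +kernel

theorem dlen12 : dL12.length = 132 := by decide +kernel

theorem std12 {Ω : Type*} [Fintype Ω] [DecidableEq Ω] {B : Set (Finset Ω)}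
    (h : Fintype.card Ω = 12) (hB : IsSteinerSystem 5 6 B) :
    ∃ C : Coord Ω, C.n = 12 ∧ B = C.fam dL12 := by
  have hg : DGood 5 6 29 B := dgood_of_steiner hB fun b hb c hc hne => by
    rcases steiner12_inter h hB hb hc hne with e | e | e | e <;> rw [e] <;> decide
  have hs := drun_sound (by norm_num) (by norm_num) hg (lab := (coordOfCard h).pt)
    (fun b _ => by simp) dsteps12 [] [] drun12
    (dst_nil h _ 0 (by norm_num) (by simp))
  rw [dfin12] at hs
  suffices H : B.ncard ≤ dL12.length by
    obtain ⟨C, hC, e⟩ := hs.eq_fam dnd12 H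
    exact ⟨C, hC.1, e⟩
  have := steiner_ncard hB
  rw [h] at this
  rw [dlen12]
  norm_num [Nat.choose] at this
  omega

theorem dlt12 : ∀ m ∈ dL12, m < 2 ^ 12 := by decide +kernel

theorem autfix11 {Ω : Type*} [Fintype Ω] [DecidableEq Ω] {C : Coord Ω} (hC : C.n = 11)
    {g : Equiv.Perm Ω} (hg : g ∈ setSystemAut (C.fam dL11)) (h : ∀ i < 4, g (C.pt i) = C.pt i) :
    g = 1 := by
  refine autChk_sound (by rw [hC]; exact dlt11) hg
    [(4, [31]), (5, []), (6, [121, 103]), (7, [236, 218]), (8, [372]), (9, [976]), (10, [])]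
    [(0, 0), (1, 1), (2, 2), (3, 3)] (by rw [hC]; decide +kernel) ?_
  rw [hC]
  simp only [List.mem_cons, List.not_mem_nil, or_false, forall_eq_or_imp, forall_eq]
  refine ⟨?_, ?_, ?_, ?_⟩ <;> exact ⟨by norm_num, by norm_num, h _ (by norm_num)⟩

theorem autfix12 {Ω : Type*} [Fintype Ω] [DecidableEq Ω] {C : Coord Ω} (hC : C.n = 12)
    {g : Equiv.Perm Ω} (hg : g ∈ setSystemAut (C.fam dL12)) (h : ∀ i < 5, g (C.pt i) = C.pt i) :
    g = 1 := by
  refine autChk_sound (by rw [hC]; exact dlt12) hg
    [(5, [63]), (6, []), (7, [252, 243]), (8, [474, 438]), (9, [746]), (10, [1506]), (11, [])]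
    [(0, 0), (1, 1), (2, 2), (3, 3), (4, 4)] (by rw [hC]; decide +kernel) ?_
  rw [hC]
  simp only [List.mem_cons, List.not_mem_nil, or_false, forall_eq_or_imp, forall_eq]
  refine ⟨?_, ?_, ?_, ?_, ?_⟩ <;> exact ⟨by norm_num, by norm_num, h _ (by norm_num)⟩

theorem autfix21h {Ω : Type*} [Fintype Ω] [DecidableEq Ω] {C : Coord Ω} (hC : C.n = 21)
    {g : Equiv.Perm Ω} (hg : g ∈ setSystemAut (C.fam dL21h)) (h : ∀ i < 6, g (C.pt i) = C.pt i) :
    g = 1 := by
  refine autChk_sound (by rw [hC]; exact dlt21h) hg
    [(6, []), (7, []), (8, [451]), (9, []), (10, [1612]), (11, []), (12, [6673]), (13, [10404]), (14, [20776]), (15, []), (16, [114693]), (17, [199936]), (18, [303872]), (19, [562304]), (20, [])]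
    [(0, 0), (1, 1), (2, 2), (3, 3), (4, 4), (5, 5)] (by rw [hC]; decide +kernel) ?_
  rw [hC]
  simp only [List.mem_cons, List.not_mem_nil, or_false, forall_eq_or_imp, forall_eq]
  refine ⟨?_, ?_, ?_, ?_, ?_, ?_⟩ <;> exact ⟨by norm_num, by norm_num, h _ (by norm_num)⟩

end Cfsg.Agent.H14
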