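import Mathlib
import Cfsg.Agent.H14.M24f
import Cfsg.Agent.L1.Des

/-!
# Designs inside the Golay code and their automorphism groups
-/

set_option autoImplicit false
set_option linter.unusedSectionVars false

namespace Cfsg.Agent.H14

open MulAction
open scoped Pointwise

section general
variable {X : Type*} [DecidableEq X]

/-- a Steiner system on the subset `U`. -/
structure RelSt (t k : ℕ) (U : Finset X) (F : Set (Finset X)) : Prop where
  sub : ∀ s ∈ F, s ⊆ U
  card : ∀ s ∈ F, s.card = k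
  ex : ∀ s ⊆ U, s.card = t → ∃! b, b ∈ F ∧ s ⊆ b

theorem RelSt.derive {t k c : ℕ} {U P : Finset X} {F : Set (Finset X)}
    (h : RelSt (t + c) (k + c) U F) (hP : P ⊆ U) (hc : P.card = c) :
    RelSt t k (U \ P) {s | Disjoint s P ∧ s ∪ P ∈ F} := by
  refine ⟨fun s hs => Finset.subset_sdiff.mpr
    ⟨Finset.subset_union_left.trans (h.sub _ hs.2), hs.1⟩, fun s hs => ?_, fun s hs hst => ?_⟩
  · have := h.card _ hs.2
    rw [Finset.card_union_of_disjoint hs.1] at this
    omega
  · have hd : Disjoint s P := (Finset.subset_sdiff.mp hs).2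
    obtain ⟨b, ⟨hb, hsb⟩, hu⟩ := h.ex (s ∪ P)
      (Finset.union_subset (hs.trans Finset.sdiff_subset) hP)
      (by rw [Finset.card_union_of_disjoint hd, hst, hc])
    have hPb : P ⊆ b := Finset.subset_union_right.trans hsb
    refine ⟨b \ P, ⟨⟨Finset.sdiff_disjoint, by rwa [Finset.sdiff_union_of_subset hPb]⟩,
      Finset.subset_sdiff.mpr ⟨Finset.subset_union_left.trans hsb, hd⟩⟩, ?_⟩
    rintro b' ⟨⟨h1, h2⟩, h3⟩
    rw [← hu _ ⟨h2, Finset.union_subset_union h3 subset_rfl⟩, Finset.union_sdiff_right,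
      Finset.sdiff_eq_self_of_disjoint h1]

theorem exists_image_eq {α : Type*} [Fintype α] {ι : α → X} {U s : Finset X}
    (hU : ∀ x, x ∈ U ↔ ∃ a, ι a = x) (hs : s ⊆ U) : ∃ b : Finset α, b.image ι = s := by
  refine ⟨Finset.univ.filter fun a => ι a ∈ s, ?_⟩
  ext x
  simp only [Finset.mem_image, Finset.mem_filter, Finset.mem_univ, true_and]
  constructor
  · rintro ⟨a, ha, rfl⟩; exact ha
  · intro hx
    obtain ⟨a, rfl⟩ := (hU x).mp (hs hx)
    exact ⟨a, hx, rfl⟩

theorem RelSt.steiner_of_emb {α : Type*} [Fintype α] {t k : ℕ} {U : Finset X}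
    {F : Set (Finset X)} (h : RelSt t k U F) {ι : α → X} (hι : Function.Injective ι)
    (hU : ∀ x, x ∈ U ↔ ∃ a, ι a = x) : IsSteinerSystem t k {b : Finset α | b.image ι ∈ F} := by
  refine ⟨fun b hb => by rw [← h.card _ hb, Finset.card_image_of_injective _ hι], fun s hs => ?_⟩
  obtain ⟨b, ⟨hb, hsb⟩, hu⟩ := h.ex (s.image ι) (fun x hx => by
    obtain ⟨a, -, rfl⟩ := Finset.mem_image.mp hx
    exact (hU _).mpr ⟨a, rfl⟩) (by rw [Finset.card_image_of_injective _ hι, hs])
  obtain ⟨b, rfl⟩ := exists_image_eq hU (h.sub _ hb)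
  refine ⟨b, ⟨hb, (Finset.image_subset_image_iff hι).mp hsb⟩, ?_⟩
  rintro b' ⟨h1, h2⟩
  exact Finset.image_injective hι (hu _ ⟨h1, Finset.image_subset_image h2⟩)

theorem RelSt.steiner {t k : ℕ} {U : Finset X} {F : Set (Finset X)} (h : RelSt t k U F) :
    IsSteinerSystem t k {b : Finset U | b.image Subtype.val ∈ F} :=
  h.steiner_of_emb Subtype.val_injective (fun x => by simp)

theorem iso_iff {α β : Type*} [DecidableEq β] {B : Set (Finset α)} {B' : Set (Finset β)}
    (h : SetSystemIso B B') : ∃ e : α ≃ β, ∀ b, b ∈ B ↔ b.image e ∈ B' := by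
  obtain ⟨e, rfl⟩ := h
  refine ⟨e, fun b => ⟨fun hb => ⟨b, hb, rfl⟩, ?_⟩⟩
  rintro ⟨b', hb', e'⟩
  classical
  rwa [← Finset.image_injective e.injective e']

/-- the design `B` is the family `F` on `U`. -/
structure DEmb {α : Type*} (B : Set (Finset α)) (ι : α → X) (U : Finset X)
    (F : Set (Finset X)) : Prop where
  inj : Function.Injective ι
  ran : ∀ x, x ∈ U ↔ ∃ a, ι a = x
  mem : ∀ b, b ∈ B ↔ b.image ι ∈ F
  sub : ∀ s ∈ F, s ⊆ U

theorem exists_demb {α : Type*} {B : Set (Finset α)} {U : Finset X} {F : Set (Finset X)}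
    (hF : ∀ s ∈ F, s ⊆ U) (h : SetSystemIso B {b : Finset U | b.image Subtype.val ∈ F}) :
    ∃ ι : α → X, DEmb B ι U F := by
  obtain ⟨e, he⟩ := iso_iff h
  refine ⟨fun a => (e a : X), Subtype.val_injective.comp e.injective, fun x => ⟨fun hx => ?_, ?_⟩,
    fun b => ?_, hF⟩
  · exact ⟨e.symm ⟨x, hx⟩, by simp⟩
  · rintro ⟨a, rfl⟩; exact (e a).2
  · rw [he, Set.mem_ofPred_eq, Finset.image_image]; rfl

variable {α : Type*} [Fintype α] [DecidableEq α] {B : Set (Finset α)} {ι : α → X} {U : Finset X}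
  {F : Set (Finset X)} {G : Type*} [Group G] [MulAction G X]

theorem image_smul_of {σ : Equiv.Perm α} {g : G} (h : ∀ a, ι (σ a) = g • ι a) (b : Finset α) :
    (σ • b).image ι = g • b.image ι := by
  rw [Finset.smul_finset_def, Finset.smul_finset_def, Finset.image_image, Finset.image_image]
  exact Finset.image_congr fun a _ => h a

theorem DEmb.restrict (H : DEmb B ι U F) {g : G} (hU : ∀ x ∈ U, g • x ∈ U)
    (hF : ∀ s ∈ F, g • s ∈ F) : ∃ σ ∈ setSystemAut B, ∀ a, ι (σ a) = g • ι a := by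
  have h : ∀ a, ∃ a', ι a' = g • ι a := fun a => (H.ran _).mp (hU _ ((H.ran _).mpr ⟨a, rfl⟩))
  choose f hf using h
  have hi : Function.Injective f := fun a a' e => by
    apply H.inj
    apply MulAction.injective g
    show g • ι a = g • ι a'
    rw [← hf, ← hf, e]
  refine ⟨Equiv.ofBijective f (Finite.injective_iff_bijective.mp hi), ?_, hf⟩
  refine mem_stabilizer_of_maps (Set.toFinite _) fun b hb => ?_
  rw [H.mem, image_smul_of (g := g) hf]
  exact hF _ ((H.mem b).mp hb)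

theorem DEmb.extend (H : DEmb B ι U F) {σ : Equiv.Perm α} (hσ : σ ∈ setSystemAut B) :
    ∃ g : Equiv.Perm X, (∀ a, ι (σ a) = g • ι a) ∧ (∀ x, x ∉ U → g x = x) ∧
      (∀ s ∈ F, g • s ∈ F) ∧ ∀ s ∈ F, g⁻¹ • s ∈ F := by
  let j : α ↪ X := ⟨ι, H.inj⟩
  have h1 : ∀ a, ι (σ a) = σ.viaEmbedding j • ι a := fun a => (σ.viaEmbedding_apply j a).symm
  refine ⟨σ.viaEmbedding j, h1, fun x hx => σ.viaEmbedding_apply_of_notMem j x
    (fun ⟨a, ha⟩ => hx ((H.ran x).mpr ⟨a, ha⟩)), fun s hs => ?_, fun s hs => ?_⟩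
  · obtain ⟨b, rfl⟩ := exists_image_eq H.ran (H.sub s hs)
    rw [← image_smul_of h1, ← H.mem]
    have : σ • b ∈ σ • B := Set.smul_mem_smul_set ((H.mem b).mpr hs)
    rwa [mem_stabilizer_iff.mp hσ] at this
  · obtain ⟨b, rfl⟩ := exists_image_eq H.ran (H.sub s hs)
    have h2 : ∀ a, ι (σ⁻¹ a) = (σ.viaEmbedding j)⁻¹ • ι a := fun a => by
      rw [eq_inv_smul_iff, ← h1]; simp
    rw [← image_smul_of h2, ← H.mem]
    have : σ⁻¹ • b ∈ σ⁻¹ • B := Set.smul_mem_smul_set ((H.mem b).mpr hs)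
    rwa [mem_stabilizer_iff.mp (inv_mem hσ)] at this

omit [DecidableEq X] in
theorem aut_equiv (K : Subgroup G) (hι : Function.Injective ι) (A : Subgroup (Equiv.Perm α))
    (h1 : ∀ g ∈ K, ∃ σ ∈ A, ∀ a, ι (σ a) = g • ι a)
    (h2 : ∀ σ ∈ A, ∃ g ∈ K, ∀ a, ι (σ a) = g • ι a)
    (hf : ∀ g ∈ K, (∀ a, g • ι a = ι a) → g = 1) : Nonempty (K ≃* A) := by
  choose f hfA hfs using h1
  let ρ : K →* A := MonoidHom.mk' (fun g => ⟨f g.1 g.2, hfA g.1 g.2⟩) fun g g' => by
    apply Subtype.ext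
    ext a
    apply hι
    show ι (f _ _ a) = ι (f _ _ (f _ _ a))
    rw [hfs, hfs, hfs, Subgroup.coe_mul, mul_smul]
  refine ⟨MulEquiv.ofBijective ρ ⟨(injective_iff_map_eq_one ρ).mpr fun g hg => ?_, fun σ => ?_⟩⟩
  · apply Subtype.ext
    apply hf _ g.2
    intro a
    have : f g.1 g.2 = 1 := congrArg Subtype.val hg
    rw [← hfs g.1 g.2, this]; rfl
  · obtain ⟨g, hg, e⟩ := h2 σ.1 σ.2
    refine ⟨⟨g, hg⟩, Subtype.ext (Equiv.ext fun a => hι ?_)⟩
    show ι (f g hg a) = _
    rw [hfs, e]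

omit [DecidableEq X] in
theorem aut_mtrans (K : Subgroup G) (hι : Function.Injective ι) (A : Subgroup (Equiv.Perm α))
    (h1 : ∀ g ∈ K, ∃ σ ∈ A, ∀ a, ι (σ a) = g • ι a) {k : ℕ}
    (ht : ∀ x y : Fin k → α, Function.Injective x → Function.Injective y →
      ∃ g ∈ K, ∀ i, g • ι (x i) = ι (y i)) : IsMultiplyPretransitive A α k := by
  refine ⟨fun x y => ?_⟩
  obtain ⟨g, hg, e⟩ := ht x y x.injective y.injective
  obtain ⟨σ, hσ, e'⟩ := h1 g hg
  refine ⟨⟨σ, hσ⟩, Function.Embedding.ext fun i => hι ?_⟩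
  show ι (σ (x i)) = _
  rw [e', e]

omit [DecidableEq X] in
/-- automorphisms are induced when the induced group is transitive on bases. -/
theorem aut_of_base (K : Subgroup G) (hι : Function.Injective ι) (A : Subgroup (Equiv.Perm α))
    (h1 : ∀ g ∈ K, ∃ σ ∈ A, ∀ a, ι (σ a) = g • ι a) {k : ℕ}
    (ht : ∀ x y : Fin k → α, Function.Injective x → Function.Injective y →
      ∃ g ∈ K, ∀ i, g • ι (x i) = ι (y i)) (x : Fin k → α) (hx : Function.Injective x)
    (hb : ∀ σ ∈ A, (∀ i, σ (x i) = x i) → σ = 1) :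
    ∀ σ ∈ A, ∃ g ∈ K, ∀ a, ι (σ a) = g • ι a := by
  intro σ hσ
  obtain ⟨g, hg, e⟩ := ht x (σ ∘ x) hx (σ.injective.comp hx)
  obtain ⟨τ, hτ, e'⟩ := h1 g hg
  have := hb (τ⁻¹ * σ) (mul_mem (inv_mem hτ) hσ) fun i => by
    rw [Equiv.Perm.mul_apply, Equiv.Perm.inv_eq_iff_eq]
    apply hι
    rw [e', e]; rfl
  rw [inv_mul_eq_one] at this
  exact ⟨g, hg, this ▸ e'⟩

end general

/-! ### the Golay designs -/

theorem relst_octads : RelSt 5 8 Finset.univ octads :=
  ⟨fun _ _ => Finset.subset_univ _, steiner_octads.1, fun s _ hs => steiner_octads.2 s hs⟩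

theorem card_inter_dodecad_le {o d : Finset GolayPt} (ho : o ∈ octads) (hd : d ∈ dodecads) :
    (o ∩ d).card ≤ 6 := by
  have h1 := card_symmDiff_add o d
  have h2 := gcode_card (symmDiff_mem_gcode ho.1 hd.1)
  have h3 : (o ∩ d).card ≤ o.card := Finset.card_le_card Finset.inter_subset_left
  rw [(mem_octads.mp ho).2, (mem_dodecads.mp hd).2] at *
  omega

theorem relst_hexads {d : Finset GolayPt} (hd : d ∈ dodecads) : RelSt 5 6 d (hexadsOn d) := by
  refine ⟨?_, fun s hs => hs.1, fun s hs h5 => ?_⟩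
  · rintro _ ⟨-, o, -, rfl⟩; exact Finset.inter_subset_right
  · obtain ⟨o, ⟨ho, hso⟩, hu⟩ := steiner_octads.2 s h5
    have hsub : s ⊆ o ∩ d := Finset.subset_inter hso hs
    have h1 := card_inter_dodecad_le ho hd
    have h2 := Finset.card_le_card hsub
    obtain ⟨c, h3⟩ := gcode_inter_even ho.1 hd.1
    refine ⟨o ∩ d, ⟨⟨by omega, o, ho, rfl⟩, hsub⟩, ?_⟩
    rintro _ ⟨⟨-, o', ho', rfl⟩, h4⟩
    rw [hu o' ⟨ho', h4.trans Finset.inter_subset_left⟩]

/-- eleven octads through `∞` and `0`. -/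
def oL11 : List ℕ := [0xc75001, 0x8ea003, 0xa96009, 0x88d015, 0xa58025, 0x91104d, 0xd98081, 0xb30103,
  0xbc1201, 0xa23405, 0xf04805]
/-- twelve octads through `∞` that span the code. -/
def oL12 : List ℕ := 0xd4b004 :: oL11

theorem even_symmDiff_inter {α : Type*} [DecidableEq α] {a b l : Finset α}
    (ha : Even (a ∩ l).card) (hb : Even (b ∩ l).card) : Even (symmDiff a b ∩ l).card := by
  have e : symmDiff a b ∩ l = symmDiff (a ∩ l) (b ∩ l) := by
    ext x; simp only [Finset.mem_inter, Finset.mem_symmDiff]; tauto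
  have := card_symmDiff_add (a ∩ l) (b ∩ l)
  rw [e]
  obtain ⟨x, hx⟩ := ha
  obtain ⟨y, hy⟩ := hb
  exact ⟨x + y - (a ∩ l ∩ (b ∩ l)).card, by omega⟩

theorem oL12_oct : ∀ l ∈ oL12, gC.set l ∈ octads := fun l hl =>
  (isOct_iff.mp (allL_iff.mp (by decide +kernel : allL oL12 isOct = true) l hl)).2

theorem gcode_of_orth {s : Finset GolayPt} (h : ∀ l ∈ oL12, Even (s ∩ gC.set l).card) :
    s ∈ GCode := by
  obtain ⟨m, hm, rfl⟩ := gC.exists_mask s
  have hm' : m < 2 ^ 24 := hm
  rw [set_mem_gcode hm']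
  have e : syn m <<< 12 = m ^^^ cw m := by
    conv_rhs => rw [eq_cw_xor_syn hm']
    rw [← eq_cw_xor_syn hm']
    conv_rhs => lhs; rw [eq_cw_xor_syn hm']
    rw [Nat.xor_comm (cw m), Nat.xor_assoc, Nat.xor_self, Nat.xor_zero]
  have H : allLt2 64 64 (fun c => bor (Nat.beq c 0) (force (Nat.shiftLeft c 12) fun u =>
      anyL oL12 fun l => Nat.beq (Nat.mod (pop24 (Nat.land u l)) 2) 1)) = true := by
    decide +kernel
  have h1 := allLt2_iff.mp H (syn m) (syn_lt m)
  rw [bor_iff, nbeq_iff, force_eq, anyL_iff] at h1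
  rcases h1 with h1 | ⟨l, hl, h1⟩
  · exact h1
  · exfalso
    have h2 := even_symmDiff_inter (h l hl)
      (gcode_inter_even (isCW_cw m).set_mem (oL12_oct l hl).1)
    rw [← gC.set_xor, ← e, card_inter_gset] at h2
    have h3 : pop24 (Nat.land (syn m <<< 12) l) % 2 = 1 := nbeq_iff.mp h1
    obtain ⟨c, hc⟩ := h2
    omega

theorem mem_M24_of_oL12 {g : Equiv.Perm GolayPt} (h : ∀ l ∈ oL12, g • gC.set l ∈ GCode) :
    g ∈ M24 := by
  rw [← inv_mem_iff]
  refine mem_M24_of_forall fun s hs => gcode_of_orth fun l hl => ?_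
  rw [← Finset.card_smul_finset g, Finset.smul_finset_inter, smul_inv_smul]
  exact gcode_inter_even hs (h l hl)

theorem gcode_of_orth_all {s : Finset GolayPt} (h : ∀ o ∈ octads, Even (s ∩ o).card) :
    s ∈ GCode := gcode_of_orth fun l hl => h _ (oL12_oct l hl)

/-- the design of the octads through `P`. -/
abbrev octP (P : Finset GolayPt) : Set (Finset GolayPt) := {s | Disjoint s P ∧ s ∪ P ∈ octads}

theorem smul_octP {P s : Finset GolayPt} {g : M24} (hg : g • P = P) (hs : s ∈ octP P) :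
    g • s ∈ octP P := by
  refine ⟨?_, ?_⟩
  · rw [← hg, Finset.disjoint_iff_inter_eq_empty, ← Finset.smul_finset_inter,
      Finset.disjoint_iff_inter_eq_empty.mp hs.1, Finset.smul_finset_empty]
  · rw [← hg, ← Finset.smul_finset_union, m24_smul_octads]; exact hs.2

theorem smul_oct_of_octP {P o : Finset GolayPt} {g : Equiv.Perm GolayPt}
    (hP : ∀ x ∈ P, g x = x) (hF : ∀ s ∈ octP P, g • s ∈ octP P) (ho : o ∈ octads) (hPo : P ⊆ o) :
    g • o ∈ octads ∧ P ⊆ g • o := by
  have e : g • P = P := smul_finset_of_fix hP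
  have h1 := (hF (o \ P) ⟨Finset.sdiff_disjoint, by rwa [Finset.sdiff_union_of_subset hPo]⟩).2
  rw [← e, ← Finset.smul_finset_union, e, Finset.sdiff_union_of_subset hPo] at h1
  exact ⟨h1, by rw [← e]; exact Finset.smul_finset_subset_smul_finset hPo⟩

theorem mem_M24_of_octP1 {g : Equiv.Perm GolayPt} (hP : g none = none)
    (hF : ∀ s ∈ octP {none}, g • s ∈ octP {none}) : g ∈ M24 :=
  mem_M24_of_oL12 fun l hl => (smul_oct_of_octP (by simpa using hP) hF (oL12_oct l hl)
    (Finset.singleton_subset_iff.mpr ((gC.pt_mem_set (i := 23) (by decide)).mpr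
      (by revert l; decide)))).1.1

theorem set_pair : gC.set 0x800001 = {none, some 0} := by decide +kernel

theorem mem_M24_of_octP2 {g : Equiv.Perm GolayPt} (h1 : g none = none) (h2 : g (some 0) = some 0)
    (hF : ∀ s ∈ octP {none, some 0}, g • s ∈ octP {none, some 0})
    (hF' : ∀ s ∈ octP {none, some 0}, g⁻¹ • s ∈ octP {none, some 0}) :
    g ∈ M24 ∨ Equiv.swap none (some 0) * g ∈ M24 := by
  have hP : ∀ x ∈ ({none, some 0} : Finset GolayPt), g x = x := by simp [h1, h2]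
  have hP' : ∀ x ∈ ({none, some 0} : Finset GolayPt), g⁻¹ x = x := fun x hx => by
    rw [Equiv.Perm.inv_eq_iff_eq, hP x hx]
  have hsub : ∀ l ∈ oL11, ({none, some 0} : Finset GolayPt) ⊆ gC.set l := fun l hl => by
    rw [← set_pair, gC.set_subset_iff (by decide)]
    revert l; decide
  have hl12 : ∀ l ∈ oL11, l ∈ oL12 := fun l hl => List.mem_cons_of_mem _ hl
  have hO := oL12_oct 0xd4b004 List.mem_cons_self
  have hsw : ∀ s : Finset GolayPt, ({none, some 0} : Finset GolayPt) ⊆ s →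
      Equiv.swap (none : GolayPt) (some 0) • s = s := fun s hs => by
    apply Finset.eq_of_subset_of_card_le _ (by rw [Finset.card_smul_finset])
    intro x hx
    obtain ⟨y, hy, rfl⟩ := Finset.mem_smul_finset.mp hx
    show Equiv.swap _ _ y ∈ s
    rw [Equiv.swap_apply_def]
    split_ifs
    · exact hs (by simp)
    · exact hs (by simp)
    · exact hy
  have hev : ∀ l ∈ oL11, Even (g • gC.set 0xd4b004 ∩ gC.set l).card := fun l hl => by
    rw [← Finset.card_smul_finset g⁻¹, Finset.smul_finset_inter, inv_smul_smul]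
    exact gcode_inter_even hO.1 (smul_oct_of_octP hP' hF' (oL12_oct l (hl12 l hl)) (hsub l hl)).1.1
  have hn : (none : GolayPt) ∈ gC.set 0xd4b004 := by decide +kernel
  have h0 : (some 0 : GolayPt) ∉ gC.set 0xd4b004 := by decide +kernel
  rcases Nat.even_or_odd (g • gC.set 0xd4b004 ∩ gC.set 0xd4b004).card with he | he
  · left
    refine mem_M24_of_oL12 fun l hl => ?_
    rcases List.mem_cons.mp hl with rfl | hl'
    · refine gcode_of_orth fun l hl => ?_
      rcases List.mem_cons.mp hl with rfl | hl'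
      · exact he
      · exact hev l hl'
    · exact (smul_oct_of_octP hP hF (oL12_oct l hl) (hsub l hl')).1.1
  · right
    refine mem_M24_of_oL12 fun l hl => ?_
    rcases List.mem_cons.mp hl with rfl | hl'
    · refine gcode_of_orth fun l hl => ?_
      rw [mul_smul]
      rcases List.mem_cons.mp hl with rfl | hl'
      · have hn' : (none : GolayPt) ∈ g • gC.set 0xd4b004 := by
          have := Finset.smul_mem_smul_finset (a := g) hn
          rwa [show g • (none : GolayPt) = none from h1] at this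
        have h0' : (some 0 : GolayPt) ∉ g • gC.set 0xd4b004 := fun h => h0 (by
          rwa [← show g • (some 0 : GolayPt) = some 0 from h2, Finset.smul_mem_smul_finset_iff] at h)
        generalize g • gC.set 0xd4b004 = A at he hn' h0'
        generalize gC.set 0xd4b004 = O at he hn h0
        have e : Equiv.swap (none : GolayPt) (some 0) • A ∩ O = (A ∩ O).erase none := by
          ext x
          rw [Finset.mem_inter, ← Finset.inv_smul_mem_iff, Equiv.swap_inv, Finset.mem_erase,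
            Finset.mem_inter]
          show Equiv.swap _ _ x ∈ A ∧ _ ↔ _
          rw [Equiv.swap_apply_def]
          split_ifs with a b
          · subst a; simp [h0']
          · subst b; simp [h0]
          · simp [a]
        rw [e, Finset.card_erase_of_mem (Finset.mem_inter.mpr ⟨hn', hn⟩)]
        obtain ⟨c, hc⟩ := he
        exact ⟨c, by omega⟩
      · rw [← hsw _ (hsub l hl'), ← Finset.smul_finset_inter, Finset.card_smul_finset]
        exact hev l hl'
    · obtain ⟨a, b⟩ := smul_oct_of_octP hP hF (oL12_oct l hl) (hsub l hl')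
      rw [mul_smul, hsw _ b]
      exact a.1

end Cfsg.Agent.H14
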