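import Mathlib
import Cfsg.Agent.L1.DesA
import Cfsg.Agent.L1.DesC

/-!
# The strongly regular graphs on 77 and 100 vertices
-/

set_option autoImplicit false
set_option linter.unusedSectionVars false

namespace Cfsg.Agent.H14

open MulAction Finset SimpleGraph
open scoped Pointwise

/-! ### counting blocks in a numbered design -/

/-- number of masks containing `s` and avoiding `u`. -/
noncomputable def nbL (L : List ℕ) (s u : ℕ) : ℕ :=
  List.rec (motive := fun _ => ℕ) 0 (fun m _ ih => Bool.rec ih (Nat.succ ih)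
    (band (Nat.beq (Nat.land s m) s) (Nat.beq (Nat.land m u) 0))) L

theorem nbL_eq (L : List ℕ) (s u : ℕ) :
    nbL L s u = (L.filter fun m => s &&& m = s ∧ m &&& u = 0).length := by
  induction L with
  | nil => rfl
  | cons m L ih =>
    have e : nbL (m :: L) s u = Bool.rec (nbL L s u) (Nat.succ (nbL L s u))
      (band (Nat.beq (Nat.land s m) s) (Nat.beq (Nat.land m u) 0)) := rfl
    rw [e, ih, List.filter_cons]
    rcases h : band (Nat.beq (Nat.land s m) s) (Nat.beq (Nat.land m u) 0) with _ | _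
    · rw [if_neg]
      intro h'
      have h'' := of_decide_eq_true h'
      have h3 : band (Nat.beq (Nat.land s m) s) (Nat.beq (Nat.land m u) 0) = true :=
        band_iff.mpr ⟨nbeq_iff.mpr h''.1, nbeq_iff.mpr h''.2⟩
      rw [h3] at h
      exact absurd h (by simp)
    · rw [band_iff, nbeq_iff, nbeq_iff] at h
      have h' : s &&& m = s ∧ m &&& u = 0 := h
      rw [if_pos (decide_eq_true h')]; rfl

section
variable {α : Type*} [Fintype α] [DecidableEq α]

theorem nb_fam (C : Coord α) {L : List ℕ} (hL : L.Nodup) (hlt : ∀ m ∈ L, m < 2 ^ C.n) {s u : ℕ}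
    (hs : s < 2 ^ C.n) : nb (C.fam L) (C.set s) (C.set u) = nbL L s u := by
  rw [nbL_eq, ← C.ncard_fam (hL.filter _) fun m hm => hlt m (List.mem_of_mem_filter hm), nb]
  congr 1
  ext b
  constructor
  · rintro ⟨⟨m, hm, rfl⟩, h1, h2⟩
    exact ⟨m, List.mem_filter.mpr ⟨hm, decide_eq_true
      ⟨(C.set_subset_iff hs).mp h1, (C.set_disjoint_iff (hlt m hm)).mp h2⟩⟩, rfl⟩
  · rintro ⟨m, hm, rfl⟩
    obtain ⟨hm, h⟩ := List.mem_filter.mp hm
    have h' := of_decide_eq_true h
    exact ⟨⟨m, hm, rfl⟩, (C.set_subset_iff hs).mpr h'.1, (C.set_disjoint_iff (hlt m hm)).mpr h'.2⟩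

variable {B : Set (Finset α)}

theorem s22_nb (hα : Fintype.card α = 22) (hB : IsSteinerSystem 3 6 B) {b c : Finset α}
    (hb : b ∈ B) (hc : c ∈ B) :
    nb B ∅ (b ∪ c) = if b = c then 16 else if Disjoint b c then 0 else 4 := by
  obtain ⟨C, hC, rfl⟩ := std22 hα hB
  obtain ⟨b, hb, rfl⟩ := hb
  obtain ⟨c, hc, rfl⟩ := hc
  have hlt : ∀ m ∈ dL22, m < 2 ^ C.n := by rw [hC]; exact dlt22
  rw [← C.set_zero, ← C.set_or, nb_fam C (nodupN_sound dnd22) hlt (by positivity)]
  simp only [C.set_eq_iff (hlt b hb) (hlt c hc), C.set_disjoint_iff (hlt b hb)]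
  have H : allL dL22 (fun b => allL dL22 fun c => force (Nat.lor b c) fun u => Nat.beq (nbL dL22 0 u)
      (Bool.rec (Bool.rec 4 0 (Nat.beq (Nat.land b c) 0)) 16 (Nat.beq b c))) = true := by
    decide +kernel
  have := allL_iff.mp (allL_iff.mp H b hb) c hc
  rw [force_eq, nbeq_iff] at this
  refine this.trans ?_
  split_ifs with h1 h2
  · rw [nbeq_iff.mpr h1]
  · have h3 : Nat.land b c = 0 := h2
    rw [Bool.eq_false_iff.mpr (mt nbeq_iff.mp h1), nbeq_iff.mpr h3]
  · have h3 : ¬ Nat.land b c = 0 := h2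
    rw [Bool.eq_false_iff.mpr (mt nbeq_iff.mp h1), Bool.eq_false_iff.mpr (mt nbeq_iff.mp h3)]

theorem s22_nb' (hα : Fintype.card α = 22) (hB : IsSteinerSystem 3 6 B) {b : Finset α}
    (hb : b ∈ B) {a : α} (ha : a ∉ b) : nb B {a} b = 6 := by
  obtain ⟨C, hC, rfl⟩ := std22 hα hB
  obtain ⟨b, hb, rfl⟩ := hb
  have hlt : ∀ m ∈ dL22, m < 2 ^ C.n := by rw [hC]; exact dlt22
  rw [C.mem_set] at ha
  rw [← C.pt_idx a, ← C.set_two_pow (C.idx_lt a), nb_fam C (nodupN_sound dnd22) hlt
    (Nat.pow_lt_pow_right (by norm_num) (C.idx_lt a))]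
  have H : allL dL22 (fun b => allLt 22 fun i => bor (tb b i)
      (force (two i) fun s => Nat.beq (nbL dL22 s b) 6)) = true := by
    decide +kernel
  have := allLt_iff.mp (allL_iff.mp H b hb) _ (hC ▸ C.idx_lt a)
  rw [bor_iff, force_eq, nbeq_iff, tb_eq, two_eq] at this
  exact this.resolve_left ha

theorem ncard_sub (P : Finset α → Prop) : {d : B | P d}.ncard = {d | d ∈ B ∧ P d}.ncard := by
  rw [← Set.ncard_image_of_injective _ Subtype.val_injective]
  congr 1
  ext d
  simp [and_comm]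

end

theorem card_eq_ncard {V : Type*} (s : Set V) [Fintype s] : Fintype.card s = s.ncard := by
  rw [← Nat.card_eq_fintype_card, Nat.card_coe_set_eq]

theorem srg_of_ncard {V : Type*} [Fintype V] {G : SimpleGraph V} [DecidableRel G.Adj]
    {n k l m : ℕ} (h0 : Fintype.card V = n) (h1 : ∀ v, {x | G.Adj v x ∧ G.Adj v x}.ncard = k)
    (h2 : ∀ v w, G.Adj v w → {x | G.Adj v x ∧ G.Adj w x}.ncard = l)
    (h3 : ∀ v w, v ≠ w → ¬ G.Adj v w → {x | G.Adj v x ∧ G.Adj w x}.ncard = m) :
    G.IsSRGWith n k l m := by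
  refine ⟨h0, fun v => ?_, fun v w h => ?_, fun v w h h' => ?_⟩
  · rw [← card_neighborSet_eq_degree, card_eq_ncard, ← h1 v]
    congr 1; ext; simp
  · rw [card_eq_ncard, ← h2 v w h]; rfl
  · rw [card_eq_ncard, ← h3 v w h h']; rfl

theorem ncard_opt_sum {α β : Type*} [Finite α] [Finite β] (S : Set (Option (α ⊕ β))) :
    S.ncard = {_u : Unit | none ∈ S}.ncard + {a | some (Sum.inl a) ∈ S}.ncard +
      {b | some (Sum.inr b) ∈ S}.ncard := by
  classical
  have := Fintype.ofFinite α
  have := Fintype.ofFinite β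
  simp only [Set.ncard_eq_toFinset_card', Set.toFinset_ofPred, card_filter]
  rw [show S.toFinset = univ.filter (· ∈ S) by ext; simp, card_filter, Fintype.sum_option,
    Fintype.sum_sum_type]
  simp [add_assoc]

section
variable {α : Type*} {B : Set (Finset α)}

theorem bg_adj {b c : B} : (blockGraph B).Adj b c ↔ b ≠ c ∧ Disjoint b.1 c.1 := by
  simp only [blockGraph, fromRel_adj]
  exact and_congr_right fun _ => ⟨fun h => h.elim id fun e => e.symm, Or.inl⟩

theorem pb_nn : ¬ (pointBlockGraph B).Adj none none := by simp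
theorem pb_np (a : α) : (pointBlockGraph B).Adj none (some (Sum.inl a)) := by
  simp [pointBlockGraph, pointBlockRel]
theorem pb_pn (a : α) : (pointBlockGraph B).Adj (some (Sum.inl a)) none := (pb_np a).symm
theorem pb_nb (b : B) : ¬ (pointBlockGraph B).Adj none (some (Sum.inr b)) := by
  simp [pointBlockGraph, pointBlockRel]
theorem pb_bn (b : B) : ¬ (pointBlockGraph B).Adj (some (Sum.inr b)) none := fun h => pb_nb b h.symm
theorem pb_pp (a a' : α) : ¬ (pointBlockGraph B).Adj (some (Sum.inl a)) (some (Sum.inl a')) := by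
  simp [pointBlockGraph, pointBlockRel]
theorem pb_pb (a : α) (b : B) :
    (pointBlockGraph B).Adj (some (Sum.inl a)) (some (Sum.inr b)) ↔ a ∈ b.1 := by
  simp [pointBlockGraph, pointBlockRel]
theorem pb_bp (a : α) (b : B) :
    (pointBlockGraph B).Adj (some (Sum.inr b)) (some (Sum.inl a)) ↔ a ∈ b.1 := by
  rw [adj_comm, pb_pb]
theorem pb_bb (b c : B) : (pointBlockGraph B).Adj (some (Sum.inr b)) (some (Sum.inr c)) ↔
    b ≠ c ∧ Disjoint b.1 c.1 := by
  simp only [pointBlockGraph, fromRel_adj, pointBlockRel, ne_eq, Option.some.injEq, Sum.inr.injEq]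
  exact and_congr_right fun _ => ⟨fun h => h.elim id fun e => e.symm, Or.inl⟩

variable [Fintype α] [DecidableEq α]

theorem s22_common (hα : Fintype.card α = 22) (hB : IsSteinerSystem 3 6 B) (b c : B) :
    {d : B | (b ≠ d ∧ Disjoint b.1 d.1) ∧ c ≠ d ∧ Disjoint c.1 d.1}.ncard =
      if b = c then 16 else if Disjoint b.1 c.1 then 0 else 4 := by
  have h := s22_nb hα hB b.2 c.2
  simp only [Subtype.val_inj] at h
  rw [← h, nb, ← ncard_sub]
  congr 1
  ext d
  have hd : ¬ Disjoint d.1 d.1 := by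
    rw [Finset.disjoint_self_iff_empty, ← card_eq_zero, hB.1 _ d.2]; norm_num
  simp only [Set.mem_ofPred_eq, empty_subset, true_and, disjoint_union_right]
  constructor
  · rintro ⟨⟨-, h1⟩, -, h2⟩; exact ⟨h1.symm, h2.symm⟩
  · rintro ⟨h1, h2⟩
    exact ⟨⟨by rintro rfl; exact hd h1, h1.symm⟩, by rintro rfl; exact hd h2, h2.symm⟩

theorem s22_ncard (hα : Fintype.card α = 22) (hB : IsSteinerSystem 3 6 B) : B.ncard = 77 := by
  have := steiner_ncard hB
  rw [hα] at this
  norm_num [Nat.choose] at this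
  omega

theorem srg77 (hα : Fintype.card α = 22) (hB : IsSteinerSystem 3 6 B) [Fintype B]
    [DecidableRel (blockGraph B).Adj] : (blockGraph B).IsSRGWith 77 16 0 4 := by
  refine srg_of_ncard (by rw [card_eq_ncard, s22_ncard hα hB]) (fun v => ?_) (fun v w h => ?_)
    fun v w h h' => ?_
  · simp only [bg_adj]; rw [s22_common hα hB, if_pos rfl]
  · simp only [bg_adj] at h ⊢; rw [s22_common hα hB, if_neg h.1, if_pos h.2]
  · simp only [bg_adj] at h' ⊢; rw [s22_common hα hB, if_neg h, if_neg fun e => h' ⟨h, e⟩]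

theorem srg100 (hα : Fintype.card α = 22) (hB : IsSteinerSystem 3 6 B) [Fintype B]
    [DecidableRel (pointBlockGraph B).Adj] : (pointBlockGraph B).IsSRGWith 100 22 0 6 := by
  have hp : ∀ a a' : α, {d : B | a ∈ d.1 ∧ a' ∈ d.1}.ncard = if a = a' then 21 else 5 :=
    fun a a' => by
      have h := lam22_small hα hB (W := {a, a'}) (card_le_two.trans (by norm_num)) _ subset_rfl
      have e : {d : B | a ∈ d.1 ∧ a' ∈ d.1}.ncard = nb B {a, a'} ∅ := by
        rw [nb, ← ncard_sub]
        congr 1; ext d; simp [insert_subset_iff]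
      rw [e]
      split_ifs with h'
      · subst h'
        rw [pair_eq_singleton] at h ⊢
        exact_mod_cast h.trans (rfl : _ = ((21 : ℕ) : ℤ))
      · rw [card_pair h'] at h
        exact_mod_cast h.trans (rfl : _ = ((5 : ℕ) : ℤ))
  have hq : ∀ (a : α) (b : B), {d : B | a ∈ d.1 ∧ b ≠ d ∧ Disjoint b.1 d.1}.ncard =
      if a ∈ b.1 then 0 else 6 := fun a b => by
    split_ifs with h
    · rw [Set.ncard_eq_zero]
      ext d
      simp only [Set.mem_ofPred_eq, Set.mem_empty_iff_false, iff_false]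
      exact fun h' => disjoint_left.mp h'.2.2 h h'.1
    · rw [← s22_nb' hα hB b.2 h, nb, ← ncard_sub]
      congr 1; ext d
      simp only [Set.mem_ofPred_eq, singleton_subset_iff]
      exact and_congr_right fun h1 => ⟨fun h2 => h2.2.symm, fun h2 =>
        ⟨by rintro rfl; exact h h1, h2.symm⟩⟩
  have hi : ∀ b c : B, {a | a ∈ b.1 ∧ a ∈ c.1}.ncard = (b.1 ∩ c.1).card := fun b c => by
    rw [← Set.ncard_coe_finset]; congr 1; ext; simp
  have hu : (Set.univ : Set α).ncard = 22 := by rw [Set.ncard_univ, Nat.card_eq_fintype_card, hα]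
  have hb : ∀ b : B, {a | a ∈ b.1}.ncard = 6 := fun b => by
    rw [← hB.1 _ b.2, ← Set.ncard_coe_finset]; rfl
  refine srg_of_ncard ?_ (fun v => ?_) (fun v w h => ?_) fun v w h h' => ?_
  · rw [Fintype.card_option, Fintype.card_sum, hα, card_eq_ncard, s22_ncard hα hB]
  · rw [ncard_opt_sum]
    rcases v with _ | a | b
    · simp [pb_np, pb_nb, hu, hα]
    · simp only [Set.mem_ofPred_eq, pb_pn, pb_pp, pb_pb, hp]; simp
    · simp only [Set.mem_ofPred_eq, pb_bn, pb_bp, pb_bb, s22_common hα hB, hi, inter_self,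
        hB.1 _ b.2]
      simp
  · rw [ncard_opt_sum]
    rcases v with _ | a | b <;> rcases w with _ | a' | b'
    · exact absurd h pb_nn
    · simp [pb_nb, pb_pp]
    · exact absurd h (pb_nb _)
    · simp [pb_nb, pb_pp]
    · exact absurd h (pb_pp _ _)
    · rw [pb_pb] at h
      simp only [Set.mem_ofPred_eq, pb_bn, pb_pp, pb_pb, pb_bb, hq, h]; simp
    · exact absurd h (pb_bn _)
    · rw [pb_bp] at h
      simp only [Set.mem_ofPred_eq, pb_bn, pb_pp, pb_pb, pb_bb, and_comm (b := a' ∈ _), hq, h]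
      simp
    · rw [pb_bb] at h
      simp only [Set.mem_ofPred_eq, pb_bn, pb_bp, pb_bb, s22_common hα hB, hi, h.1, h.2,
        disjoint_iff_inter_eq_empty.mp h.2]
      simp
  · rw [ncard_opt_sum]
    rcases v with _ | a | b <;> rcases w with _ | a' | b'
    · exact absurd rfl h
    · exact absurd (pb_np _) h'
    · simp only [Set.mem_ofPred_eq, pb_nn, pb_np, pb_nb, pb_bp, true_and, hb]; simp
    · exact absurd (pb_pn _) h'
    · have : a ≠ a' := fun e => h (by rw [e])
      simp only [Set.mem_ofPred_eq, pb_pn, pb_pp, pb_pb, hp, this]; simp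
    · rw [pb_pb] at h'
      simp only [Set.mem_ofPred_eq, pb_bn, pb_pp, pb_pb, pb_bb, hq, h']; simp
    · simp only [Set.mem_ofPred_eq, pb_nn, pb_np, pb_nb, pb_bp, and_true, hb]; simp
    · rw [pb_bp] at h'
      simp only [Set.mem_ofPred_eq, pb_bn, pb_pp, pb_pb, pb_bb, and_comm (b := a' ∈ _), hq, h']
      simp
    · have h1 : b ≠ b' := fun e => h (by rw [e])
      have h2 : ¬ Disjoint b.1 b'.1 := fun e => h' ((pb_bb _ _).mpr ⟨h1, e⟩)
      have h3 : (b.1 ∩ b'.1).card = 2 :=
        (steiner22_inter hα hB b.2 b'.2 fun e => h1 (Subtype.ext e)).resolve_left fun e =>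
          h2 (disjoint_iff_inter_eq_empty.mpr (card_eq_zero.mp e))
      simp only [Set.mem_ofPred_eq, pb_bn, pb_bp, pb_bb, s22_common hα hB, hi, h1, h2, h3]
      simp

end

end Cfsg.Agent.H14
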