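import Mathlib
import Cfsg.Agent.L1.DesB
import Cfsg.Agent.L1.DesC

/-!
# Abstract Golay codes
-/

set_option autoImplicit false
set_option linter.unusedSectionVars false

namespace Cfsg.Agent.H14

open MulAction Finset
open scoped Pointwise symmDiff

section
variable {ι : Type*} [Fintype ι] [DecidableEq ι]

/-- a self-orthogonal binary code with 4096 words and minimum weight at least 8. -/
structure AG (K : Set (Finset ι)) : Prop where
  empty : ∅ ∈ K
  add : ∀ s ∈ K, ∀ t ∈ K, s ∆ t ∈ K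
  ncard : K.ncard = 4096
  min : ∀ s ∈ K, s ≠ ∅ → 8 ≤ s.card
  even : ∀ s ∈ K, Even s.card

variable {K : Set (Finset ι)}

theorem AG.small (h : AG K) {x u v : Finset ι} (hu : x ∆ u ∈ K) (hv : x ∆ v ∈ K) (hne : u ≠ v) :
    8 + 2 * (u ∩ v).card ≤ u.card + v.card := by
  have h1 := h.add _ hu _ hv
  have e : (x ∆ u) ∆ (x ∆ v) = u ∆ v := by
    rw [symmDiff_symmDiff_symmDiff_comm, symmDiff_self, bot_symmDiff]
  rw [e] at h1
  have h2 := h.min _ h1 (fun h' => hne (symmDiff_eq_bot.mp h'))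
  have := card_symmDiff_add u v
  omega

theorem AG.disj (h : AG K) {x u v : Finset ι} (hu : x ∆ u ∈ K) (hv : x ∆ v ∈ K) (hne : u ≠ v)
    (h1 : u.card ≤ 4) (h2 : v.card ≤ 4) : Disjoint u v ∧ u.card = 4 ∧ v.card = 4 := by
  have := h.small hu hv hne
  refine ⟨disjoint_iff_inter_eq_empty.mpr (card_eq_zero.mp (by omega)), by omega, by omega⟩

theorem AG.coset (h : AG K) (hι : Fintype.card ι = 24) (x : Finset ι) :
    (∃ u₀ : Finset ι, u₀.card ≤ 3 ∧ x ∆ u₀ ∈ K) ∨
      ((∀ u : Finset ι, u.card ≤ 3 → x ∆ u ∉ K) ∧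
        {u : Finset ι | u.card = 4 ∧ x ∆ u ∈ K}.ncard = 6) := by
  classical
  let f : ℕ → ℕ := fun k => if k ≤ 3 then 6 else if k = 4 then 1 else 0
  let T : Finset ι → ℕ := fun x => ∑ u : Finset ι, if x ∆ u ∈ K then f u.card else 0
  have h2 : ∀ x : Finset ι, (∀ u : Finset ι, u.card ≤ 3 → x ∆ u ∉ K) →
      T x = (univ.filter fun u : Finset ι => u.card = 4 ∧ x ∆ u ∈ K).card := fun x hx => by
    rw [card_filter]
    refine sum_congr rfl fun u _ => ?_
    by_cases a : x ∆ u ∈ K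
    · have : ¬ u.card ≤ 3 := fun b => hx u b a
      simp only [a, if_true, and_true, f, this, if_false]
    · simp [a]
  have h1 : ∀ x, T x ≤ 6 := fun x => by
    by_cases hx : ∃ u₀ : Finset ι, u₀.card ≤ 3 ∧ x ∆ u₀ ∈ K
    · obtain ⟨u₀, a, b⟩ := hx
      have : T x = 6 := by
        simp only [T]
        rw [sum_eq_single u₀]
        · simp [a, b, f]
        · intro u _ hne
          split_ifs with c
          · have := h.small c b hne
            simp only [f]
            rw [if_neg (by omega), if_neg (by omega)]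
          · rfl
        · simp
      omega
    · rw [h2 x fun u a b => hx ⟨u, a, b⟩]
      have h3 := card_biUnion (s := univ.filter fun u : Finset ι => u.card = 4 ∧ x ∆ u ∈ K)
        (t := id) (fun u hu v hv hne => by
          simp only [coe_filter, mem_univ, true_and, Set.mem_ofPred_eq] at hu hv
          exact (h.disj hu.2 hv.2 hne hu.1.le hv.1.le).1)
      rw [sum_congr rfl (g := fun _ => 4) fun u hu => (mem_filter.mp hu).2.1, sum_const,
        smul_eq_mul] at h3
      have h4 := card_le_univ ((univ.filter fun u : Finset ι => u.card = 4 ∧ x ∆ u ∈ K).biUnion id)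
      omega
  have h3 : ∑ x, T x = ∑ _x : Finset ι, 6 := by
    simp only [T]
    rw [sum_comm]
    have : ∀ u : Finset ι, (∑ x : Finset ι, if x ∆ u ∈ K then f u.card else 0) =
        f u.card * 4096 := fun u => by
      rw [← sum_filter, sum_const, smul_eq_mul, mul_comm, ← h.ncard, Set.ncard_eq_toFinset_card']
      congr 1
      refine card_bij' (fun x _ => x ∆ u) (fun x _ => x ∆ u) ?_ ?_ ?_ ?_ <;> simp
    rw [sum_congr rfl fun u _ => this u, ← sum_mul, ← powerset_univ, sum_powerset_apply_card f,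
      sum_const, card_powerset, card_univ, hι]
    simp only [sum_range_succ, f]
    norm_num [Nat.choose]
  have h4 := (sum_eq_sum_iff_of_le fun x _ => h1 x).mp h3 x (mem_univ _)
  by_cases hx : ∃ u₀ : Finset ι, u₀.card ≤ 3 ∧ x ∆ u₀ ∈ K
  · exact Or.inl hx
  · refine Or.inr ⟨fun u a b => hx ⟨u, a, b⟩, ?_⟩
    rw [h2 x fun u a b => hx ⟨u, a, b⟩] at h4
    rw [← h4, ← Set.ncard_coe_finset]
    congr 1
    ext u; simp

theorem AG.steiner (h : AG K) (hι : Fintype.card ι = 24) :
    IsSteinerSystem 5 8 {s | s ∈ K ∧ s.card = 8} := by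
  refine ⟨fun b hb => hb.2, fun s hs => ?_⟩
  have hu : ∀ b c : Finset ι, (b ∈ K ∧ b.card = 8) ∧ s ⊆ b → (c ∈ K ∧ c.card = 8) ∧ s ⊆ c →
      b = c := fun b c hb hc => by
    by_contra hne
    have h1 := h.small (x := ∅) (by rw [← bot_eq_empty, bot_symmDiff]; exact hb.1.1)
      (by rw [← bot_eq_empty, bot_symmDiff]; exact hc.1.1) hne
    have h2 := card_le_card (subset_inter hb.2 hc.2)
    have := hb.1.2
    have := hc.1.2
    omega
  rcases h.coset hι s with ⟨u, a, b⟩ | ⟨-, b⟩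
  · have h1 := card_symmDiff_add s u
    have h2 := h.min _ b (fun h' => by
      have : s = u := symmDiff_eq_bot.mp h'
      subst this; omega)
    have h3 : s ⊆ s ∆ u := fun x hx => mem_symmDiff.mpr (Or.inl ⟨hx, fun hx' => by
      have : 0 < (s ∩ u).card := card_pos.mpr ⟨x, mem_inter.mpr ⟨hx, hx'⟩⟩
      omega⟩)
    exact ⟨s ∆ u, ⟨⟨b, by omega⟩, h3⟩, fun c hc => hu _ _ hc ⟨⟨b, by omega⟩, h3⟩⟩
  · exfalso
    obtain ⟨u, a, c⟩ := Set.nonempty_of_ncard_ne_zero (by rw [b]; norm_num)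
    have h1 := card_symmDiff_add s u
    obtain ⟨k, hk⟩ := h.even _ c
    omega

end

theorem gcode_subset {K : Set (Finset GolayPt)} (h0 : ∅ ∈ K) (h1 : ∀ s ∈ K, ∀ t ∈ K, s ∆ t ∈ K)
    (h2 : octads ⊆ K) : GCode ⊆ K := by
  intro s hs
  obtain ⟨m, hm, rfl⟩ := mem_gcode_iff.mp hs
  rw [← hm.cw_eq, cw_eq]
  have hb : ∀ i < 12, gC.set (bw i) ∈ K := fun i hi => h2 (isOct_iff.mp (allLt_iff.mp
    (by decide +kernel : allLt 12 (fun i => isOct (bw i)) = true) i hi)).2
  suffices ∀ n ≤ 12, gC.set (lin bw n m) ∈ K from this 12 le_rfl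
  intro n hn
  induction n with
  | zero => rw [lin_zero, gC.set_zero]; exact h0
  | succ n ih =>
    rw [lin_succ, gC.set_xor]
    refine h1 _ (ih (by omega)) _ ?_
    split_ifs
    · exact hb n (by omega)
    · rw [gC.set_zero]; exact h0

theorem ag_gcode : AG GCode :=
  ⟨empty_mem_gcode, fun _ hs _ ht => symmDiff_mem_gcode hs ht, ncard_gcode_all, fun s hs hne => by
    have := gcode_card hs
    have : s.card ≠ 0 := fun h => hne (card_eq_zero.mp h)
    omega, fun s hs => by simpa using gcode_inter_even hs hs⟩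

section
variable {ι : Type*} [Fintype ι] [DecidableEq ι] {K : Set (Finset ι)}

theorem AG.iso (h : AG K) (hι : Fintype.card ι = 24) : ∃ e : ι ≃ GolayPt,
    (∀ s, s ∈ K ↔ s.image e ∈ GCode) ∧ ∀ K' : Set (Finset ι), ∅ ∈ K' →
      (∀ s ∈ K', ∀ t ∈ K', s ∆ t ∈ K') → (∀ s ∈ K, s.card = 8 → s ∈ K') → K ⊆ K' := by
  obtain ⟨C, hC, e1⟩ := std24 hι (h.steiner hι)
  obtain ⟨C', hC', e2⟩ := std24 card_golayPt steiner_octads
  have hiso := C.iso_fam C' (hC.trans hC'.symm) dL24
  rw [← e1, ← e2] at hiso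
  obtain ⟨e, he⟩ := iso_iff hiso
  have key : ∀ K' : Set (Finset ι), ∅ ∈ K' → (∀ s ∈ K', ∀ t ∈ K', s ∆ t ∈ K') →
      (∀ s ∈ K, s.card = 8 → s ∈ K') → GCode ⊆ (fun s => s.image e) '' K' := fun K' a b c => by
    refine gcode_subset ⟨∅, a, by simp⟩ ?_ fun o ho => ?_
    · rintro _ ⟨s, hs, rfl⟩ _ ⟨t, ht, rfl⟩
      exact ⟨_, b s hs t ht, image_symmDiff _ _ e.injective⟩
    · have e3 : (o.image e.symm).image e = o := by rw [image_image]; simp
      have := (he (o.image e.symm)).mpr (by rwa [e3])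
      exact ⟨_, c _ this.1 this.2, e3⟩
  have hinj : Function.Injective fun s : Finset ι => s.image e := image_injective e.injective
  have heq : GCode = (fun s => s.image e) '' K :=
    Set.eq_of_subset_of_ncard_le (key K h.empty h.add fun s hs _ => hs)
      (by rw [Set.ncard_image_of_injective _ hinj, h.ncard, ncard_gcode_all]) (Set.toFinite _)
  have hmem : ∀ s, s ∈ K ↔ s.image e ∈ GCode := fun s => by
    rw [heq]; exact (hinj.mem_set_image).symm
  refine ⟨e, hmem, fun K' a b c s hs => ?_⟩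
  exact (hinj.mem_set_image).mp (key K' a b c ((hmem s).mp hs))

theorem mem_support₂ {w : ι → ZMod 2} {a : ι} : a ∈ support₂ w ↔ w a ≠ 0 := by simp [support₂]

theorem support₂_add (v w : ι → ZMod 2) : support₂ (v + w) = support₂ v ∆ support₂ w := by
  ext a
  simp only [mem_symmDiff, mem_support₂, Pi.add_apply]
  generalize v a = x
  generalize w a = y
  revert x y; decide

theorem zmod2_sub (v w : ι → ZMod 2) : v - w = v + w := by
  ext a
  simp only [Pi.sub_apply, Pi.add_apply]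
  generalize v a = x
  generalize w a = y
  revert x y; decide

theorem support₂_zero : support₂ (0 : ι → ZMod 2) = ∅ := by ext a; simp [mem_support₂]

theorem support₂_surj (s : Finset ι) : ∃ w : ι → ZMod 2, support₂ w = s :=
  ⟨fun a => if a ∈ s then 1 else 0, by ext a; simp [mem_support₂]⟩

theorem support₂_mem {C : Set (ι → ZMod 2)} {w : ι → ZMod 2} : support₂ w ∈ supports C ↔ w ∈ C :=
  support₂_injective.mem_set_image

theorem sum_mul_eq_card (v w : ι → ZMod 2) :
    ∑ i, v i * w i = ((support₂ v ∩ support₂ w).card : ZMod 2) := by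
  have : support₂ v ∩ support₂ w = univ.filter fun a => v a ≠ 0 ∧ w a ≠ 0 := by
    ext a; simp [mem_support₂]
  rw [this, card_filter, Nat.cast_sum]
  refine sum_congr rfl fun a _ => ?_
  generalize v a = x
  generalize w a = y
  revert x y; decide

theorem ag_of_code (C : Submodule (ZMod 2) (ι → ZMod 2)) (hdim : Module.finrank (ZMod 2) C = 12)
    (horth : ∀ v ∈ C, ∀ w ∈ C, ∑ i, v i * w i = 0)
    (hmin : ∀ w ∈ C, w ≠ 0 → 8 ≤ hammingNorm w) : AG (supports (C : Set (ι → ZMod 2))) := by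
  refine ⟨⟨0, C.zero_mem, support₂_zero⟩, ?_, ?_, ?_, ?_⟩
  · rintro _ ⟨v, hv, rfl⟩ _ ⟨w, hw, rfl⟩
    exact ⟨v + w, C.add_mem hv hw, support₂_add v w⟩
  · rw [supports, Set.ncard_image_of_injective _ support₂_injective, ← Nat.card_coe_set_eq]
    have := Module.natCard_eq_pow_finrank (K := ZMod 2) (V := C)
    rw [hdim, Nat.card_zmod] at this
    exact this
  · rintro _ ⟨v, hv, rfl⟩ hne
    rw [← hammingNorm_eq_card]
    exact hmin v hv fun h => hne (by rw [h, support₂_zero])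
  · rintro _ ⟨v, hv, rfl⟩
    have := horth v hv v hv
    rw [sum_mul_eq_card, inter_self] at this
    exact (ZMod.natCast_eq_zero_iff_even).mp this

/-- the small words of a coset. -/
theorem AG.coset_words {C : Submodule (ZMod 2) (ι → ZMod 2)}
    (h : AG (supports (C : Set (ι → ZMod 2)))) (hι : Fintype.card ι = 24) (w : ι → ZMod 2) :
    (∃ u, {u : ι → ZMod 2 | w + u ∈ C ∧ hammingNorm u ≤ 4} = {u} ∧ hammingNorm u ≤ 3) ∨
      ({u : ι → ZMod 2 | w + u ∈ C ∧ hammingNorm u ≤ 4}.ncard = 6 ∧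
        ∀ u ∈ {u : ι → ZMod 2 | w + u ∈ C ∧ hammingNorm u ≤ 4}, hammingNorm u = 4 ∧
          ∀ u' ∈ {u : ι → ZMod 2 | w + u ∈ C ∧ hammingNorm u ≤ 4}, u ≠ u' →
            Disjoint (support₂ u) (support₂ u')) := by
  have hm : ∀ u, w + u ∈ C ↔ support₂ w ∆ support₂ u ∈ supports (C : Set (ι → ZMod 2)) :=
    fun u => by rw [← support₂_add, support₂_mem]; rfl
  simp only [hammingNorm_eq_card, hm]
  rcases h.coset hι (support₂ w) with ⟨u, a, b⟩ | ⟨a, b⟩
  · left
    obtain ⟨u, rfl⟩ := support₂_surj u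
    refine ⟨u, Set.eq_singleton_iff_unique_mem.mpr ⟨⟨b, by omega⟩, fun v hv => ?_⟩, a⟩
    by_contra hne
    have := (h.disj hv.1 b (fun e => hne (support₂_injective e)) hv.2 (by omega)).2.2
    omega
  · right
    have h4 : ∀ u : ι → ZMod 2, support₂ w ∆ support₂ u ∈ supports (C : Set (ι → ZMod 2)) →
        (support₂ u).card ≤ 4 → (support₂ u).card = 4 := fun u c d => by
      by_contra e
      exact a _ (by omega) c
    refine ⟨?_, fun u hu => ⟨h4 u hu.1 hu.2, fun v hv hne =>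
      (h.disj hu.1 hv.1 (fun e => hne (support₂_injective e)) hu.2 hv.2).1⟩⟩
    rw [← b, ← Set.ncard_image_of_injective _ support₂_injective]
    congr 1
    ext s
    constructor
    · rintro ⟨u, hu, rfl⟩; exact ⟨h4 u hu.1 hu.2, hu.1⟩
    · rintro ⟨c, d⟩
      obtain ⟨u, rfl⟩ := support₂_surj s
      exact ⟨u, ⟨d, c.le⟩, rfl⟩

end

end Cfsg.Agent.H14
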