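import Mathlib
import Cfsg.Agent.L1.SRG
import Cfsg.Agent.S0414

/-!
# Uniqueness of the strongly regular graph (100, 22, 0, 6) and its automorphism group
-/

set_option autoImplicit false
set_option linter.unusedSectionVars false

namespace Cfsg.Agent.H14

open MulAction Finset SimpleGraph
open scoped Pointwise

section
variable {V : Type*} [Fintype V] [DecidableEq V] {G : SimpleGraph V} [DecidableRel G.Adj]

theorem srg_inter {n k l m : ℕ} (h : G.IsSRGWith n k l m) (x y : V) :
    (G.neighborFinset x ∩ G.neighborFinset y).card =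
      if x = y then k else if G.Adj x y then l else m := by
  have e : (G.neighborFinset x ∩ G.neighborFinset y).card =
      Fintype.card (G.commonNeighbors x y) := by
    rw [card_eq_ncard, ← Set.ncard_coe_finset]
    congr 1; ext; simp [commonNeighbors]
  split_ifs with h1 h2
  · subst h1; rw [inter_self, card_neighborFinset_eq_degree, h.regular x]
  · rw [e, h.of_adj _ _ h2]
  · rw [e, h.of_not_adj h1 h2]

theorem hs_notri (h : G.IsSRGWith 100 22 0 6) {x y z : V} (h1 : G.Adj x y) (h2 : G.Adj x z) :
    ¬ G.Adj y z := fun h3 => by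
  have := srg_inter h x y
  rw [if_neg h1.ne, if_pos h1, card_eq_zero] at this
  have h4 : z ∈ G.neighborFinset x ∩ G.neighborFinset y := by simp [h2, h3]
  rw [this] at h4
  simp at h4

theorem hs_two (h : G.IsSRGWith 100 22 0 6) {v x y : V} (hx : v ≠ x) (hx' : ¬ G.Adj v x)
    (hy : v ≠ y) (hy' : ¬ G.Adj v y) (hxy : x ≠ y) (hxy' : ¬ G.Adj x y) :
    ((G.neighborFinset v ∩ G.neighborFinset x).filter fun a => G.Adj a y).card = 2 := by
  set P := G.neighborFinset v ∩ G.neighborFinset x with hP
  have hPc : P.card = 6 := by rw [hP, srg_inter h, if_neg hx, if_neg hx']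
  have hPm : ∀ a, a ∈ P ↔ G.Adj v a ∧ G.Adj x a := fun a => by simp [hP]
  set Y := univ.filter fun y => v ≠ y ∧ ¬ G.Adj v y ∧ x ≠ y ∧ ¬ G.Adj x y with hY
  have hYc : Y.card = 60 := by
    have e : Y = (insert v (insert x (G.neighborFinset v ∪ G.neighborFinset x)))ᶜ := by
      ext z; simp only [hY, mem_filter, mem_univ, true_and, mem_compl, mem_insert, mem_union,
        mem_neighborFinset, not_or, ne_eq, eq_comm (a := z)]
      tauto
    have h1 := card_union_add_card_inter (G.neighborFinset v) (G.neighborFinset x)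
    rw [card_neighborFinset_eq_degree, card_neighborFinset_eq_degree, h.regular v, h.regular x,
      ← hP, hPc] at h1
    rw [e, card_compl, h.card, card_insert_of_notMem, card_insert_of_notMem]
    · omega
    · simp [hx']
    · have : ¬ G.Adj x v := fun e => hx' e.symm
      simp [hx, hx', this]
  have h2 : ∀ a ∈ P, ∀ a' ∈ P, (Y.filter fun y => G.Adj a y ∧ G.Adj a' y).card =
      if a = a' then 20 else 4 := fun a ha a' ha' => by
    obtain ⟨a1, a2⟩ := (hPm a).mp ha
    obtain ⟨a3, a4⟩ := (hPm a').mp ha'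
    have e : (Y.filter fun y => G.Adj a y ∧ G.Adj a' y) =
        ((G.neighborFinset a ∩ G.neighborFinset a').erase v).erase x := by
      ext z
      simp only [hY, mem_filter, mem_univ, true_and, mem_erase, mem_inter, mem_neighborFinset]
      constructor
      · rintro ⟨⟨b1, -, b2, -⟩, b3⟩; exact ⟨b2.symm, b1.symm, b3⟩
      · rintro ⟨b1, b2, b3⟩
        exact ⟨⟨b2.symm, fun e => hs_notri h a1 e b3.1, b1.symm, fun e => hs_notri h a2 e b3.1⟩, b3⟩
    rw [e, card_erase_of_mem (by simp [hx.symm, a2.symm, a4.symm]),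
      card_erase_of_mem (by simp [a1.symm, a3.symm]), srg_inter h]
    split_ifs with c d
    · rfl
    · exact absurd d (hs_notri h a1 a3)
    · rfl
  have h3 : ∑ y ∈ Y, ((P.filter fun a => G.Adj a y).card : ℤ) = 120 := by
    simp only [card_filter, Nat.cast_sum]
    rw [sum_comm, sum_congr rfl (g := fun _ => 20) fun a ha => ?_]
    · simp [hPc]
    · have := h2 a ha a ha
      simp only [and_self, if_true, card_filter] at this
      exact_mod_cast this
  have h4 : ∑ y ∈ Y, ((P.filter fun a => G.Adj a y).card : ℤ) ^ 2 = 240 := by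
    simp only [card_filter, Nat.cast_sum, sq, sum_mul_sum]
    rw [sum_comm, sum_congr rfl (g := fun _ => 40) fun a ha => ?_]
    · simp [hPc]
    · rw [sum_comm, sum_congr rfl (g := fun a' => 4 + if a = a' then 16 else 0) fun a' ha' => ?_]
      · rw [sum_add_distrib, sum_ite_eq]
        simp [hPc, ha]
      · have := h2 a ha a' ha'
        rw [card_filter] at this
        have e : ∀ y, (((if G.Adj a y then 1 else 0 : ℕ) : ℤ) * ((if G.Adj a' y then 1 else 0 : ℕ) : ℤ))
            = ((if G.Adj a y ∧ G.Adj a' y then 1 else 0 : ℕ) : ℤ) := fun y => by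
          by_cases b : G.Adj a y <;> by_cases c : G.Adj a' y <;> simp [b, c]
        rw [sum_congr rfl fun y _ => e y, ← Nat.cast_sum, this]
        split_ifs <;> rfl
  have h5 : ∑ y ∈ Y, (((P.filter fun a => G.Adj a y).card : ℤ) - 2) ^ 2 = 0 := by
    simp only [sub_sq, sum_add_distrib, sum_sub_distrib, h4, ← sum_mul, ← mul_sum, h3, sum_const,
      hYc]
    norm_num
  have h6 := (sum_eq_zero_iff_of_nonneg fun _ _ => sq_nonneg _).mp h5 y
    (by simp [hY, hy, hy', hxy, hxy'])
  have h7 := pow_eq_zero_iff (two_ne_zero) |>.mp h6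
  omega

theorem hs_std (h : G.IsSRGWith 100 22 0 6) (v : V) : ∃ B : Set (Finset (G.neighborSet v)),
    IsSteinerSystem 3 6 B ∧ ∃ φ : pointBlockGraph B ≃g G, φ none = v := by
  let blk : V → Finset (G.neighborSet v) := fun x => univ.filter fun a => G.Adj x a
  let D : Set V := {x | v ≠ x ∧ ¬ G.Adj v x}
  have himg : ∀ s : Finset (G.neighborSet v), (s.image Subtype.val).card = s.card := fun s =>
    card_image_of_injective _ Subtype.val_injective
  have h6 : ∀ x ∈ D, (blk x).card = 6 := fun x hx => by
    have := srg_inter h v x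
    rw [if_neg hx.1, if_neg hx.2] at this
    rw [← himg, ← this]
    congr 1; ext; simp [blk, and_comm]
  have h0 : ∀ x y, G.Adj x y → Disjoint (blk x) (blk y) := fun x y e =>
    disjoint_left.mpr fun a h1 h2 => hs_notri h e (mem_filter.mp h1).2 (mem_filter.mp h2).2
  have h2 : ∀ x ∈ D, ∀ y ∈ D, x ≠ y → ¬ G.Adj x y → (blk x ∩ blk y).card = 2 :=
    fun x hx y hy e e' => by
      rw [← himg, ← hs_two h hx.1 hx.2 hy.1 hy.2 e e']
      congr 1; ext z
      simp only [blk, mem_image, mem_inter, mem_filter, mem_univ, true_and, mem_neighborFinset,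
        Subtype.exists, exists_and_right, exists_eq_right, mem_neighborSet, G.adj_comm z y]
      tauto
  have h3 : ∀ x ∈ D, ∀ y ∈ D, 3 ≤ (blk x ∩ blk y).card → x = y := fun x hx y hy e => by
    by_contra e1
    by_cases e2 : G.Adj x y
    · rw [disjoint_iff_inter_eq_empty.mp (h0 x y e2)] at e
      simp at e
    · rw [h2 x hx y hy e1 e2] at e
      omega
  have hinj : Set.InjOn blk D := fun x hx y hy e => h3 x hx y hy (by
    rw [← e, inter_self, h6 x hx]; norm_num)
  have hD : D.ncard = 77 := by
    have e : D = ((insert v (G.neighborFinset v))ᶜ : Finset V) := by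
      ext z; simp [D, eq_comm, and_comm]
    rw [e, Set.ncard_coe_finset, card_compl, h.card, card_insert_of_notMem (by simp),
      card_neighborFinset_eq_degree, h.regular v]
  have hα : Fintype.card (G.neighborSet v) = 22 := by rw [card_neighborSet_eq_degree, h.regular v]
  refine ⟨blk '' D, steiner_of_count ?_ ?_ ?_, ?_⟩
  · rintro _ ⟨x, hx, rfl⟩; exact h6 x hx
  · rintro _ ⟨x, hx, rfl⟩ _ ⟨y, hy, rfl⟩ e; rw [h3 x hx y hy e]
  · rw [hinj.ncard_image, hD, hα]; decide
  have hg : ∀ b : blk '' D, ∃ x ∈ D, blk x = b := fun b => b.2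
  choose g hg1 hg2 using hg
  let f : Option (G.neighborSet v ⊕ blk '' D) → V := fun o => o.elim v (Sum.elim Subtype.val g)
  have hgi : Function.Injective g := fun b c e => Subtype.ext (by rw [← hg2, ← hg2, e])
  have hf : Function.Bijective f := by
    constructor
    · rintro (_ | a | b) (_ | a' | b') e
      · rfl
      · exact absurd e a'.2.ne
      · exact absurd e (hg1 b').1
      · exact absurd e.symm a.2.ne
      · rw [Subtype.ext e]
      · exact absurd (show G.Adj v (g b') from (show a.1 = g b' from e) ▸ a.2) (hg1 b').2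
      · exact absurd e.symm (hg1 b).1
      · exact absurd (show G.Adj v (g b) from (show a'.1 = g b from e.symm) ▸ a'.2) (hg1 b).2
      · rw [hgi e]
    · intro x
      by_cases e : v = x
      · exact ⟨none, e⟩
      by_cases e' : G.Adj v x
      · exact ⟨some (Sum.inl ⟨x, e'⟩), rfl⟩
      · exact ⟨some (Sum.inr ⟨_, x, ⟨e, e'⟩, rfl⟩), hinj (hg1 _) ⟨e, e'⟩ (hg2 _)⟩
  have hpb : ∀ (a : G.neighborSet v) (b : blk '' D), G.Adj (g b) a ↔ a ∈ b.1 := fun a b => by
    rw [← hg2]; simp [blk]
  refine ⟨⟨Equiv.ofBijective f hf, ?_⟩, rfl⟩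
  rintro (_ | a | b) (_ | a' | b')
  · simp
  · exact iff_of_true a'.2 (pb_np _)
  · exact iff_of_false (hg1 b').2 (pb_nb _)
  · exact iff_of_true a.2.symm (pb_pn _)
  · exact iff_of_false (hs_notri h a.2 a'.2) (pb_pp _ _)
  · rw [pb_pb, ← hpb, G.adj_comm]; rfl
  · exact iff_of_false (fun e => (hg1 b).2 e.symm) (pb_bn _)
  · rw [pb_bp, ← hpb]; rfl
  · rw [pb_bb]
    show G.Adj (g b) (g b') ↔ _
    constructor
    · intro e
      exact ⟨fun e' => e.ne (by rw [e']), by rw [← hg2, ← hg2]; exact h0 _ _ e⟩
    · rintro ⟨e, e'⟩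
      by_contra e2
      have := h2 _ (hg1 b) _ (hg1 b') (fun e3 => e (hgi e3)) e2
      rw [hg2, hg2, disjoint_iff_inter_eq_empty.mp e'] at this
      simp at this

end

section
variable {α β : Type*} [DecidableEq α] [DecidableEq β] {B : Set (Finset α)} {B' : Set (Finset β)}

/-- the bijection of blocks induced by an isomorphism of designs. -/
def blkEquiv (e : α ≃ β) (he : ∀ b, b ∈ B ↔ b.image e ∈ B') : B ≃ B' where
  toFun b := ⟨b.1.image e, (he _).mp b.2⟩
  invFun b := ⟨b.1.image e.symm, (he _).mpr (by rw [image_image]; simp)⟩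
  left_inv b := Subtype.ext (by simp [image_image])
  right_inv b := Subtype.ext (by simp [image_image])

/-- the isomorphism of graphs induced by an isomorphism of designs. -/
def pbIso (e : α ≃ β) (he : ∀ b, b ∈ B ↔ b.image e ∈ B') :
    pointBlockGraph B ≃g pointBlockGraph B' where
  toEquiv := (e.sumCongr (blkEquiv e he)).optionCongr
  map_rel_iff' := by
    rintro (_ | a | b) (_ | a' | b')
    · simp
    · exact iff_of_true (pb_np _) (pb_np _)
    · exact iff_of_false (pb_nb _) (pb_nb _)
    · exact iff_of_true (pb_pn _) (pb_pn _)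
    · exact iff_of_false (pb_pp _ _) (pb_pp _ _)
    · exact (pb_pb _ _).trans (e.injective.mem_finset_image.trans (pb_pb _ _).symm)
    · exact iff_of_false (pb_bn _) (pb_bn _)
    · exact (pb_bp _ _).trans (e.injective.mem_finset_image.trans (pb_bp _ _).symm)
    · refine (pb_bb _ _).trans (Iff.trans ?_ (pb_bb _ _).symm)
      exact and_congr (blkEquiv e he).injective.ne_iff (disjoint_image e.injective)

end

theorem hs_unique {V W : Type*} [Fintype V] [Fintype W] {G : SimpleGraph V} {H : SimpleGraph W}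
    [DecidableRel G.Adj] [DecidableRel H.Adj] (hG : G.IsSRGWith 100 22 0 6)
    (hH : H.IsSRGWith 100 22 0 6) (v : V) (w : W) : ∃ φ : G ≃g H, φ v = w := by
  classical
  obtain ⟨B, hB, φ, e1⟩ := hs_std hG v
  obtain ⟨B', hB', ψ, e2⟩ := hs_std hH w
  obtain ⟨C, hC, e3⟩ := std22 (by rw [card_neighborSet_eq_degree, hG.regular v]) hB
  obtain ⟨C', hC', e4⟩ := std22 (by rw [card_neighborSet_eq_degree, hH.regular w]) hB'
  have hiso := C.iso_fam C' (hC.trans hC'.symm) dL22
  rw [← e3, ← e4] at hiso
  obtain ⟨e, he⟩ := iso_iff hiso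
  refine ⟨φ.symm.trans ((pbIso e he).trans ψ), ?_⟩
  show ψ (pbIso e he (φ.symm v)) = w
  have : φ.symm v = none := φ.injective (by rw [e1]; simp)
  rw [this]
  exact e2

theorem card_aut_pb {α : Type*} [Fintype α] [DecidableEq α] (hα : Fintype.card α = 22)
    {B : Set (Finset α)} (hB : IsSteinerSystem 3 6 B) :
    Nat.card (pointBlockGraph B ≃g pointBlockGraph B) = 88704000 := by
  classical
  have := Fintype.ofFinite B
  have hs := srg100 hα hB
  let A := pointBlockGraph B ≃g pointBlockGraph B
  have h1 : orbit A (none : Option (α ⊕ B)) = Set.univ := Set.eq_univ_of_forall fun x => by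
    obtain ⟨φ, e⟩ := hs_unique hs hs none x
    exact ⟨φ, e⟩
  have he : ∀ σ : setSystemAut B, ∀ b, b ∈ B ↔ b.image σ.1 ∈ B := fun σ b => by
    have : σ.1 • b ∈ σ.1 • B ↔ b ∈ B := Set.smul_mem_smul_set_iff
    rw [mem_stabilizer_iff.mp σ.2] at this
    exact this.symm
  let f : setSystemAut B → stabilizer A (none : Option (α ⊕ B)) := fun σ =>
    ⟨pbIso σ.1 (he σ), rfl⟩
  have hf : Function.Bijective f := by
    constructor
    · intro σ τ e
      ext a
      have := congrArg (fun φ : stabilizer A (none : Option (α ⊕ B)) =>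
        (φ.1 : pointBlockGraph B ≃g pointBlockGraph B) (some (Sum.inl a))) e
      exact Sum.inl_injective (Option.some_injective _ this)
    · rintro ⟨φ, hφ⟩
      have h0 : φ none = none := hφ
      have hp : ∀ a, ∃ a', φ (some (Sum.inl a)) = some (Sum.inl a') := fun a => by
        have := φ.map_rel_iff.mpr (pb_np (B := B) a)
        rw [h0] at this
        rcases e : φ (some (Sum.inl a)) with _ | a' | b
        · rw [e] at this; exact absurd this pb_nn
        · exact ⟨a', rfl⟩
        · rw [e] at this; exact absurd this (pb_nb _)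
      choose s hs using hp
      have hsi : Function.Injective s := fun a a' e => by
        have := φ.injective (by rw [hs, hs, e] : φ (some (Sum.inl a)) = φ (some (Sum.inl a')))
        simpa using this
      let σ := Equiv.ofBijective s (Finite.injective_iff_bijective.mp hsi)
      have hq : ∀ b : B, ∃ b' : B, φ (some (Sum.inr b)) = some (Sum.inr b') ∧
          b.1.image σ = b'.1 := fun b => by
        rcases e : φ (some (Sum.inr b)) with _ | a' | b'
        · rw [← h0] at e; exact absurd (φ.injective e) (by simp)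
        · exact absurd (φ.map_rel_iff.mp (by rw [h0, e]; exact pb_np _)) (pb_nb b)
        · refine ⟨b', rfl, ?_⟩
          ext y
          obtain ⟨x, rfl⟩ := σ.surjective y
          rw [σ.injective.mem_finset_image, ← pb_pb, ← φ.map_rel_iff, hs, e, pb_pb]
          rfl
      have hσ : σ ∈ setSystemAut B := mem_stabilizer_of_maps (Set.toFinite _) fun b hb => by
        obtain ⟨b', -, e⟩ := hq ⟨b, hb⟩
        exact (show σ • b = b'.1 from e) ▸ b'.2
      refine ⟨⟨σ, hσ⟩, Subtype.ext (RelIso.ext ?_)⟩
      rintro (_ | a | b)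
      · exact h0.symm
      · exact (hs a).symm
      · obtain ⟨b', e1, e2⟩ := hq b
        exact (congrArg (fun x => some (Sum.inr x)) (Subtype.ext e2)).trans e1.symm
  have h2 := Nat.card_congr (orbitProdStabilizerEquivGroup A (none : Option (α ⊕ B)))
  rw [Nat.card_prod, h1, ← Nat.card_congr (Equiv.ofBijective f hf), (S0414.result hα hB).1,
    Nat.card_coe_set_eq, Set.ncard_univ, Nat.card_eq_fintype_card, hs.card] at h2
  exact h2.symm

/-- isomorphic graphs have isomorphic automorphism groups. -/
def autCongr {V W : Type*} {G : SimpleGraph V} {H : SimpleGraph W} (φ : G ≃g H) :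
    (G ≃g G) ≃* (H ≃g H) where
  toFun g := φ.symm.trans (g.trans φ)
  invFun g := φ.trans (g.trans φ.symm)
  left_inv g := by ext; simp
  right_inv g := by ext; simp
  map_mul' g g' := by ext; simp

theorem card_aut_hs {V : Type*} [Fintype V] {G : SimpleGraph V} [DecidableRel G.Adj]
    (hG : G.IsSRGWith 100 22 0 6) : Nat.card (G ≃g G) = 88704000 := by
  classical
  obtain ⟨v⟩ : Nonempty V := Fintype.card_pos_iff.mp (by rw [hG.card]; norm_num)
  obtain ⟨B, hB, φ, -⟩ := hs_std hG v
  rw [← Nat.card_congr (autCongr φ).toEquiv]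
  exact card_aut_pb (by rw [card_neighborSet_eq_degree, hG.regular v]) hB

/-! ### rank three groups -/

theorem srg_trace {V : Type*} [Fintype V] {G : SimpleGraph V} [DecidableRel G.Adj] {l m : ℕ}
    (h : G.IsSRGWith 100 22 l m) {F : Type*} [Field F] (c d : F)
    (h1 : 22 - m + c ^ 2 = 0) (h2 : l - m + 2 * c = 0) (h3 : m + 44 * d + 2 * c * d + 100 * d ^ 2 = 0) :
    100 * (c + d) = 0 := by
  classical
  set A := G.adjMatrix F
  set J : Matrix V V F := Matrix.of fun _ _ => 1
  have hC : Gᶜ.adjMatrix F = J - 1 - A := by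
    ext x y
    by_cases e : x = y
    · subst e; simp [J, A]
    · by_cases e' : G.Adj x y <;> simp [J, A, e, e', Matrix.one_apply_ne e]
  have hA : A * A = (22 : F) • 1 + (l : F) • A + (m : F) • (J - 1 - A) := by
    have := h.matrix_eq (α := F)
    rw [sq, hC] at this
    rw [this]
    simp only [← Nat.cast_smul_eq_nsmul F]
    norm_num [A]
  have hAJ : A * J = (22 : F) • J := by
    ext x y; simp [A, J, h.regular x]
  have hJA : J * A = (22 : F) • J := by
    ext x y; simp [A, J, h.regular y]
  have hJJ : J * J = (100 : F) • J := by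
    ext x y; simp [J, Matrix.mul_apply, h.card]
  have hN : (A + c • 1 + d • J) ^ 2 = 0 := by
    have : (A + c • 1 + d • J) ^ 2 = (22 - m + c ^ 2) • (1 : Matrix V V F) + (l - m + 2 * c) • A +
        (m + 44 * d + 2 * c * d + 100 * d ^ 2) • J := by
      simp only [sq, mul_add, add_mul, smul_mul_assoc, mul_smul_comm, one_mul, mul_one, hA, hAJ,
        hJA, hJJ]
      module
    rw [this, h1, h2, h3]; simp
  have := (Matrix.isNilpotent_trace_of_isNilpotent ⟨2, hN⟩).eq_zero
  simp only [Matrix.trace_add, Matrix.trace_smul, A, trace_adjMatrix, Matrix.trace_one, h.card,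
    smul_eq_mul] at this
  have e : J.trace = 100 := by simp [J, Matrix.trace, h.card]
  rw [e] at this
  push_cast at this
  linear_combination this

instance fact_prime_23' : Fact (Nat.Prime 23) := ⟨by norm_num⟩

theorem srg_params {V : Type*} [Fintype V] {G : SimpleGraph V} [DecidableRel G.Adj] {l m : ℕ}
    (h : G.IsSRGWith 100 22 l m) : G.IsSRGWith 100 22 0 6 := by
  classical
  have h1 := h.param_eq G (by norm_num)
  obtain ⟨a⟩ : Nonempty V := Fintype.card_pos_iff.mp (by rw [h.card]; norm_num)
  have hd : ∀ x, (G.neighborFinset x).card = 22 := fun x => by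
    rw [card_neighborFinset_eq_degree, h.regular x]
  obtain ⟨b, hb⟩ : (G.neighborFinset a).Nonempty := card_pos.mp (by rw [hd]; norm_num)
  have hb' : G.Adj a b := by simpa using hb
  have h2 : l < 22 := by
    have := hb'.card_commonNeighbors_lt_degree
    rwa [h.of_adj _ _ hb', h.regular a] at this
  have h3 : (l = 0 ∧ m = 6) ∨ (l = 7 ∧ m = 4) ∨ (l = 14 ∧ m = 2) ∨ (l = 21 ∧ m = 0) := by omega
  rcases h3 with ⟨rfl, rfl⟩ | ⟨rfl, rfl⟩ | ⟨rfl, rfl⟩ | ⟨rfl, rfl⟩
  · exact h
  · exact absurd (srg_trace h (F := ZMod 3) 0 (-1) (by decide) (by decide) (by decide)) (by decide)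
  · exfalso
    have e1 := srg_inter h a b
    rw [if_neg hb'.ne, if_pos hb'] at e1
    obtain ⟨c, hc⟩ : (G.neighborFinset a \ insert b (G.neighborFinset a ∩
        G.neighborFinset b)).Nonempty := by
      rw [← card_pos]
      have := le_card_sdiff (insert b (G.neighborFinset a ∩ G.neighborFinset b))
        (G.neighborFinset a)
      have := card_insert_le b (G.neighborFinset a ∩ G.neighborFinset b)
      have := hd a
      omega
    simp only [mem_sdiff, mem_neighborFinset, mem_insert, mem_inter, not_or, not_and] at hc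
    have e2 := srg_inter h a c
    rw [if_neg hc.1.ne, if_pos hc.1] at e2
    have e3 := srg_inter h b c
    rw [if_neg (Ne.symm hc.2.1), if_neg (hc.2.2 hc.1)] at e3
    have e4 := card_union_add_card_inter (G.neighborFinset a ∩ G.neighborFinset b)
      (G.neighborFinset a ∩ G.neighborFinset c)
    have e5 := card_le_card (union_subset (inter_subset_left (s₁ := G.neighborFinset a)
      (s₂ := G.neighborFinset b)) (inter_subset_left (s₂ := G.neighborFinset c)))
    have e6 := card_le_card (inter_subset_inter (inter_subset_right (s₁ := G.neighborFinset a)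
      (s₂ := G.neighborFinset b)) (inter_subset_right (s₁ := G.neighborFinset a)
      (s₂ := G.neighborFinset c)))
    have := hd a
    omega
  · exact absurd (srg_trace h (F := ZMod 23) 1 0 (by decide) (by decide) (by decide)) (by decide)

theorem rank3_srg {H Ω : Type*} [Group H] [Fintype Ω] [MulAction H Ω] [IsPretransitive H Ω]
    (hΩ : Fintype.card Ω = 100) (a b c : Ω) (hb : (orbit (stabilizer H a) b).ncard = 22)
    (hc : (orbit (stabilizer H a) c).ncard = 77) : ∃ (Γ : SimpleGraph Ω) (_ : DecidableRel Γ.Adj),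
      Γ.IsSRGWith 100 22 0 6 ∧ ∃ ρ : H →* (Γ ≃g Γ), ∀ g x, ρ g x = g • x := by
  classical
  let R : Ω → Ω → Prop := fun x y => ∃ g : H, g • a = x ∧ g • b = y
  have hR : ∀ (g : H) x y, R (g • x) (g • y) ↔ R x y := fun g x y =>
    ⟨fun ⟨k, h1, h2⟩ => ⟨g⁻¹ * k, by rw [mul_smul, h1, inv_smul_smul],
      by rw [mul_smul, h2, inv_smul_smul]⟩, fun ⟨k, h1, h2⟩ => ⟨g * k, by rw [mul_smul, h1],
      by rw [mul_smul, h2]⟩⟩
  have hRa : ∀ y, R a y ↔ y ∈ orbit (stabilizer H a) b := fun y =>
    ⟨fun ⟨k, h1, h2⟩ => ⟨⟨k, h1⟩, h2⟩, fun ⟨k, h⟩ => ⟨k.1, k.2, h⟩⟩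
  have himg : ∀ (g : H) (P Q : Ω → Prop), (∀ x, Q (g • x) ↔ P x) → {x | Q x}.ncard = {x | P x}.ncard :=
    fun g P Q h => by
      rw [← Set.ncard_image_of_injective {x | P x} (MulAction.injective g)]
      congr 1; ext y
      obtain ⟨x, rfl⟩ := MulAction.surjective g y
      exact (h x).trans ((MulAction.injective g).mem_set_image (s := {x | P x})).symm
  have hna : ∀ y, (orbit (stabilizer H a) y).ncard ≠ 1 → a ∉ orbit (stabilizer H a) y :=
    fun y h h' => h (by
      rw [← orbit_eq_iff.mpr h', Set.ncard_eq_one]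
      exact ⟨a, Set.eq_singleton_iff_unique_mem.mpr ⟨mem_orbit_self a, by
        rintro _ ⟨k, rfl⟩; exact k.2⟩⟩)
  have ha1 := hna b (by omega)
  have ha2 := hna c (by omega)
  have hbc : Disjoint (orbit (stabilizer H a) b) (orbit (stabilizer H a) c) := by
    rw [Set.disjoint_left]
    intro x h1 h2
    rw [← orbit_eq_iff.mpr h1, orbit_eq_iff.mpr h2] at hb
    omega
  have hall : ∀ y, y = a ∨ y ∈ orbit (stabilizer H a) b ∨ y ∈ orbit (stabilizer H a) c := by
    have : insert a (orbit (stabilizer H a) b ∪ orbit (stabilizer H a) c) = Set.univ := by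
      apply Set.eq_of_subset_of_ncard_le (Set.subset_univ _)
      rw [Set.ncard_insert_of_notMem (by simp [ha1, ha2]), Set.ncard_union_eq hbc, hb, hc,
        Set.ncard_univ, Nat.card_eq_fintype_card, hΩ]
    intro y
    have h : y ∈ insert a (orbit (stabilizer H a) b ∪ orbit (stabilizer H a) c) := this ▸ trivial
    exact h
  have hout : ∀ x, {y | R x y}.ncard = 22 := fun x => by
    obtain ⟨g, rfl⟩ := exists_smul_eq H a x
    rw [himg g (R a) _ (hR g a), ← hb]
    congr 1; ext y; exact hRa y
  have hin : {x | R x a}.ncard = 22 := by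
    have h1 := card_mul_eq_card_mul R (s := univ) (t := univ) (m := 22) (n := {x | R x a}.ncard)
      (fun x _ => by rw [← hout x, ← Set.ncard_coe_finset]; congr 1; ext; simp [bipartiteAbove])
      (fun y _ => by
        obtain ⟨g, rfl⟩ := exists_smul_eq H a y
        rw [← himg g (fun x => R x a) (fun x => R x (g • a)) (fun x => hR g x a),
          ← Set.ncard_coe_finset]
        congr 1; ext; simp [bipartiteBelow])
    rw [card_univ, hΩ] at h1
    omega
  have hirr : ∀ x, ¬ R x x := fun x h => by
    obtain ⟨g, rfl⟩ := exists_smul_eq H a x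
    exact ha1 ((hRa a).mp ((hR g a a).mp h))
  have hba : R b a := by
    have h1 : {x | R x a} ⊆ orbit (stabilizer H a) b := fun x hx => by
      rcases hall x with rfl | h | h
      · exact absurd hx (hirr _)
      · exact h
      · exfalso
        have h2 : orbit (stabilizer H a) c ⊆ {x | R x a} := by
          rw [← orbit_eq_iff.mpr h]
          rintro _ ⟨k, rfl⟩
          have := (hR k.1 x a).mpr hx
          rwa [k.2] at this
        have := Set.ncard_le_ncard h2
        omega
    have := Set.eq_of_subset_of_ncard_le h1 (by omega)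
    have h2 : b ∈ {x | R x a} := this ▸ mem_orbit_self b
    exact h2
  have hsym : ∀ x y, R x y → R y x := by
    rintro _ _ ⟨g, rfl, rfl⟩; exact (hR g b a).mpr hba
  let Γ : SimpleGraph Ω := ⟨R, ⟨hsym⟩, ⟨hirr⟩⟩
  refine ⟨Γ, inferInstance, srg_params (l := {x | R a x ∧ R b x}.ncard)
    (m := {x | R a x ∧ R c x}.ncard) (srg_of_ncard hΩ (fun v => ?_) ?_ fun v w h h' => ?_),
    MonoidHom.mk' (fun g => ⟨MulAction.toPerm g, hR g _ _⟩) fun g k => ?_, fun _ _ => rfl⟩
  · simp only [and_self]; exact hout v
  · rintro _ _ ⟨g, rfl, rfl⟩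
    exact himg g _ _ fun x => and_congr (hR g a x) (hR g b x)
  · obtain ⟨g, rfl⟩ := exists_smul_eq H a v
    obtain ⟨w, rfl⟩ := MulAction.surjective g w
    rcases hall w with rfl | h1 | ⟨k, rfl⟩
    · exact absurd rfl h
    · exact absurd ((hR g a w).mpr ((hRa w).mpr h1)) h'
    · refine himg (g * k.1) _ _ fun x => and_congr ?_ ?_
      · have := hR (g * k.1) a x
        rwa [mul_smul g k.1 a, k.2] at this
      · have := hR (g * k.1) c x
        rwa [mul_smul g k.1 c] at this
  · ext x; exact mul_smul g k x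

theorem eq_of_index_two {A : Type*} [Group A] [Finite A] {G H : Subgroup A} (hG : G.index = 2)
    (hH : H.index = 2) [IsSimpleGroup H] (h2 : 2 < Nat.card H) : G = H := by
  have := Subgroup.normal_of_index_eq_two hG
  have h1 : H ≤ G := by
    rcases IsSimpleGroup.eq_bot_or_eq_top_of_normal (G.subgroupOf H) inferInstance with h | h
    · have h3 : (G.subgroupOf H).index ∣ 2 := hG ▸ Subgroup.relIndex_dvd_index_of_normal G H
      rw [h, Subgroup.index_bot] at h3
      have := Nat.le_of_dvd (by norm_num) h3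
      omega
    · exact Subgroup.subgroupOf_eq_top.mp h
  refine (Subgroup.eq_of_le_of_card_ge h1 ?_).symm
  have a := G.card_mul_index
  have b := H.card_mul_index
  rw [hG] at a
  rw [hH] at b
  omega

end Cfsg.Agent.H14
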