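import Mathlib
import Cfsg.Agent.L1.SRG2
import Cfsg.Agent.H25.Co

/-!
# The Higman–Sims group acts on the Higman–Sims graph
-/

set_option autoImplicit false

namespace Cfsg.Agent.H14

open MulAction Cfsg.Agent.H25.Leech

theorem hs_sub_orbit (v : ℤ) (r n : ℕ) (hn : n ≠ 0)
    (h1 : ∀ j < 105, (da j = v ∧ db j = 0 ∧ dc j = -24) → H25.gd 0 (List.range 105) j = r)
    (h2 : ∑ j ∈ Finset.range 105,
      (if (da j = v ∧ db j = 0 ∧ dc j = -24) then H25.dg 20 HH j else 0) = n) :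
    ∃ b : orbit Hs U, (orbit (stabilizer Hs (⟨U, mem_orbit_self U⟩ : orbit Hs U)) b).ncard = n := by
  have h3 := cnt (fun a b c => a = v ∧ b = 0 ∧ c = -24) h2
  obtain ⟨x, hx⟩ := Set.nonempty_of_ncard_ne_zero (h3 ▸ hn)
  have h4 := orbit_Cl le_rfl fK1 _ r h1 hx fun k hk => by
    obtain ⟨a, b, c⟩ := K1_dot hk x
    exact ⟨(g_sq k _).trans hx.1, a.trans hx.2.1, b.trans hx.2.2.1, c.trans hx.2.2.2⟩
  refine ⟨⟨x, by rw [orb_Hs]; exact ⟨hx.1, hx.2.2⟩⟩, ?_⟩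
  rw [← h3, ← h4, ← Set.ncard_image_of_injective _ Subtype.val_injective]
  refine congrArg Set.ncard (Set.ext fun y => ⟨?_, ?_⟩)
  · rintro ⟨_, ⟨k, rfl⟩, rfl⟩
    exact ⟨⟨k.1.1, e_Hs.le ⟨k.1.2, congrArg Subtype.val k.2⟩⟩, rfl⟩
  · rintro ⟨k, rfl⟩
    have hk : k.1 ∈ Hs ⊓ St U := e_Hs.ge k.2
    exact ⟨_, ⟨⟨⟨k.1, hk.1⟩, Subtype.ext hk.2⟩, rfl⟩, rfl⟩

theorem hs_embed {V : Type*} [Fintype V] {G : SimpleGraph V} [DecidableRel G.Adj]
    (hG : G.IsSRGWith 100 22 0 6) : ∃ H : Subgroup (G ≃g G), Nonempty (H ≃* Spor.HS) := by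
  have hf : (orbit Hs U).Finite := Set.finite_of_ncard_ne_zero (by rw [n_Hs]; norm_num)
  have := hf.fintype
  obtain ⟨b, hb⟩ := hs_sub_orbit 8 52 22 (by norm_num) (by decide +kernel) (by decide +kernel)
  obtain ⟨c, hc⟩ := hs_sub_orbit 16 15 77 (by norm_num) (by decide +kernel) (by decide +kernel)
  obtain ⟨Γ, _, hΓ, ρ, hρ⟩ := rank3_srg (H := Hs) (by rw [card_eq_ncard, n_Hs]) _ b c hb hc
  have hi : Function.Injective ρ := by
    have := simple_Hs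
    rw [← MonoidHom.ker_eq_bot_iff]
    refine (IsSimpleGroup.eq_bot_or_eq_top_of_normal ρ.ker inferInstance).resolve_right fun h => ?_
    have h1 : orbit Hs U = {U} := Set.eq_singleton_iff_unique_mem.mpr ⟨mem_orbit_self U, by
      rintro _ ⟨k, rfl⟩
      have h2 : ρ k = 1 := (h ▸ Subgroup.mem_top k : k ∈ ρ.ker)
      have h3 := hρ k ⟨U, mem_orbit_self U⟩
      rw [h2] at h3
      exact (congrArg Subtype.val h3).symm⟩
    have := n_Hs
    rw [h1, Set.ncard_singleton] at this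
    omega
  obtain ⟨v⟩ : Nonempty V := Fintype.card_pos_iff.mp (by rw [hG.card]; norm_num)
  obtain ⟨φ, -⟩ := hs_unique hΓ hG b v
  exact ⟨((autCongr φ).toMonoidHom.comp ρ).range,
    ⟨(MonoidHom.ofInjective ((autCongr φ).injective.comp hi)).symm.trans eqHs⟩⟩

end Cfsg.Agent.H14
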