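import Cfsg.Agent.L1.Mono

/-!
# The hexacode: parity checks
-/

set_option autoImplicit false

namespace Cfsg.Agent.H14

variable {F : Type*} [Field F]

/-- the word with given first three coordinates. -/
def hexW (ω : F) (a : Fin 3 → F) : Fin 6 → F :=
  ![a 0, a 1, a 2, a 0 + a 1 + a 2, ω ^ 2 * a 0 + ω * a 1 + a 2, ω * a 0 + ω ^ 2 * a 1 + a 2]

theorem two_of_card4 [Fintype F] (hF : Fintype.card F = 4) : (2 : F) = 0 := by
  have h := FiniteField.cast_card_eq_zero F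
  rw [hF] at h
  have : (2 : F) * 2 = 0 := by rw [← h]; norm_num
  simpa using this

variable {ω : F} (h2 : (2 : F) = 0) (hω : ω ^ 2 + ω + 1 = 0)
include h2 hω

theorem mem_hex {x : Fin 6 → F} : x ∈ hexacode F ω ↔ x 3 = x 0 + x 1 + x 2 ∧
    x 4 = ω ^ 2 * x 0 + ω * x 1 + x 2 ∧ x 5 = ω * x 0 + ω ^ 2 * x 1 + x 2 := by
  rw [hexacode, Submodule.mem_span_triple]
  constructor
  · rintro ⟨a, b, c, rfl⟩
    refine ⟨?_, ?_, ?_⟩ <;> simp <;> grind
  · rintro ⟨h3, h4, h5⟩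
    refine ⟨ω * x 0 + ω ^ 2 * x 1, ω ^ 2 * x 0 + ω ^ 2 * x 1 + x 2, x 1 + x 2, funext fun i => ?_⟩
    fin_cases i <;> simp <;> grind

theorem hexW_mem (a : Fin 3 → F) : hexW ω a ∈ hexacode F ω :=
  (mem_hex h2 hω).mpr ⟨rfl, rfl, rfl⟩

theorem exists_hexW {x : Fin 6 → F} (hx : x ∈ hexacode F ω) : ∃ a, hexW ω a = x := by
  obtain ⟨h3, h4, h5⟩ := (mem_hex h2 hω).mp hx
  refine ⟨![x 0, x 1, x 2], funext fun i => ?_⟩
  fin_cases i <;> simp [hexW, h3, h4, h5]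

omit h2 hω in
theorem hexW_inj : Function.Injective (hexW ω) := fun a b e => funext fun i => by
  fin_cases i
  exacts [congrFun e 0, congrFun e 1, congrFun e 2]

end Cfsg.Agent.H14
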