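import Mathlib
import Cfsg.Agent.H29.Large
set_option autoImplicit false
set_option linter.all false
namespace Cfsg.Agent.L1Lg
open Cfsg.Agent.H22 Cfsg.Agent.H29 Subgroup

variable {G : Type*} [Group G] [Finite G] {Q : Subgroup G} {z : G}

theorem mem_of_normal (h : LE Q z) (hL : IsLargeExtraspecial Q) {N : Subgroup G} [N.Normal] (hN : N ≠ ⊥) : z ∈ N := by
  haveI : Fact (Nat.Prime 2) := ⟨Nat.prime_two⟩
  have nN : ∀ H : Subgroup G, H ≤ N[N] := fun H g _ => mem_N_of_normal g N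
  obtain ⟨R, hR, hQ, -⟩ := exists_syl_N (p := 2) (K := N) h.pgrp (nN Q)
  have : R ≠ ⊥ := syl_ne_bot hR (by
    by_contra c
    exact hN (hL.2.2.2 N (Nat.not_even_iff_odd.1 fun e => c e.two_dvd) (nN Q)))
  obtain ⟨x, hx, x1⟩ := (Subgroup.bot_or_exists_ne_one _).resolve_left (pgrp_inf_C_ne_bot h.pgrp hR.2 hQ this)
  have := h.C_eq ▸ hx.2
  rcases (mem_zp2 h.zz).1 this with e | e
  · exact absurd e x1
  · exact e ▸ hR.1 hx.1

theorem eq_top (h : LE Q z) {N : Subgroup G} [N.Normal] (hN : centralizer {z} ≤ N) : N = ⊤ := by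
  haveI : Fact (Nat.Prime 2) := ⟨Nat.prime_two⟩
  obtain ⟨S, hS⟩ := exists_sylIn 2 (N ⊓ centralizer {z})
  obtain ⟨a, -, b, -⟩ := h.lx.syl (h.le_Cz.trans hN) hS
  rw [eq_top_iff]
  intro g _
  obtain ⟨k, hk, n, hn, rfl⟩ := syl_frattini a (mem_N_of_normal g N)
  exact mul_mem hk (hN (b hn))

theorem simple (h : LE Q z) (hL : IsLargeExtraspecial Q)
    (hc : ∀ N : Subgroup G, N.Normal → z ∈ N → centralizer {z} ≤ N) : IsSimpleGroup G :=
  haveI : Nontrivial G := ⟨z, 1, h.ne⟩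
  ⟨fun N hN => or_iff_not_imp_left.2 fun e => eq_top h (hc N hN (mem_of_normal h hL e))⟩

end Cfsg.Agent.L1Lg
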