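import Mathlib
import Cfsg.Agent.L1.Mon2
set_option autoImplicit false
set_option linter.all false
namespace Cfsg.Agent.L1Mon
open Cfsg.Agent.H25.Leech Cfsg.Spor Cfsg.Agent.L1ES Subgroup

variable {G : Type*} [Group G]
variable {z : G} {P : Subgroup G} {Y : Type*} [Group Y] {θ : Cz z →* Y} {f : Co0 →* Y} {Rp : L → G → Prop}

theorem MT.baby [Finite G] (h : MT z P θ f Rp) (h0 : ∃ g, g * z * g⁻¹ ∈ P ∧ g * z * g⁻¹ ≠ z) {t : G}
    (a : Rp U t) (tt : t * t = 1) {K : Type*} [Group K] [Finite K] (π : Cz t →* K) (πs : Function.Surjective π)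
    (πk : ∀ x, π x = 1 ↔ x.1 = 1 ∨ x.1 = t) : IsOfBabyMonsterType K := by
  have tP := h.rm a
  obtain ⟨t1, tz⟩ := h.ne a (Or.inl sqU)
  have zt : z ∈ Cz t := mem_Cz.2 (h.cz t tP).symm
  let M : Subgroup G := Cz z ⊓ Cz t
  let zM : M := ⟨z, mem_Cz.2 rfl, zt⟩
  let x0 : K := π ⟨z, zt⟩
  let μ0 : M →* K := π.comp (inclusion inf_le_right)
  let μ : M →* Cz x0 := μ0.codRestrict _ fun m => mem_Cz.2 (by
    show π _ * π _ = π _ * π _
    rw [← map_mul, ← map_mul]; congr 1; exact Subtype.ext (mem_Cz.1 m.2.1))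
  have μz : μ zM = ⟨x0, mem_Cz.2 rfl⟩ := rfl
  have μk : ∀ m, μ m = 1 ↔ m.1 = 1 ∨ m.1 = t := fun m => by
    rw [Subtype.ext_iff]; exact πk _
  have μe : ∀ m n, μ m = μ n ↔ n.1 = m.1 ∨ n.1 = m.1 * t := fun m n => by
    rw [← inv_mul_eq_one, ← map_inv, ← map_mul, μk]
    exact or_congr (inv_mul_eq_one.trans eq_comm) inv_mul_eq_iff_eq_mul
  have μs : Function.Surjective μ := by
    rintro ⟨k, hk⟩
    obtain ⟨x, rfl⟩ := πs k
    have e := mem_Cz.1 hk
    have : π (⟨z, zt⟩⁻¹ * (x * ⟨z, zt⟩ * x⁻¹)) = 1 := by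
      simp only [map_mul, map_inv]
      rw [show π x * π ⟨z, zt⟩ = _ from e]; simp [x0]
    rcases (πk _).1 this with e | e
    · exact ⟨⟨x.1, mem_Cz.2 (mul_inv_eq_iff_eq_mul.1 (inv_mul_eq_one.1 e).symm), x.2⟩, rfl⟩
    · exfalso
      have e : x.1 * z * x.1⁻¹ = z * t := inv_mul_eq_iff_eq_mul.1 e
      have r : Rp U (z * t) := (h.ru a).2 (Or.inr (h.cz t tP).symm)
      obtain ⟨v, hv, b⟩ := (h.four_iff h0).1 ⟨isConj_iff.2 ⟨_, e⟩, fun e => t1 (by simpa using e), h.rm r⟩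
      exact cg_norm sqU hv ((h.r_cg b).1 r)
  have st := h.stab a t1 tz
  let φ : C2 →* Y := f.comp C2.subtype
  have φi : Function.Injective φ := (injective_iff_map_eq_one φ).2 fun k e => by
    rcases (h.fk k.1).1 e with e | e
    · exact Subtype.ext e
    · have : k.1 • U = U := k.2
      rw [e, neg1_smul] at this
      exact absurd this neg_ne_U
  let θM : M →* Y := θ.comp (inclusion inf_le_left)
  have rg : ∀ m, θM m ∈ φ.range := fun m => by
    obtain ⟨k, e⟩ := h.fs (θM m)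
    have fn : f (k * neg1) = f k := by rw [map_mul, (h.fk _).2 (Or.inr rfl), mul_one]
    rcases cg32 (by rw [g_sq, sqU]) sqU ((st k).1 ⟨⟨m.1, m.2.1⟩, m.2, e.symm⟩) with b | b
    · exact ⟨⟨k, b⟩, e⟩
    · exact ⟨⟨k * neg1, show (k * neg1) • U = U by rw [mul_smul, neg1_smul, g_neg, b, neg_neg]⟩, fn.trans e⟩
  let ν : M →* C2 := (MonoidHom.ofInjective φi).symm.toMonoidHom.comp (θM.codRestrict _ rg)
  have νe : ∀ m, f (ν m).1 = θ ⟨m.1, m.2.1⟩ := fun m => MonoidHom.apply_ofInjective_symm φi ⟨θM m, rg m⟩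
  have νk : ∀ m, ν m = 1 ↔ m.1 ∈ P := fun m => by
    rw [← h.θk ⟨m.1, m.2.1⟩, ← νe, ← φi.eq_iff, map_one]; rfl
  have νs : Function.Surjective ν := fun k => by
    obtain ⟨c, hc, e⟩ := (st k.1).2 (by rw [show k.1 • U = U from k.2]; exact Cg.refl _)
    exact ⟨⟨c.1, hc⟩, φi ((νe _).trans e)⟩
  let l0 : Cz x0 →* C2 := MonoidHom.liftOfSurjective μ μs ⟨ν, fun m hm => (νk m).2 (by
    rcases (μk m).1 hm with e | e <;> rw [e]
    exacts [one_mem _, tP])⟩
  have l0e : ∀ m, l0 (μ m) = ν m := fun m => MonoidHom.liftOfRightInverse_comp_apply _ _ _ _ m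
  let l : Cz x0 →* Spor.Co2 := eqC2.toMonoidHom.comp l0
  have le : ∀ m, l (μ m) = eqC2 (ν m) := fun m => congrArg eqC2 (l0e m)
  have ls : Function.Surjective l := fun k => by
    obtain ⟨k, rfl⟩ := eqC2.surjective k
    obtain ⟨m, rfl⟩ := νs k
    exact ⟨_, le m⟩
  have lk : ∀ m, μ m ∈ l.ker ↔ m.1 ∈ P := fun m => by
    rw [MonoidHom.mem_ker, le, MulEquiv.map_eq_one_iff, νk]
  have cen : ∀ m : M, m.1 ∈ P → μ m ∈ centralizer (l.ker : Set (Cz x0)) → μ m = 1 ∨ μ m = μ zM := fun m hm c => by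
    have := h.toES.cent4 tP hm fun y hy e => by
      let n : M := ⟨y, mem_Cz.2 (h.cz y hy), mem_Cz.2 e.symm⟩
      have := mem_centralizer_iff.1 c (μ n) ((lk n).2 hy)
      rw [← map_mul, ← map_mul, μe] at this
      rcases this with b | b
      · exact b
      · rcases h.cm _ hm y hy with d | d
        · exact d
        · exact absurd (mul_left_cancel ((show m.1 * y = y * m.1 * t from b).symm.trans d)) tz
    rw [μk, eq_comm (b := μ zM), μe]
    rcases this with e | e | e | e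
    · exact Or.inl (Or.inl e)
    · exact Or.inr (Or.inl e)
    · exact Or.inl (Or.inr e)
    · exact Or.inr (Or.inr (e.trans (h.cz t tP)))
  have z1 : μ zM ≠ 1 := fun e => ((μk _).1 e).elim h.z1 tz.symm
  have zz : μ zM * μ zM = 1 := by rw [← map_mul, μk]; exact Or.inl h.zz
  have card : Nat.card l.ker = 2 ^ (2 * 11 + 1) := by
    have e1 : l.ker = (P.subgroupOf M).map μ := by
      ext q
      obtain ⟨m, rfl⟩ := μs q
      rw [lk]
      refine ⟨fun b => ⟨m, b, rfl⟩, ?_⟩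
      rintro ⟨n, b, e⟩
      rcases (μe _ _).1 e with e | e <;> rw [e]
      exacts [b, P.mul_mem b tP]
    have c1 := card_map_mul μ (P.subgroupOf M)
    have c2 := h.toES.card_cent' tP t1 tz
    have c3 : Nat.card (P.subgroupOf M) = Nat.card ↥(P ⊓ centralizer {t}) := by
      have : P.subgroupOf M = (P ⊓ centralizer {t}).subgroupOf M := by
        ext m; simp only [mem_subgroupOf, mem_inf]; exact ⟨fun b => ⟨b, m.2.2⟩, fun b => b.1⟩
      rw [this]
      exact Nat.card_congr (subgroupOfEquivOfLe (H := P ⊓ centralizer {t}) (K := M) fun x hx => ⟨mem_Cz.2 (h.cz x hx.1), hx.2⟩).toEquiv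
    have c4 : Nat.card ↥(P.subgroupOf M ⊓ μ.ker) = 2 := by
      rw [Nat.card_eq_two_iff' (1 : ↥(P.subgroupOf M ⊓ μ.ker))]
      refine ⟨⟨⟨t, mem_Cz.2 (h.cz t tP), mem_Cz.2 rfl⟩, tP, (μk _).2 (Or.inr rfl)⟩,
        fun e => t1 (congrArg (·.1.1) e), fun k hk => ?_⟩
      exact Subtype.ext (Subtype.ext (((μk k.1).1 k.2.2).resolve_left fun e => hk (Subtype.ext (Subtype.ext e))))
    rw [← e1, c4, c3] at c1
    rw [h.card] at c2
    omega
  have cen' : ∀ q ∈ l.ker, q ∈ centralizer (l.ker : Set (Cz x0)) → q = 1 ∨ q = μ zM := fun q hq c => by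
    obtain ⟨m, rfl⟩ := μs q
    exact cen m ((lk m).1 hq) c
  have es : H29.ES l.ker (μ zM) := by
    refine ⟨⟨z1, zz, (lk _).2 h.zm, fun q hq => ?_, fun q hq c _ => cen' q hq c⟩, cen', fun c => ?_⟩
    · obtain ⟨m, rfl⟩ := μs q
      rw [← map_mul]
      rcases h.sq _ ((lk m).1 hq) with e | e
      · exact Or.inl ((μk _).2 (Or.inl e))
      · exact Or.inr (congrArg μ (Subtype.ext e))
    · have : l.ker ≤ zpowers (μ zM) := fun q hq => (H29.mem_zp2 zz).2 (cen' q hq (c hq))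
      have := card_le_of_le this
      rw [card, H29.card_zp2 zz z1] at this
      norm_num at this
  have perp : ∀ {v : L} {x : G}, Rp v x → (16 : ℤ) ∣ dotInt v.1 U.1 → x ∈ M := fun r d =>
    ⟨mem_Cz.2 (h.cz _ (h.rm r)), mem_Cz.2 ((h.comm_iff r a).2 d)⟩
  haveI := simple_Co2
  haveI : Finite Spor.Co2 := Nat.finite_of_card_ne_zero (by rw [card_Co2]; norm_num)
  have hc : centralizer (l.ker : Set (Cz x0)) ≤ l.ker := by
    rcases ((inferInstance : (centralizer (l.ker : Set (Cz x0))).Normal).map l ls).eq_bot_or_eq_top with e | e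
    · exact (Subgroup.map_eq_bot_iff _).1 e
    · exfalso
      obtain ⟨k, n1, n2⟩ := ex_move
      obtain ⟨q, hq, e'⟩ : eqC2 k ∈ (centralizer (l.ker : Set (Cz x0))).map l := e ▸ mem_top _
      obtain ⟨m, rfl⟩ := μs q
      rw [le, eqC2.apply_eq_iff_eq] at e'
      subst e'
      obtain ⟨x, r⟩ := h.re U'
      have xM := perp r (by rw [show dotInt U'.1 U.1 = 0 from dU'U]; simp)
      have c : μ ⟨x, xM⟩ = μ (m * ⟨x, xM⟩ * m⁻¹) := by
        rw [map_mul, map_mul, map_inv, ← mem_centralizer_iff.1 hq (μ ⟨x, xM⟩) ((lk _).2 (h.rm r)),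
          mul_inv_cancel_right]
      rw [μe] at c
      have r' := h.rg (νe m) r
      rcases c with c | c
      · rw [show m.1 * x * m.1⁻¹ = x from c] at r'
        exact (cg32 (by rw [g_sq, sqU']) sqU' ((h.r_cg r).1 r')).elim n1 n2
      · rw [show m.1 * x * m.1⁻¹ = x * t from c] at r'
        exact cg_norm (by rw [g_sq, sqU']) (by rw [add_comm, UU'.1, sq_e8]) ((h.r_cg (h.ra r a)).1 r')
  refine ⟨x0, l.ker, inferInstance, setting_of l ls (pCore_simple (by rw [card_Co2]; norm_num)) es hc card ?_,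
    QuotientGroup.quotientKerEquivOfSurjective l ls, ?_⟩
  · obtain ⟨u, s, u1, u2, sP, s1, s2, s3⟩ := h.fuse h0 a sqU
    let m : M := ⟨z * s, mem_Cz.2 (h.cz _ (P.mul_mem h.zm sP)), mul_mem zt (mem_Cz.2 s1)⟩
    have e : π ⟨u, mem_Cz.2 u1⟩ * x0 * (π ⟨u, mem_Cz.2 u1⟩)⁻¹ = (μ m).1 := by
      rw [← map_inv, ← map_mul, ← map_mul]
      exact congrArg π (Subtype.ext u2)
    refine ⟨π ⟨u, mem_Cz.2 u1⟩, ?_, fun e' => ?_⟩
    · rw [e]
      exact ⟨(μ m).2, (lk m).2 (P.mul_mem h.zm sP)⟩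
    · rw [e] at e'
      rcases (μe zM m).1 (Subtype.ext e'.symm) with b | b
      · exact s2 (by simpa [m, zM] using b)
      · exact s3 (by simpa [m, zM] using b)
  · choose r hr using h.re
    let ψ : leechPerpU → l.ker ⧸ center l.ker := fun x =>
      QuotientGroup.mk ⟨μ ⟨r x.1, perp (hr _) x.2⟩, (lk _).2 (h.rm (hr _))⟩
    have ce : ∀ q : l.ker, q ∈ center l.ker ↔ q.1 = 1 ∨ q.1 = μ zM := fun q => by
      rw [← H29.mem_zp2 zz, ← es.map_center]
      exact ⟨fun b => ⟨q, b, rfl⟩, by rintro ⟨q', b, e⟩; rwa [← Subtype.ext e]⟩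
    have qe : ∀ (m n : M) hm hn, (QuotientGroup.mk ⟨μ m, hm⟩ : l.ker ⧸ center l.ker) = QuotientGroup.mk ⟨μ n, hn⟩ ↔
        (n.1 = m.1 ∨ n.1 = m.1 * z) ∨ n.1 = m.1 * t ∨ n.1 = m.1 * t * z := fun m n hm hn => by
      rw [QuotientGroup.eq, ce]
      show (μ m)⁻¹ * μ n = 1 ∨ (μ m)⁻¹ * μ n = μ zM ↔ _
      rw [inv_mul_eq_one, inv_mul_eq_iff_eq_mul, ← map_mul, μe, eq_comm (a := μ n), μe]
      have : (m * zM).1 * t = m.1 * t * z := by
        show m.1 * z * t = _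
        rw [mul_assoc, mul_assoc, h.cz t tP]
      rw [this]
      tauto
    have key : ∀ (x : leechPerpU) (m : M) hm, ψ x = QuotientGroup.mk ⟨μ m, hm⟩ ↔ Rp x.1 m.1 ∨ Rp (x.1 + U) m.1 :=
      fun x m hm => by rw [qe, h.ru (hr x.1), h.ru (h.ra (hr x.1) a)]
    refine ⟨ψ, fun x y => ?_, fun q => ?_, fun x => ?_, fun c k e x y e' q hq => ?_⟩
    · show _ = QuotientGroup.mk (_ * _)
      have : ∀ (m n : M) hm hn, (⟨μ m, hm⟩ * ⟨μ n, hn⟩ : l.ker) = ⟨μ (m * n), by rw [map_mul]; exact mul_mem hm hn⟩ :=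
        fun m n _ _ => Subtype.ext (map_mul μ m n).symm
      rw [this, key]
      exact Or.inl (h.ra (hr _) (hr _))
    · obtain ⟨⟨q, hq⟩, rfl⟩ := QuotientGroup.mk_surjective q
      obtain ⟨m, rfl⟩ := μs q
      obtain ⟨v, hv⟩ := h.rs _ ((lk m).1 hq)
      exact ⟨⟨v, (h.comm_iff hv a).1 (mem_Cz.1 m.2.2)⟩, (key _ _ _).2 (Or.inl hv)⟩
    · have : (1 : l.ker ⧸ center l.ker) = QuotientGroup.mk ⟨μ 1, by simp⟩ := by
        rw [eq_comm, QuotientGroup.eq_one_iff, ce]; exact Or.inl (map_one μ)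
      rw [this, key]
      refine or_congr (h.r1 _) ((h.r1 _).trans ⟨?_, ?_⟩)
      · rintro ⟨w, e⟩
        exact ⟨w - U, by rw [eq_sub_of_add_eq e]; abel⟩
      · rintro ⟨w, e⟩
        exact ⟨w + U, by rw [e]; abel⟩
    · obtain ⟨m, rfl⟩ := μs c
      obtain ⟨q, hq'⟩ := q
      obtain ⟨n, rfl⟩ := μs q
      have e2 : l (μ m) = k := e
      rw [le] at e2
      subst e2
      have e3 : (ν m).1 • x.1 = y.1 := e'
      have : ∀ hh, (⟨μ m * μ n * (μ m)⁻¹, hh⟩ : l.ker) = ⟨μ (m * n * m⁻¹), by simpa using hh⟩ :=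
        fun _ => Subtype.ext (by simp)
      rw [this, key, ← e3]
      rcases (key _ _ _).1 hq with b | b
      · exact Or.inl (h.rg (νe m) b)
      · have := h.rg (νe m) b
        rw [g_add, show (ν m).1 • U = U from (ν m).2] at this
        exact Or.inr this

end Cfsg.Agent.L1Mon
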