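import Mathlib
import Cfsg.Prelude.Def_SporadicCombinatorics

/-!
# Monomial automorphisms of a code
-/

set_option autoImplicit false
set_option linter.unusedSectionVars false

namespace Cfsg.Agent.H14

variable {α F : Type*} [Field F] [Finite α] [Finite F] (C : Submodule F (α → F))

/-- the monomial map preserves the code. -/
def MPres (σ : Equiv.Perm α) (c : α → Fˣ) : Prop := ∀ x ∈ C, monomialMap σ c x ∈ C

variable {C}

theorem MPres.surj {σ : Equiv.Perm α} {c : α → Fˣ} (h : MPres C σ c) {y : α → F} (hy : y ∈ C) :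
    ∃ x ∈ C, monomialMap σ c x = y := by
  let f : C → C := fun x => ⟨_, h x.1 x.2⟩
  have hf : Function.Injective f := fun x x' e => by
    ext i
    have := congrFun (congrArg Subtype.val e) (σ i)
    simpa [f, monomialMap] using this
  obtain ⟨x, hx⟩ := Finite.injective_iff_surjective.mp hf ⟨y, hy⟩
  exact ⟨x.1, x.2, congrArg Subtype.val hx⟩

theorem mpres_of_span {s : Set (α → F)} (hs : C ≤ Submodule.span F s) {σ : Equiv.Perm α}
    {c : α → Fˣ} (h : ∀ x ∈ s, monomialMap σ c x ∈ C) : MPres C σ c := fun x hx => by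
  refine Submodule.span_induction (p := fun x _ => monomialMap σ c x ∈ C) h ?_ ?_ ?_ (hs hx)
  · convert C.zero_mem using 1; ext; simp [monomialMap]
  · intro x y _ _ a b
    convert C.add_mem a b using 1; ext; simp [monomialMap, mul_add]
  · intro r x _ a
    convert C.smul_mem r a using 1; ext; simp [monomialMap, mul_left_comm]

variable (C)

/-- the permutation parts. -/
def mPerm : Subgroup (Equiv.Perm α) where
  carrier := {σ | ∃ c, MPres C σ c}
  one_mem' := ⟨1, fun x hx => by
    convert hx using 1; ext; simp [monomialMap, Equiv.Perm.one_def]⟩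
  mul_mem' := by
    rintro σ τ ⟨c, hc⟩ ⟨d, hd⟩
    refine ⟨c * fun i => d (σ.symm i), fun x hx => ?_⟩
    convert hc _ (hd x hx) using 1
    ext i; simp [monomialMap, mul_assoc, Equiv.Perm.mul_def]
  inv_mem' := by
    rintro σ ⟨c, hc⟩
    refine ⟨fun i => (c (σ i))⁻¹, fun y hy => ?_⟩
    obtain ⟨x, hx, rfl⟩ := hc.surj hy
    convert hx using 1
    ext i; simp [monomialMap, Equiv.Perm.inv_def]

theorem card_mpres [Nonempty α] (h : ∀ c, MPres C 1 c → ∀ i j, c i = c j) :
    Nat.card {f : Equiv.Perm α × (α → Fˣ) // MPres C f.1 f.2} =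
      Nat.card (mPerm C) * Nat.card Fˣ := by
  have hc : ∀ σ : mPerm C, ∃ c, MPres C σ.1 c := fun σ => σ.2
  choose c hc using hc
  rw [← Nat.card_prod]
  refine (Nat.card_congr (Equiv.ofBijective (fun p : mPerm C × Fˣ =>
    (⟨(p.1.1, fun i => p.2 * c p.1 i), fun x hx => ?_⟩ :
      {f : Equiv.Perm α × (α → Fˣ) // MPres C f.1 f.2})) ⟨?_, ?_⟩)).symm
  · convert C.smul_mem (p.2 : F) (hc p.1 x hx) using 1
    ext i; simp [monomialMap, mul_assoc]
  · rintro ⟨σ, u⟩ ⟨τ, v⟩ e
    have e1 := congrArg (fun f => f.1.1) e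
    obtain rfl : σ = τ := Subtype.ext e1
    have e2 := congrFun (congrArg (fun f => f.1.2) e) (Classical.arbitrary α)
    simp only [mul_left_inj] at e2
    rw [e2]
  · rintro ⟨⟨σ, d⟩, hd⟩
    have := h (fun i => d i * (c ⟨σ, d, hd⟩ i)⁻¹) fun y hy => by
      obtain ⟨x, hx, rfl⟩ := (hc ⟨σ, d, hd⟩).surj hy
      convert hd x hx using 1
      ext i; simp [monomialMap, mul_assoc, Equiv.Perm.one_def]
    refine ⟨(⟨σ, d, hd⟩, d (Classical.arbitrary α) * (c ⟨σ, d, hd⟩ (Classical.arbitrary α))⁻¹),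
      Subtype.ext (Prod.ext rfl (funext fun i => ?_))⟩
    show _ * _ = d i
    rw [this _ i]; simp

end Cfsg.Agent.H14
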