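import Mathlib
import Cfsg.Agent.L1.Mon2
import Cfsg.Agent.H29.Sing
import Cfsg.Agent.H1.Coprime
set_option autoImplicit false
set_option linter.all false
namespace Cfsg.Agent.L1Mon
open Cfsg.Agent.H25.Leech Cfsg.Spor Cfsg.Agent.L1ES Subgroup

variable {G : Type*} [Group G]
variable {z : G} {P : Subgroup G} {Y : Type*} [Group Y] {θ : Cz z →* Y} {f : Co0 →* Y} {Rp : L → G → Prop}

/-- the structure of the centraliser of `β` and of the classes it fixes -/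
structure CD (β : Co0) {S : Type*} [Group S] (ρ : Cz β →* S) {ι : Type} (rep : ι → L) : Prop where
  ρs : Function.Surjective ρ
  ρk : ∀ k, ρ k = 1 ↔ ∃ i : ℤ, k.1 = β ^ i ∨ k.1 = β ^ i * neg1
  fix : ∀ k : Cz β, (∀ i, Cg (k.1 • rep i) (rep i)) → ρ k = 1
  rf : ∀ i, Cg (β • rep i) (rep i)
  ri : ∀ i j, Cg (rep i) (rep j) → i = j
  rs : ∀ v, Cg (β • v) v → ∃ i, Cg v (rep i)

theorem odd_four {b x : G} {p : ℕ} (po : Odd p) (bp : b ^ p = 1) (hx : x ∈ zpowers b) (h4 : x ^ 4 = 1) : x = 1 := by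
  obtain ⟨i, rfl⟩ := hx
  have e : (b ^ i) ^ p = 1 := by rw [← zpow_natCast, ← zpow_mul, mul_comm, zpow_mul, zpow_natCast, bp, one_zpow]
  have := pow_gcd_eq_one.2 ⟨e, h4⟩
  rwa [show p.gcd 4 = 1 from (Nat.coprime_pow_right_iff (n := 2) (by norm_num) p 2).2 po.coprime_two_right, pow_one] at this

theorem es_four (h : ES z P) {x : G} (hx : x ∈ P) : x ^ 4 = 1 := by
  rw [show x ^ 4 = x * x * (x * x) by simp [pow_succ, mul_assoc]]
  rcases h.sq x hx with e | e <;> rw [e]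
  exacts [mul_one _, h.zz]

theorem odd_card {b : G} {p : ℕ} (po : Odd p) (bp : b ^ p = 1) : Odd (Nat.card (zpowers b)) := by
  rw [Nat.card_zpowers]; exact po.of_dvd_nat (orderOf_dvd_of_pow_eq_one bp)

theorem zp_comm {b x a : G} (h : x * b = b * x) (ha : a ∈ zpowers b) : a * x = x * a := by
  obtain ⟨i, rfl⟩ := ha
  exact ((show Commute x b from h).zpow_right i).eq.symm

theorem es_fix [Finite G] (h : ES z P) {b x : G} {p : ℕ} (po : Odd p) (bp : b ^ p = 1) (bz : b * z = z * b)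
    (hx : x ∈ P) (xb : x * b = b * x) (h1 : x ≠ 1) (h2 : x ≠ z) :
    ∃ u ∈ P, u * b = b * u ∧ u * x * u⁻¹ = x * z := by
  have ce : ∀ x ∈ P, x ∈ centralizer (P : Set G) → x = 1 ∨ x = z := fun x a c => h.ce x a fun y b => (c y b).symm
  have e : H29.ES P z := ⟨⟨h.z1, h.zz, h.zm, h.sq, fun x a c _ => ce x a c⟩, ce, fun c => (ce x hx (c hx)).elim h1 h2⟩
  have hz : x ∉ zpowers z := fun c => ((H29.mem_zp2 h.zz).1 c).elim h1 h2
  have xm : x ∈ P ⊓ centralizer (zpowers b : Set G) := ⟨hx, fun a ha => zp_comm xb ha⟩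
  have e' := (e.coprime (A := zpowers b) (zpowers_le.2 (mem_normalizer_fintype fun y hy => h.nm b bz y hy))
    (odd_card po bp)).2.2.2.resolve_left fun c => hz (c ▸ xm)
  obtain ⟨u, hu, c⟩ := e'.toSP.exists_conj le_rfl xm (e'.not_mem_C' xm hz)
  exact ⟨u, hu.1, (hu.2 b (mem_zpowers b)).symm, c⟩

theorem MT.fixP (h : MT z P θ f Rp) {b : G} (bz : b ∈ Cz z) {p : ℕ} (po : Odd p) (bp : b ^ p = 1) {β : Co0}
    (e : f β = θ ⟨b, bz⟩) {v : L} {x : G} (a : Rp v x) : x * b = b * x ↔ Cg (β • v) v := by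
  have r : Rp (β • v) (b * x * b⁻¹) := h.rg e a
  constructor
  · intro c
    rw [← c, mul_inv_cancel_right] at r
    exact (h.r_cg a).1 r
  · intro c
    rcases (h.ru ((h.r_cg a).2 c)).1 r with d | d
    · exact (mul_inv_eq_iff_eq_mul.1 d).symm
    · have : ∀ n : ℕ, b ^ n * x * (b ^ n)⁻¹ = x * z ^ n := fun n => by
        induction n with
        | zero => simp
        | succ n ih =>
          have c2 : b * z ^ n * b⁻¹ = z ^ n := by
            rw [((show Commute b z from mem_Cz.1 bz).pow_right n).eq, mul_inv_cancel_right]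
          rw [pow_succ' b, pow_succ' z, show b * b ^ n * x * (b * b ^ n)⁻¹ = b * (b ^ n * x * (b ^ n)⁻¹) * b⁻¹ by group, ih,
            ← mul_assoc x, ← d, ← c2]
          nth_rw 1 [c2]
          group
      have c3 := this p
      obtain ⟨k, rfl⟩ := po
      rw [bp, pow_succ, pow_mul, pow_two, h.zz] at c3
      exact absurd (by simpa using c3) h.z1

theorem MT.cnt (h : MT z P θ f Rp) {ι : Type} {rep : ι → L} (ri : ∀ i j, Cg (rep i) (rep j) → i = j) (T : Set ι) :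
    {x | ∃ i ∈ T, Rp (rep i) x}.ncard = 2 * T.ncard := by
  choose r hr using h.re
  let g : ι × Bool → G := fun q => if q.2 then r (rep q.1) * z else r (rep q.1)
  have hg : ∀ q, Rp (rep q.1) (g q) := fun q => (h.ru (hr _)).2 (by
    simp only [g]; split_ifs
    exacts [Or.inr rfl, Or.inl rfl])
  have gi : Function.Injective g := by
    rintro ⟨i, a⟩ ⟨j, b⟩ e
    obtain rfl := ri i j ((h.r_cg (hg (j, b))).1 (e ▸ hg (i, a)))
    have := h.z1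
    cases a <;> cases b <;> simp_all [g]
  have : {x | ∃ i ∈ T, Rp (rep i) x} = g '' (T ×ˢ Set.univ) := by
    ext x
    constructor
    · rintro ⟨i, hi, a⟩
      rcases (h.ru (hr _)).1 a with e | e
      · exact ⟨(i, false), ⟨hi, trivial⟩, e.symm⟩
      · exact ⟨(i, true), ⟨hi, trivial⟩, e.symm⟩
    · rintro ⟨q, hq, rfl⟩
      exact ⟨q.1, hq.1, hg q⟩
  rw [this, Set.ncard_image_of_injective _ gi, Set.ncard_prod, Set.ncard_univ, mul_comm]
  simp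

theorem MT.liftC [Finite G] (h : MT z P θ f Rp) {b : G} (bz : b ∈ Cz z) {p : ℕ} (po : Odd p) (bp : b ^ p = 1)
    {D : Subgroup G} (bD : b ∈ D) {c : Cz z} (cD : c.1 ∈ D) (e : θ c * θ ⟨b, bz⟩ = θ ⟨b, bz⟩ * θ c) :
    ∃ m : Cz z, m.1 ∈ D ∧ m.1 * b = b * m.1 ∧ θ m = θ c := by
  have pg : IsPGroup 2 ↥(D ⊓ P) := fun x => ⟨2, Subtype.ext (es_four h.toES x.2.2)⟩
  obtain ⟨n, hn⟩ := (IsPGroup.iff_card (p := 2)).1 pg
  obtain ⟨u, hu, d⟩ := H1.exists_mul_mem_centralizer (zpowers b) (D ⊓ P)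
    (zpowers_le.2 (mem_normalizer_fintype fun y hy =>
      ⟨D.mul_mem (D.mul_mem bD hy.1) (D.inv_mem bD), h.nm b (mem_Cz.1 bz) y hy.2⟩))
    (by rw [hn]; exact (odd_card po bp).coprime_two_right.pow_right n) (Or.inr (by haveI := pg.isNilpotent; infer_instance)) c.1
    (fun a ha => by
      have az : a ∈ Cz z := zpowers_le.2 bz ha
      have aD : a ∈ D := zpowers_le.2 bD ha
      refine ⟨D.mul_mem (D.mul_mem (D.mul_mem aD cD) (D.inv_mem aD)) (D.inv_mem cD),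
        (h.θk (⟨a, az⟩ * c * ⟨a, az⟩⁻¹ * c⁻¹)).1 ?_⟩
      have : θ ⟨a, az⟩ ∈ zpowers (θ ⟨b, bz⟩) := by
        obtain ⟨i, rfl⟩ := ha
        exact ⟨i, (map_zpow θ _ i).symm⟩
      simp only [map_mul, map_inv]
      rw [zp_comm e this]; group)
  have uz : u ∈ Cz z := mem_Cz.2 (h.cz u hu.2)
  exact ⟨⟨u, uz⟩ * c, D.mul_mem hu.1 cD, (d b (mem_zpowers b)).symm, by
    rw [map_mul, (h.θk ⟨u, uz⟩).2 hu.2, one_mul]⟩

theorem neg_odd {β k : Co0} {p : ℕ} (po : Odd p) (βp : β ^ p = 1) (e : k * β * k⁻¹ = β * neg1) : False := by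
  have := congrArg (· ^ p) e
  obtain ⟨n, rfl⟩ := po
  simp only [conj_pow, βp, (show Commute β neg1 from mem_center_iff.1 neg1_central β).mul_pow] at this
  rw [pow_succ, pow_mul, pow_two, neg1_sq] at this
  exact neg1_ne (by simpa using this.symm)

theorem MT.odd [Finite G] (h : MT z P θ f Rp) {s : G} (s0 : IsConj z s) (s1 : s ≠ z) (sP : s ∈ P) {b : G} (bz : b ∈ Cz z)
    (bs : s * b = b * s) {p : ℕ} (po : Odd p) (bp : b ^ p = 1) {β : Co0} (βp : β ^ p = 1) (e : f β = θ ⟨b, bz⟩)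
    {S : Type*} [Group S] [Finite S] {ρ : Cz β →* S} {ι : Type} {rep : ι → L} (cd : CD β ρ rep) (hS : pCore 2 S = ⊥)
    {w : ℕ} (hι : Nat.card ι = 2 ^ (2 * w)) {Cb : Subgroup G} (hC : ∀ x, x ∈ Cb ↔ x * b = b * x)
    {K : Type*} [Group K] [Finite K] (π : Cb →* K) (πs : Function.Surjective π) (πk : ∀ x, π x = 1 ↔ x.1 ∈ zpowers b) :
    ∃ (x : K) (l : Cz x →* S), Function.Surjective l ∧ IsExtraspecialCentralizerSetting x l.ker w ∧
      {y : Cz x | y ∈ l.ker ∧ IsConj x y}.ncard = 1 + 2 * {i | ∃ v : L, sqNorm v.1 = 64 ∧ Cg v (rep i)}.ncard := by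
  have h0 : ∃ g, g * z * g⁻¹ ∈ P ∧ g * z * g⁻¹ ≠ z := by
    obtain ⟨g, rfl⟩ := isConj_iff.1 s0
    exact ⟨g, sP, s1⟩
  have zt : z ∈ Cb := (hC z).2 (mem_Cz.1 bz).symm
  have bP : ∀ x ∈ zpowers b, x ∈ P → x = 1 := fun x a c => odd_four po bp a (es_four h.toES c)
  let M : Subgroup G := Cz z ⊓ Cb
  let zM : M := ⟨z, mem_Cz.2 rfl, zt⟩
  let x0 : K := π ⟨z, zt⟩
  let μ0 : M →* K := π.comp (inclusion inf_le_right)
  let μ : M →* Cz x0 := μ0.codRestrict _ fun m => mem_Cz.2 (by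
    show π _ * π _ = π _ * π _
    rw [← map_mul, ← map_mul]; congr 1; exact Subtype.ext (mem_Cz.1 m.2.1))
  have μz : μ zM = ⟨x0, mem_Cz.2 rfl⟩ := rfl
  have μk : ∀ m, μ m = 1 ↔ m.1 ∈ zpowers b := fun m => by
    rw [Subtype.ext_iff]; exact πk _
  have πi : ∀ x y : Cb, x.1 ^ 4 = 1 → y.1 ^ 4 = 1 → π x = π y → x = y := fun x y a c d => by
    have m := (πk (x⁻¹ * y)).1 (by rw [map_mul, map_inv, d, inv_mul_cancel])
    have c1 : Commute x.1 (x⁻¹ * y).1 := (zp_comm ((hC _).1 x.2) m).symm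
    have : (x⁻¹ * y).1 ^ 4 = 1 := by
      have := c1.mul_pow 4
      rwa [a, one_mul, show x.1 * (x⁻¹ * y).1 = y.1 by simp, c, eq_comm] at this
    exact inv_mul_eq_one.1 (Subtype.ext (odd_four po bp m this))
  have μi : ∀ m n : M, m.1 ∈ P → n.1 ∈ P → μ m = μ n → m = n := fun m n a c d =>
    Subtype.ext (congrArg (·.1) (πi ⟨m.1, m.2.2⟩ ⟨n.1, n.2.2⟩ (es_four h.toES a) (es_four h.toES c) (congrArg (·.1) d)))
  have z4 := es_four h.toES h.zm
  have μs : Function.Surjective μ := by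
    rintro ⟨k, hk⟩
    obtain ⟨x, rfl⟩ := πs k
    have := πi (x * ⟨z, zt⟩ * x⁻¹) ⟨z, zt⟩ (by simp [z4]) z4 (by
      rw [map_mul, map_mul, map_inv, show π x * π ⟨z, zt⟩ = _ from mem_Cz.1 hk, mul_inv_cancel_right])
    exact ⟨⟨x.1, mem_Cz.2 (mul_inv_eq_iff_eq_mul.1 (congrArg (·.1) this)), x.2⟩, rfl⟩
  let φ : Cz β →* Y := f.comp (Cz β).subtype
  let θM : M →* Y := θ.comp (inclusion inf_le_left)
  have rg : ∀ m, θM m ∈ φ.range := fun m => by
    obtain ⟨k, c⟩ := h.fs (θM m)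
    have : f (β⁻¹ * (k * β * k⁻¹)) = 1 := by
      simp only [map_mul, map_inv, c, e]
      have : θM m * θ ⟨b, bz⟩ = θ ⟨b, bz⟩ * θM m := by
        show θ _ * θ _ = θ _ * θ _
        rw [← map_mul, ← map_mul]; congr 1; exact Subtype.ext ((hC _).1 m.2.2)
      rw [this]; group
    rcases (h.fk _).1 this with d | d
    · exact ⟨⟨k, mem_Cz.2 (mul_inv_eq_iff_eq_mul.1 (inv_mul_eq_one.1 d).symm)⟩, c⟩
    · exact (neg_odd po βp (inv_mul_eq_iff_eq_mul.1 d)).elim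
  let ρ' : φ.range →* S := MonoidHom.liftOfSurjective φ.rangeRestrict φ.rangeRestrict_surjective ⟨ρ, fun k hk =>
    (cd.ρk k).2 ⟨0, by simpa using (h.fk k.1).1 (congrArg (·.1) (MonoidHom.mem_ker.1 hk))⟩⟩
  let ν : M →* S := ρ'.comp (θM.codRestrict _ rg)
  have νe : ∀ m k, φ k = θM m → ν m = ρ k := fun m k c => by
    have : θM.codRestrict _ rg m = φ.rangeRestrict k := Subtype.ext c.symm
    show ρ' _ = _
    rw [this]
    exact MonoidHom.liftOfRightInverse_comp_apply _ _ _ _ k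
  have bM : ∀ i : ℤ, b ^ i ∈ M := fun i => zpow_mem (⟨bz, (hC b).2 rfl⟩ : b ∈ M) i
  have θb : ∀ i : ℤ, θM ⟨b ^ i, bM i⟩ = f (β ^ i) := fun i => by
    rw [map_zpow, e, ← map_zpow]; rfl
  have fn : f neg1 = 1 := (h.fk _).2 (Or.inr rfl)
  have νk : ∀ m, ν m = 1 ↔ ∃ i : ℤ, m.1 * (b ^ i)⁻¹ ∈ P := fun m => by
    obtain ⟨k, c⟩ := rg m
    rw [νe m k c, cd.ρk]
    refine exists_congr fun i => ?_
    rw [show m.1 * (b ^ i)⁻¹ ∈ P ↔ θM (m * ⟨b ^ i, bM i⟩⁻¹) = 1 from (h.θk ⟨_, (m * ⟨b ^ i, bM i⟩⁻¹).2.1⟩).symm,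
      map_mul, map_inv, θb, ← c, show φ k = f k.1 from rfl, ← map_inv, ← map_mul, h.fk, mul_inv_eq_one, mul_inv_eq_iff_eq_mul,
      mem_center_iff.1 neg1_central]
  have νs : Function.Surjective ν := fun y => by
    obtain ⟨k, rfl⟩ := cd.ρs y
    obtain ⟨c, d⟩ := h.lift k.1
    obtain ⟨m, -, m1, m2⟩ := h.liftC bz po bp (mem_top b) (mem_top c.1) (by
      rw [← d, ← e, ← map_mul, ← map_mul, mem_Cz.1 k.2])
    exact ⟨⟨m.1, m.2, (hC _).2 m1⟩, νe _ _ (d.trans m2.symm)⟩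
  let l : Cz x0 →* S := MonoidHom.liftOfSurjective μ μs ⟨ν, fun m hm => (νk m).2 (by
    obtain ⟨i, c⟩ := (μk m).1 hm
    exact ⟨i, by rw [← c]; simp⟩)⟩
  have le : ∀ m, l (μ m) = ν m := fun m => MonoidHom.liftOfRightInverse_comp_apply _ _ _ _ m
  have ls : Function.Surjective l := fun k => by
    obtain ⟨m, rfl⟩ := νs k
    exact ⟨_, le m⟩
  have lk : ∀ m : M, m.1 ∈ P → μ m ∈ l.ker := fun m a => by
    rw [MonoidHom.mem_ker, le, νk]; exact ⟨0, by simpa using a⟩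
  have lk' : ∀ q ∈ l.ker, ∃ m : M, m.1 ∈ P ∧ μ m = q := fun q a => by
    obtain ⟨m, rfl⟩ := μs q
    rw [MonoidHom.mem_ker, le, νk] at a
    obtain ⟨i, a⟩ := a
    exact ⟨m * ⟨b ^ i, bM i⟩⁻¹, a, by rw [map_mul, map_inv, (μk ⟨b ^ i, bM i⟩).2 ⟨i, rfl⟩]; simp⟩
  have PM : ∀ {x}, x ∈ P → x * b = b * x → x ∈ M := fun a c => ⟨mem_Cz.2 (h.cz _ a), (hC _).2 c⟩
  have nc : ∀ T : Set G, (∀ x ∈ T, x ∈ P ∧ x * b = b * x) → ∀ U : Set (Cz x0), U ⊆ l.ker →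
      (∀ m : M, m.1 ∈ P → (μ m ∈ U ↔ m.1 ∈ T)) → U.ncard = T.ncard := fun T a U c d =>
    (Set.ncard_congr (fun x hx => μ ⟨x, PM (a x hx).1 (a x hx).2⟩) (fun x hx => (d _ (a x hx).1).2 hx)
      (fun x y hx hy e => congrArg (·.1) (μi _ _ (a x hx).1 (a y hy).1 e)) fun q hq => by
        obtain ⟨m, m1, rfl⟩ := lk' q (c hq)
        exact ⟨m.1, (d m m1).1 hq, rfl⟩).symm
  have rP : ∀ {x i}, Rp (rep i) x → x ∈ P ∧ x * b = b * x := fun r =>
    ⟨h.rm r, (h.fixP bz po bp e r).2 (cd.rf _)⟩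
  have rP' : ∀ m : M, m.1 ∈ P → ∃ i, Rp (rep i) m.1 := fun m a => by
    obtain ⟨v, r⟩ := h.rs _ a
    obtain ⟨i, c⟩ := cd.rs v ((h.fixP bz po bp e r).1 ((hC _).1 m.2.2))
    exact ⟨i, (h.r_cg r).2 c.symm⟩
  have card : Nat.card l.ker = 2 ^ (2 * w + 1) := by
    have := nc {x | ∃ i ∈ Set.univ, Rp (rep i) x} (fun x ⟨i, _, r⟩ => rP r) l.ker subset_rfl fun m a =>
      ⟨fun _ => (rP' m a).imp fun i r => ⟨Set.mem_univ i, r⟩, fun _ => lk m a⟩
    rw [h.cnt cd.ri, Set.ncard_univ, hι] at this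
    rw [pow_succ', ← this]; rfl
  have z1 : μ zM ≠ 1 := fun e => h.z1 (bP _ ((μk _).1 e) h.zm)
  have zz : μ zM * μ zM = 1 := by rw [← map_mul, show zM * zM = 1 from Subtype.ext h.zz, map_one]
  have cen : ∀ q ∈ l.ker, q ∈ centralizer (l.ker : Set (Cz x0)) → q = 1 ∨ q = μ zM := fun q hq c => by
    obtain ⟨m, a, rfl⟩ := lk' q hq
    by_contra n
    push Not at n
    obtain ⟨u, u1, u2, u3⟩ := es_fix h.toES po bp (mem_Cz.1 bz) a ((hC _).1 m.2.2)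
      (fun e => n.1 (by rw [show m = 1 from Subtype.ext e, map_one])) fun e => n.2 (congrArg μ (Subtype.ext e))
    have := μi (⟨u, PM u1 u2⟩ * m) (m * ⟨u, PM u1 u2⟩) (P.mul_mem u1 a) (P.mul_mem a u1) (by
      rw [map_mul, map_mul]; exact c _ (lk _ u1))
    rw [show u * m.1 = m.1 * u from congrArg (·.1) this, mul_inv_cancel_right] at u3
    exact h.toES.ne_mul _ u3
  have conj : ∀ m : M, m.1 ∈ P → IsConj z m.1 → m.1 ≠ z → IsConj x0 (μ m).1 := fun m a c d => by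
    obtain ⟨g, c⟩ := isConj_iff.1 c
    have pr := h.pr (c ▸ a) (c ▸ d)
    rw [c] at pr
    have mb := (hC _).1 m.2.2
    obtain ⟨u, -, u2, u3⟩ := es_fix pr.es po bp mb.symm pr.zR (mem_Cz.1 bz).symm h.z1 d.symm
    obtain ⟨v, -, v2, v3⟩ := es_fix h.toES po bp (mem_Cz.1 bz) a mb pr.es.z1 d
    refine isConj_iff.2 ⟨π (⟨v, (hC _).2 v2⟩⁻¹ * ⟨u, (hC _).2 u2⟩), ?_⟩
    rw [← map_inv, ← map_mul, ← map_mul]
    refine congrArg π (Subtype.ext ?_)
    show v⁻¹ * u * z * (v⁻¹ * u)⁻¹ = m.1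
    rw [show v⁻¹ * u * z * (v⁻¹ * u)⁻¹ = v⁻¹ * (u * z * u⁻¹) * v by group, u3, ← h.cz _ a, ← v3]; group
  let sM : M := ⟨s, PM sP bs⟩
  have sz : μ sM ≠ μ zM := fun e => s1 (congrArg (·.1) (μi _ _ sP h.zm e))
  have sc := conj sM sP s0 s1
  have es : H29.ES l.ker (μ zM) := by
    refine ⟨⟨z1, zz, lk _ h.zm, fun q hq => ?_, fun q hq c _ => cen q hq c⟩, cen, fun c => ?_⟩
    · obtain ⟨m, a, rfl⟩ := lk' q hq
      rw [← map_mul]
      rcases h.sq _ a with e | e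
      · exact Or.inl (by rw [show m * m = 1 from Subtype.ext e, map_one])
      · exact Or.inr (congrArg μ (Subtype.ext e))
    · refine (cen _ (lk sM sP) (c (lk sM sP))).elim (fun e => ?_) sz
      rw [e] at sc
      exact z1 (Subtype.ext (isConj_one_left.1 sc))
  have hc : centralizer (l.ker : Set (Cz x0)) ≤ l.ker := fun q hq => by
    obtain ⟨m, rfl⟩ := μs q
    obtain ⟨k, c⟩ := rg m
    rw [MonoidHom.mem_ker, le, νe m k c]
    refine cd.fix k fun i => ?_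
    obtain ⟨x, r⟩ := h.re (rep i)
    have xM := PM (rP r).1 (rP r).2
    have r' := h.rg (h := ⟨m.1, m.2.1⟩) c r
    have := μi (m * ⟨x, xM⟩ * m⁻¹) ⟨x, xM⟩ (h.rm r') (h.rm r) (by
      rw [map_mul, map_mul, map_inv, ← mem_centralizer_iff.1 hq (μ ⟨x, xM⟩) (lk _ (h.rm r)), mul_inv_cancel_right])
    rw [show m.1 * x * m.1⁻¹ = x from congrArg (·.1) this] at r'
    exact (h.r_cg r).1 r'
  refine ⟨x0, l, ls, setting_of l ls hS es hc card ?_, ?_⟩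
  · obtain ⟨g, c⟩ := isConj_iff.1 sc
    refine ⟨g, ?_, fun d => sz (Subtype.ext (c.symm.trans d))⟩
    rw [c]
    exact ⟨(μ sM).2, lk sM sP⟩
  · haveI : Finite ι := Nat.finite_of_card_ne_zero (by rw [hι]; positivity)
    rw [← h.cnt cd.ri, add_comm, ← Set.ncard_insert_of_notMem (a := z) (by
      rintro ⟨i, ⟨v, hv, c⟩, r⟩
      exact (h.ne ((h.r_cg r).2 c) (by simp [hv])).2 rfl)]
    refine nc _ ?_ _ (fun y hy => hy.1) fun m a => ⟨fun ⟨_, c⟩ => ?_, fun c => ⟨lk m a, ?_⟩⟩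
    · rintro x (rfl | ⟨i, -, r⟩)
      exacts [⟨h.zm, (mem_Cz.1 bz).symm⟩, rP r]
    · obtain ⟨g, c⟩ := isConj_iff.1 c
      obtain ⟨u, rfl⟩ := πs g
      have := πi (u * ⟨z, zt⟩ * u⁻¹) ⟨m.1, m.2.2⟩ (by simp [z4]) (es_four h.toES a) (by
        rw [map_mul, map_mul, map_inv]; exact c)
      by_cases d : m.1 = z
      · exact Or.inl d
      · obtain ⟨v, hv, r⟩ := (h.four_iff h0).1 ⟨isConj_iff.2 ⟨u.1, congrArg (·.1) this⟩, d, a⟩
        obtain ⟨i, r'⟩ := rP' m a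
        exact Or.inr ⟨i, ⟨v, hv, (h.r_cg r').1 r⟩, r'⟩
    · rcases c with c | ⟨i, ⟨v, hv, c⟩, r⟩
      · rw [show m = zM from Subtype.ext c]; exact IsConj.refl _
      · have := (h.four_iff h0).2 ⟨v, hv, (h.r_cg r).2 c⟩
        exact conj m a this.1 this.2.1

end Cfsg.Agent.L1Mon
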