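import Mathlib
import Cfsg.Agent.L1.Odd
import Cfsg.Agent.L1.Fix
set_option autoImplicit false
set_option linter.all false
set_option maxRecDepth 100000
set_option exponentiation.threshold 2000
namespace Cfsg.Agent.L1Mon
open Cfsg.Agent.H25.Leech Cfsg.Spor Subgroup Finset
open Cfsg.Agent.H25 (dg gd gd_mem)
open Cfsg.Agent.H14 (GCode gC sumLt sumLt_eq allLt allLt_iff band band_iff force force_eq tb tb_eq lin lin_succ A24)
open scoped Pointwise
attribute [-simp] Fintype.sum_option Fintype.prod_option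

theorem Cg.add {x y u v : L} (h : Cg x y) (h' : Cg u v) : Cg (x + u) (y + v) := by
  obtain ⟨w, rfl⟩ := h; obtain ⟨w', rfl⟩ := h'; exact ⟨w + w', by abel⟩

theorem cg_of_dbl {x y : L} (h : ∃ w, x + y = w + w) : Cg x y := by
  obtain ⟨w, e⟩ := h
  exact ⟨w - y, by rw [eq_sub_of_add_eq e]; abel⟩

/-- `s` is the packed sum of at most `N` codes, with total `v` -/
def PS (s N : ℕ) (v : L) : Prop :=
  ∃ n ≤ N, ∃ f : ℕ → ℕ, s = pk f ∧ (∀ i < 24, f i ≤ 16 * n) ∧ ∀ p, v.1 p = f (gC.idx p) - 8 * n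

theorem PS.zero (N : ℕ) : PS 0 N 0 := ⟨0, by omega, fun _ => 0, by simp [pk], by simp, by simp⟩

theorem PS.vc {c : ℕ} (h : VC c) : PS c 1 (pt c) :=
  ⟨1, le_rfl, dg 25 c, h.1.eq, by simpa using h.1.2, fun p => by rw [h.val]; simp [dv]⟩

theorem PS.add {s t N M : ℕ} {v w : L} (h : PS s N v) (h' : PS t M w) : PS (s + t) (N + M) (v + w) := by
  obtain ⟨n, a, f, e, b, c⟩ := h
  obtain ⟨m, a', g, e', b', c'⟩ := h'
  refine ⟨n + m, Nat.add_le_add a a', fun i => f i + g i, by
    rw [e, e', pk, pk, pk, ← sum_add_distrib]; exact sum_congr rfl fun i _ => (add_mul _ _ _).symm, fun i hi => ?_, fun p => ?_⟩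
  · rw [mul_add]; exact Nat.add_le_add (b i hi) (b' i hi)
  · rw [AddSubgroup.coe_add, Pi.add_apply, c, c']; push_cast; ring

noncomputable def dbl (s : ℕ) : Bool :=
  force s fun s => band (allLt 24 fun i => Nat.beq (Nat.mod (dgf s i) 2) 0)
    (force (sumLt 24 fun i => Nat.shiftLeft (Nat.div (dgf s i) 2) (Nat.mul 25 i)) memb)

theorem PS.dbl {s N : ℕ} {v : L} (h : PS s N v) (hN : N ≤ 1000) (H : dbl s = true) : ∃ w, v = w + w := by
  obtain ⟨n, a, f, hs, b, c⟩ := h
  have hf : ∀ i < 24, dgf s i = f i := fun i hi => by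
    rw [dgf_eq, hs, dg_pk (fun j hj => by have := b j hj; omega) hi]
  rw [L1Mon.dbl, force_eq, band_iff, allLt_iff, force_eq] at H
  have e : (sumLt 24 fun i => Nat.shiftLeft (Nat.div (dgf s i) 2) (Nat.mul 25 i)) = pk fun i => f i / 2 := by
    rw [sumLt_eq, pk]
    exact sum_congr rfl fun i hi => by rw [hf i (mem_range.1 hi)]; exact Nat.shiftLeft_eq _ _
  rw [e] at H
  have m := memb_sound H.2
  have o : (4 : ℤ) • (fun _ => 2 - n : V) ∈ L := four_mem (by rw [sum_const, card_univ, card24]; exact ⟨12 * (2 - n), by simp; ring⟩)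
  have d : ∀ p, dv (pk fun i => f i / 2) p = (f (gC.idx p) / 2 : ℕ) - 8 := fun p => by
    rw [dv, dg_pk (fun j hj => by have := b j hj; omega) (idx_lt p)]
  generalize dv _ = y at m d
  refine ⟨⟨_, m⟩ + ⟨_, o⟩, Subtype.ext (funext fun p => ?_)⟩
  have := Nat.eq_of_beq_eq_true (H.1 _ (idx_lt p))
  rw [hf _ (idx_lt p)] at this
  have this : f (gC.idx p) % 2 = 0 := this
  show v.1 p = y p + 4 * (2 - n) + (y p + 4 * (2 - n))
  rw [c, d]
  omega

/-- the sum of the basis vectors selected by the bits of `a` -/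
noncomputable def comb (B : List ℕ) (r a : ℕ) : L := ∑ i ∈ range r, if a.testBit i then pt (gd 0 B i) else 0

noncomputable def cc (B : List ℕ) (r a : ℕ) : ℕ := sumLt r fun i => Bool.rec 0 (gd 0 B i) (tb a i)

variable {B : List ℕ} {r : ℕ}

theorem ps_cc (hB : ∀ i < r, VC (gd 0 B i)) (a : ℕ) : PS (cc B r a) r (comb B r a) := by
  induction r with
  | zero => exact PS.zero 0
  | succ r ih =>
    rw [comb, sum_range_succ, cc, H14.sumLt_succ, tb_eq]
    refine (ih fun i hi => hB i (by omega)).add ?_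
    cases a.testBit r
    exacts [PS.zero 1, PS.vc (hB r (by omega))]

theorem comb_xor (a b : ℕ) : Cg (comb B r (a ^^^ b)) (comb B r a + comb B r b) := by
  induction r with
  | zero => simpa [comb] using Cg.refl 0
  | succ r ih =>
    simp only [comb, sum_range_succ] at ih ⊢
    rw [add_add_add_comm]
    refine ih.add ?_
    rw [Nat.testBit_xor]
    cases a.testBit r <;> cases b.testBit r
    exacts [by simpa using Cg.refl _, by simpa using Cg.refl _, by simpa using Cg.refl _, (Cg.symm ⟨_, (zero_add _).symm⟩)]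

theorem comb_zero : comb B r 0 = 0 := by simp [comb]

theorem act_lin {k : Co0} {cols : ℕ → ℕ} {n : ℕ} (h : ∀ i < n, Cg (k • pt (gd 0 B i)) (comb B r (cols i))) (a : ℕ) :
    Cg (k • comb B n a) (comb B r (lin cols n a)) := by
  induction n with
  | zero => rw [H14.lin_zero, comb_zero, comb, sum_range_zero, g_zero]; exact Cg.refl _
  | succ n ih =>
    rw [lin_succ, comb, sum_range_succ, g_add]
    refine ((ih fun i hi => h i (by omega)).add ?_).trans (comb_xor _ _).symm
    split_ifs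
    · exact h n (by omega)
    · rw [g_zero, comb_zero]; exact Cg.refl _

noncomputable def cgc (B : List ℕ) (r c a : ℕ) : Bool := dbl (Nat.add c (cc B r a))

theorem cgc_sound (hB : ∀ i < r, VC (gd 0 B i)) (hr : r ≤ 100) {c a : ℕ} (hc : VC c) (H : cgc B r c a = true) :
    Cg (pt c) (comb B r a) := cg_of_dbl (((PS.vc hc).add (ps_cc hB a)).dbl (by omega) H)

theorem gen_ind {K : AddSubgroup L} (h : ∀ k < 37, VC (gd 0 genL k) → pt (gd 0 genL k) ∈ K) (v : L) : v ∈ K := by
  have hg : ∀ k < 37, dv (gd 0 genL k) ∈ K.map L.subtype := fun k hk => by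
    have a : allLt 37 (fun k => vcb 32 (gd 0 genL k)) = true := by decide +kernel
    have := (vcb_sound (allLt_iff.1 a k hk)).1
    exact ⟨_, h k hk this, this.val⟩
  obtain ⟨w, a, e⟩ : v.1 ∈ K.map L.subtype := by
    refine L_le ?_ (fun i hi => ?_) (fun i => ?_) ?_ v.2
    · exact (show dv (gd 0 genL 0) = odd0 by decide +kernel) ▸ hg 0 (by norm_num)
    · exact (show ∀ i < 12, dv (gd 0 genL (i + 1)) = (2 : ℤ) • ic (gC.set (H14.bw i)) by
        decide +kernel) i hi ▸ hg _ (by omega)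
    · exact (show ∀ i : ZMod 23, dv (gd 0 genL (i.val + 13)) = (4 : ℤ) • (e1 none + e1 (some i)) by
        decide +kernel) i ▸ hg _ (by have := i.val_lt; omega)
    · exact (show dv (gd 0 genL 36) = (4 : ℤ) • (e1 none - e1 (some 0)) by decide +kernel) ▸ hg 36 (by norm_num)
  rwa [← show w = v from Subtype.ext e]

noncomputable def Nm (β : Co0) (p : ℕ) (v : L) : L := ∑ i ∈ range p, β ^ i • v

theorem Nm_cg {β : Co0} {v : L} (h : Cg (β • v) v) {p : ℕ} (po : Odd p) : Cg (Nm β p v) v := by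
  have a : ∀ i : ℕ, Cg (β ^ i • v) v := fun i => by
    induction i with
    | zero => simpa using Cg.refl v
    | succ i ih => rw [pow_succ', mul_smul]; exact (ih.smul β).trans h
  obtain ⟨k, rfl⟩ := po
  induction k with
  | zero => simpa [Nm] using Cg.refl v
  | succ k ih =>
    rw [show 2 * (k + 1) + 1 = 2 * k + 1 + 1 + 1 by ring, Nm, sum_range_succ, sum_range_succ]
    exact ((ih.add (a _)).add (a _)).trans ⟨v, add_assoc _ _ _⟩

noncomputable def nrm (t : TR) (p : ℕ) : ℕ → ℕ :=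
  Nat.rec (motive := fun _ => ℕ → ℕ) (fun _ => 0) (fun _ ih c => Nat.add (force (t.act c) ih) c) p

theorem ps_nrm {M : ℕ} (hM : ok M = true) (p : ℕ) : ∀ {c}, VC c → PS (nrm (prep M) p c) p (Nm (el M) p (pt c)) := by
  induction p with
  | zero => exact fun _ => PS.zero 0
  | succ p ih =>
    intro c hc
    obtain ⟨a, b⟩ := el_smul hM hc
    have := (ih a).add (PS.vc hc)
    rw [← b, ← force_eq _ (nrm (prep M) p)] at this
    simp only [Nm, sum_range_succ', pow_succ, mul_smul, pow_zero, one_smul] at this ⊢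
    exact this

/-- coordinates for the classes fixed by `β` -/
structure BD (β : Co0) (B : List ℕ) (r : ℕ) (nt : ℕ → ℕ) : Prop where
  vc : ∀ i < r, VC (gd 0 B i)
  rf : ∀ a, β • comb B r a = comb B r a
  tab : ∀ a < 2 ^ r, nt a ≤ 64 ∧ (a = 0 ∨ nt a ≠ 0) ∧ ∃ v : L, sqNorm v.1 = nt a ∧ Cg v (comb B r a)
  tot : ∀ v, Cg (β • v) v → ∃ a < 2 ^ r, Cg v (comb B r a)

noncomputable def bdChk (M p : ℕ) (B : List ℕ) (r : ℕ) (nt : ℕ → ℕ) (Tab GT : ℕ) : Bool :=
  forceT (prep M) fun t => band (allLt r fun i => band (vcb 32 (gd 0 B i) || vcb 48 (gd 0 B i))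
      (Nat.beq (t.act (gd 0 B i)) (gd 0 B i)))
    (band (allLt (2 ^ r) fun a => force (rowc Tab a) fun c => band (Nat.beq a 0 || !Nat.beq (nt a) 0)
      (band (vcb (nt a) c) (cgc B r c a)))
    (allLt 37 fun j => dbl (Nat.add (nrm t p (gd 0 genL j)) (cc B r (H14.get r GT j)))))

theorem bd_of {M p : ℕ} {nt : ℕ → ℕ} {Tab GT : ℕ} (hM : ok M = true) (po : Odd p) (hp : p ≤ 100) (hr : r ≤ 100)
    (H : bdChk M p B r nt Tab GT = true) : BD (el M) B r nt := by
  simp only [bdChk, forceT_eq, force_eq, band_iff, allLt_iff, H14.nbeq_iff, Bool.or_eq_true, Bool.not_eq_true'] at H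
  obtain ⟨h1, h2, h3⟩ := H
  have vc : ∀ i < r, VC (gd 0 B i) := fun i hi => (h1 i hi).1.elim (fun e => (vcb_sound e).1) fun e => (vcb_sound e).1
  refine ⟨vc, fun a => ?_, fun a ha => ?_, fun v hv => ?_⟩
  · rw [comb, show ∀ x : L, el M • x = hom (el M) x from fun _ => rfl, map_sum]
    refine sum_congr rfl fun i hi => ?_
    split_ifs
    · exact (el_smul hM (vc i (mem_range.1 hi))).2.trans (congrArg pt (h1 i (mem_range.1 hi)).2)
    · exact map_zero _
  · obtain ⟨a1, a2, a3⟩ := h2 a ha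
    obtain ⟨b1, b2⟩ := vcb_sound a2
    refine ⟨?_, a1.imp id fun e c => by simp [c] at e, _, b2, cgc_sound vc hr b1 a3⟩
    have := b1.2.2
    rw [← b1.val, b2] at this
    omega
  · let K : AddSubgroup L :=
      { carrier := {v | ∃ a < 2 ^ r, Cg (Nm (el M) p v) (comb B r a)}
        zero_mem' := ⟨0, by positivity, by simpa [Nm, g_zero, comb_zero] using Cg.refl 0⟩
        add_mem' := fun {x y} ⟨a, a1, a2⟩ ⟨b, b1, b2⟩ => ⟨_, Nat.xor_lt_two_pow a1 b1, by
          simpa only [Nm, g_add, sum_add_distrib] using (a2.add b2).trans (comb_xor a b).symm⟩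
        neg_mem' := fun {x} ⟨a, a1, a2⟩ => ⟨a, a1, by
          simpa only [Nm, g_neg, sum_neg_distrib] using (Cg.neg _).trans a2⟩ }
    obtain ⟨a, a1, a2⟩ := gen_ind (K := K) (fun k hk c => ⟨_, H14.get_lt r GT k,
      cg_of_dbl (((ps_nrm hM p c).add (ps_cc vc _)).dbl (by omega) (h3 k hk))⟩) v
    exact ⟨a, a1, (Nm_cg hv po).symm.trans a2⟩

variable {β : Co0} {nt : ℕ → ℕ}

theorem BD.inj (h : BD β B r nt) {a b : ℕ} (ha : a < 2 ^ r) (hb : b < 2 ^ r) (c : Cg (comb B r a) (comb B r b)) : a = b := by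
  obtain ⟨a1, a2, v, a3, a4⟩ := h.tab _ (Nat.xor_lt_two_pow ha hb)
  have : Cg v 0 := (a4.trans (comb_xor a b)).trans ((c.add (Cg.refl _)).trans ⟨_, (zero_add _).symm⟩)
  have z : sqNorm (0 : L).1 = 0 := by simp [sqNorm]
  refine Nat.eq_of_xor_eq_zero (a2.resolve_right fun n => ?_)
  rcases cg_short (by omega) (by omega) this with e | e | e
  · subst e; omega
  · rw [neg_zero] at e; subst e; omega
  · omega

theorem BD.four (h : BD β B r nt) {a : ℕ} (ha : a < 2 ^ r) :
    (∃ v : L, sqNorm v.1 = 64 ∧ Cg v (comb B r a)) ↔ nt a = 64 := by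
  obtain ⟨a1, -, w, a3, a4⟩ := h.tab _ ha
  refine ⟨fun ⟨v, b1, b2⟩ => ?_, fun e => ⟨w, by rw [a3, e]; rfl, a4⟩⟩
  rcases cg_short (by omega) (by omega) (b2.trans a4.symm) with e | e | e
  · subst e; omega
  · subst e; rw [AddSubgroup.coe_neg, sq_neg] at b1; omega
  · omega

theorem BD.act (h : BD β B r nt) (k : Cz β) (a : ℕ) : ∃ b < 2 ^ r, Cg (k.1 • comb B r a) (comb B r b) :=
  h.tot _ (by rw [← mul_smul, ← mem_Cz.1 k.2, mul_smul, h.rf]; exact Cg.refl _)

section Link
variable {S T : Type*} [Group S] [MulAction S T]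

/-- `k` permutes the objects as `s` permutes their names -/
def Lk (B : List ℕ) (r : ℕ) (obj : T → ℕ) (k : Co0) (s : S) : Prop :=
  ∀ t, ∀ a < 2 ^ r, ∀ b < 2 ^ r, Cg (k • comb B r a) (comb B r b) → (obj t).testBit a = (obj (s • t)).testBit b

def BD.gam (h : BD β B r nt) (obj : T → ℕ) : Subgroup (Cz β × S) where
  carrier := {q | Lk B r obj q.1.1 q.2}
  one_mem' := fun t a ha b hb c => by
    obtain rfl := h.inj ha hb (by simpa using c)
    simp
  mul_mem' := fun {x y} hx hy t a ha b hb c => by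
    obtain ⟨d, hd, e⟩ := h.act y.1 a
    rw [hy t a ha d hd e, Prod.snd_mul, mul_smul]
    exact hx _ d hd b hb (((e.smul _).symm).trans (by rwa [← mul_smul]))
  inv_mem' := fun {x} hx t a ha b hb c => by
    have := hx (x.2⁻¹ • t) b hb a ha (by simpa using (c.smul x.1.1).symm)
    rw [smul_inv_smul] at this
    exact this.symm

theorem BD.rho (h : BD β B r nt) [Finite S] {p : ℕ} (po : Odd p) (βp : orderOf β = p) (obj : T → ℕ)
    (ho : ∀ s : S, (∀ t, ∀ a < 2 ^ r, (obj t).testBit a = (obj (s • t)).testBit a) → s = 1) (W : Subgroup S)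
    (hW : W ≤ (h.gam obj).map (MonoidHom.snd _ _)) (hc : Nat.card (Cz β) ≤ 2 * p * Nat.card W) :
    ∃ ρ : Cz β →* W, CD β ρ fun i : Fin (2 ^ r) => comb B r i := by
  let Γ : Subgroup (Cz β × W) := (h.gam obj).comap ((MonoidHom.id _).prodMap W.subtype)
  let a : Γ →* Cz β := (MonoidHom.fst _ _).comp Γ.subtype
  let b : Γ →* W := (MonoidHom.snd _ _).comp Γ.subtype
  have triv : ∀ k : Cz β, (∀ a, Cg (k.1 • comb B r a) (comb B r a)) → (k, 1) ∈ Γ := fun k hk t a ha b hb c => by
    obtain rfl := h.inj ha hb ((hk a).symm.trans c)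
    simp
  have ai : Function.Injective a := (injective_iff_map_eq_one a).2 fun ⟨⟨k, s⟩, q⟩ e => by
    obtain rfl : k = 1 := e
    have := ho s.1 fun t a ha => q t a ha a ha (by simpa using Cg.refl _)
    exact Subtype.ext (Prod.ext rfl (Subtype.ext this))
  have bs : Function.Surjective b := fun s => by
    obtain ⟨⟨k, s'⟩, q, e⟩ := hW s.2
    obtain rfl : s' = s := e
    exact ⟨⟨(k, s), q⟩, rfl⟩
  have cm : Commute β neg1 := mem_center_iff.1 neg1_central β
  let g : Cz β := ⟨β * neg1, mem_Cz.2 ((Commute.refl β).mul_left cm.symm)⟩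
  have gΓ : (g, 1) ∈ Γ := triv g fun a => by
    show Cg ((β * neg1) • _) _
    rw [mul_smul, neg1_smul, g_neg, h.rf]; exact Cg.neg _
  have n2 : orderOf neg1 = 2 := orderOf_eq_prime (by rw [pow_two, neg1_sq]) neg1_ne
  have og : Nat.card (zpowers g) = 2 * p := by
    rw [Nat.card_zpowers, ← Subgroup.orderOf_coe, cm.orderOf_mul_eq_mul_orderOf_of_coprime
      (by rw [βp, n2]; exact po.coprime_two_right), βp, n2, mul_comm]
  have c1 : Nat.card b.ker * Nat.card W = Nat.card Γ := by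
    rw [← Subgroup.card_mul_index b.ker, Subgroup.index_ker, MonoidHom.range_eq_top.2 bs, Subgroup.card_top]
  have le : zpowers g ≤ b.ker.map a := zpowers_le.2 ⟨⟨_, gΓ⟩, rfl, rfl⟩
  have c2 := card_le_of_le le
  rw [og, card_map_of_injective ai] at c2
  have c3 := Nat.card_le_card_of_injective a ai
  have c4 := Nat.mul_le_mul_right (Nat.card W) c2
  have ab : Function.Bijective a := ai.bijective_of_nat_card_le (by omega)
  have eq : zpowers g = b.ker.map a := eq_of_le_of_card_ge le (by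
    rw [og, card_map_of_injective ai]
    exact Nat.le_of_mul_le_mul_right (by omega) (Nat.card_pos (α := W)))
  let e := MulEquiv.ofBijective a ab
  have key : ∀ k s (q : (k, s) ∈ Γ), b (e.symm k) = s := fun k s q => by
    rw [show e.symm k = ⟨_, q⟩ from e.symm_apply_eq.2 rfl]; rfl
  have hβ : β ^ p = 1 := βp ▸ pow_orderOf_eq_one β
  refine ⟨b.comp e.symm.toMonoidHom, bs.comp e.symm.surjective, fun k => ⟨fun c => ?_, fun ⟨i, c⟩ => key k 1 (triv k fun a => ?_)⟩,
    fun k hk => key k 1 fun t a ha b hb c => ?_, fun i => by rw [h.rf]; exact Cg.refl _,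
    fun i j c => Fin.ext (h.inj i.2 j.2 c), fun v hv => ?_⟩
  · obtain ⟨i, c⟩ : k ∈ zpowers g := eq ▸ ⟨_, c, e.apply_symm_apply k⟩
    refine ⟨i, ?_⟩
    rw [← c]
    show (β * neg1) ^ i = _ ∨ (β * neg1) ^ i = _
    rw [cm.mul_zpow]
    rcases mem_center.1 (zpow_mem neg1_central i) with d | d <;> simp [d]
  · have : β ^ i • comb B r a = comb B r a := zpow_mem (show β ∈ MulAction.stabilizer Co0 _ from h.rf a) i
    rcases c with c | c <;> rw [c]
    · rw [this]; exact Cg.refl _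
    · rw [mul_smul, neg1_smul, g_neg, this]; exact Cg.neg _
  · obtain rfl := h.inj ha hb ((hk ⟨a, ha⟩).symm.trans c)
    simp
  · obtain ⟨a, a1, a2⟩ := h.tot v hv
    exact ⟨⟨a, a1⟩, a2⟩

end Link

end Cfsg.Agent.L1Mon
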