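import Mathlib
import Cfsg.Agent.L1.OddC
set_option autoImplicit false
set_option linter.all false
set_option maxRecDepth 100000
set_option exponentiation.threshold 2000
namespace Cfsg.Agent.L1Mon
open Cfsg.Agent.H25.Leech Cfsg.Spor Subgroup Finset
open Cfsg.Agent.H25 (dg gd gd_mem)
open Cfsg.Agent.H14 (GCode gC sumLt sumLt_eq allLt allLt_iff band band_iff force force_eq tb tb_eq lin lin_succ A24)
open scoped Pointwise
attribute [-simp] Fintype.sum_option Fintype.prod_option

variable {B : List ℕ} {r : ℕ} {β : Co0} {nt : ℕ → ℕ}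

section Link
variable {S T : Type*} [Group S] [MulAction S T]

/-- `M` commutes with `Mb` and acts on the basis with the given columns -/
noncomputable def lkChk (Mb M : ℕ) (B : List ℕ) (r cols : ℕ) : Bool :=
  forceT (prep Mb) fun tb => forceT (prep M) fun t =>
    band (allLt 24 fun i => Nat.beq (force (tb.act (c8 i)) t.act) (force (t.act (c8 i)) tb.act))
      (allLt r fun i => cgc B r (t.act (gd 0 B i)) (H14.get r cols i))

theorem BD.cols (h : BD β B r nt) (hr : r ≤ 100) {M cols : ℕ} (hM : ok M = true)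
    (H : ∀ i < r, cgc B r ((prep M).act (gd 0 B i)) (H14.get r cols i) = true) (a : ℕ) :
    Cg (el M • comb B r a) (comb B r (lin (H14.get r cols) r a)) :=
  act_lin (fun i hi => by
    obtain ⟨a, b⟩ := el_smul hM (h.vc i hi)
    exact b ▸ cgc_sound h.vc hr a (H i hi)) a

theorem comm_of {Mb M : ℕ} (hb : ok Mb = true) (hM : ok M = true)
    (H : ∀ i < 24, (prep M).act ((prep Mb).act (c8 i)) = (prep Mb).act ((prep M).act (c8 i))) :
    el M * el Mb = el Mb * el M := co_ext8 fun i => by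
  obtain ⟨a, b⟩ := c8_spec i
  rw [mul_smul, mul_smul, ← b, (el_smul hb a).2, (el_smul hM a).2, (el_smul hb (el_smul hM a).1).2,
    (el_smul hM (el_smul hb a).1).2, H _ (idx_lt i)]

theorem lkChk_spec {Mb M cols : ℕ} (H : lkChk Mb M B r cols = true) :
    (∀ i < 24, (prep M).act ((prep Mb).act (c8 i)) = (prep Mb).act ((prep M).act (c8 i))) ∧
      ∀ i < r, cgc B r ((prep M).act (gd 0 B i)) (H14.get r cols i) = true := by
  rw [lkChk, forceT_eq, forceT_eq, band_iff, allLt_iff, allLt_iff] at H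
  refine ⟨fun i hi => ?_, H.2⟩
  have := H.1 i hi
  rw [force_eq, force_eq] at this
  exact Nat.eq_of_beq_eq_true this

theorem BD.mem {Mb M cols : ℕ} (h : BD (el Mb) B r nt) (hr : r ≤ 100) (hb : ok Mb = true) (hM : ok M = true)
    (H : lkChk Mb M B r cols = true) (obj : T → ℕ) (s : S)
    (hs : ∀ t, ∀ a < 2 ^ r, (obj t).testBit a = (obj (s • t)).testBit (lin (H14.get r cols) r a)) :
    s ∈ (h.gam obj).map (MonoidHom.snd _ _) := by
  have a : Lk B r obj (el M) s := fun t a ha b hb c => by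
    have := h.inj (H14.lin_lt (H14.get r cols) r a r fun i _ => H14.get_lt r cols i) hb
      ((h.cols hr hM (lkChk_spec H).2 a).symm.trans c)
    rw [hs t a ha, this]
  have b := mem_Cz.2 (comm_of hb hM (lkChk_spec H).1)
  generalize el M = k at a b
  exact ⟨(⟨k, b⟩, s), a, rfl⟩

end Link

theorem perm_e8 (σ : M24) (i : GolayPt) : permHom σ • e8 i = e8 (σ.1 i) := by
  show mon σ _ • _ = _
  rw [mon_e8, if_neg (by simp)]

theorem el_perm {M T : ℕ} (hM : ok M = true) (hT : A24.ok T)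
    (H : forceT (prep M) (fun t => allLt 24 fun i => Nat.beq (t.act (c8 i)) (c8 (H14.get 5 T i))) = true) :
    el M = permHom (A24.el T) := co_ext8 fun i => by
  simp only [forceT_eq, allLt_iff, H14.nbeq_iff] at H
  obtain ⟨a, b⟩ := c8_spec i
  rw [perm_e8, ← b, (el_smul hM a).2, H _ (idx_lt i), ← (c8_spec _).2, H14.A24_el_coe hT, gC.idx_perm (H14.A24_isPerm hT)]

theorem card_CN (σ : M24) : Nat.card ↥(Cz (permHom σ) ⊓ NN) = Nat.card (Cz σ) * {s | s ∈ GCode ∧ σ • s = s}.ncard := by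
  refine card_mon (Cz (permHom σ) ⊓ NN : Subgroup Co0) _ _ (fun _ h => h.1) (fun _ h => h.2) fun τ c => ?_
  have key : mon τ c * permHom σ = permHom σ * mon τ c ↔ ∀ i, τ.1 (σ.1 i) = σ.1 (τ.1 i) ∧ (τ.1 (σ.1 i) ∈ c.1 ↔ τ.1 i ∈ c.1) := by
    rw [show mon τ c * permHom σ = permHom σ * mon τ c ↔ ∀ i, (mon τ c * permHom σ) • e8 i = (permHom σ * mon τ c) • e8 i from
      ⟨fun e i => by rw [e], co_ext8⟩]
    refine forall_congr' fun i => ?_
    rw [mul_smul, mul_smul, perm_e8, mon_e8', mon_e8', g_zsmul, perm_e8]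
    refine ⟨fun e => (e8_inj (by split_ifs <;> simp) e).imp id fun e => ?_, fun ⟨a, b⟩ => by simp only [b]; rw [a]⟩
    split_ifs at e <;> simp_all
  simp only [SetLike.mem_coe, Subgroup.mem_inf, mem_Cz, mon_mem, and_true, Set.mem_setOf_eq, c.2, true_and, key]
  constructor
  · intro e
    refine ⟨Subtype.ext (Equiv.ext fun i => (e i).1), Finset.ext fun j => ?_⟩
    obtain ⟨i, rfl⟩ := (σ.1 * τ.1).surjective j
    rw [H14.m24_smul_set, Equiv.Perm.mul_apply]
    exact (smul_mem_smul_finset_iff σ.1).trans ((e i).1 ▸ (e i).2).symm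
  · rintro ⟨a, b⟩ i
    have := congrArg (fun x : M24 => x.1 i) a
    refine ⟨this, ?_⟩
    rw [show τ.1 (σ.1 i) = σ.1 (τ.1 i) from this]
    nth_rw 1 [← b]
    exact smul_mem_smul_finset_iff σ.1

theorem ncard_fixc {T : ℕ} (hT : A24.ok T) : {s | s ∈ GCode ∧ A24.el T • s = s}.ncard =
    H14.cntLt2 64 64 fun n => Nat.beq (H14.img24 T (H14.cw n)) (H14.cw n) :=
  H14.ncard_gcode (p := fun m => Nat.beq (H14.img24 T m) m) fun m hm => H14.mem_stab_set_iff hT hm.1

theorem BD.bound (h : BD β B r nt) (X : ℕ → Bool)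
    (hX : ∀ k ∈ Cz β, ∀ a < 2 ^ r, Cg (k • e8 none) (comb B r a) → X a = true) (hβ : β ∈ NN) :
    Nat.card (Cz β) ≤ H14.cntLt (2 ^ r) X * Nat.card ↥(Cz β ⊓ NN) := by
  have sm : ∀ (k : Co0) (x : L), k • {v | Cg v x} = {v | Cg v (k • x)} := fun k x => by
    ext v
    rw [Set.mem_smul_set_iff_inv_smul_mem]
    exact ⟨fun c => by simpa using Cg.smul k c, fun c => by simpa using Cg.smul k⁻¹ c⟩
  have eq : ∀ x y : L, {v | Cg v x} = {v | Cg v y} ↔ Cg x y := fun x y =>
    ⟨fun e => e.le (Cg.refl x), fun c => Set.ext fun v => ⟨fun d => d.trans c, fun d => d.trans c.symm⟩⟩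
  have st : MulAction.stabilizer Co0 {v | Cg v (e8 none)} = NN := by
    ext k; rw [MulAction.mem_stabilizer_iff, sm, eq, NN_iff]
  have := H14.card_le_of_orbit_subset (K := Cz β) (x := {v | Cg v (e8 none)})
    (Y := (fun a => {v | Cg v (comb B r a)}) '' ((range (2 ^ r)).filter fun a => X a = true)) (by
      rintro _ ⟨k, rfl⟩
      obtain ⟨a, a1, a2⟩ := h.tot (k.1 • e8 none) (by
        rw [← mul_smul, ← mem_Cz.1 k.2, mul_smul]; exact (NN_iff.1 hβ).smul _)
      exact ⟨a, by simpa using ⟨a1, hX k k.2 a a1 a2⟩, ((sm _ _).trans ((eq _ _).2 a2)).symm⟩)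
    ((Finset.finite_toSet _).image _)
  rw [st] at this
  refine this.trans (Nat.mul_le_mul_right _ ((Set.ncard_image_le (Finset.finite_toSet _)).trans ?_))
  rw [Set.ncard_coe_finset, H14.cntLt_eq]

end Cfsg.Agent.L1Mon
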