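import Mathlib
import Cfsg.Agent.L1.Odd
import Cfsg.Agent.H14.Iso
set_option autoImplicit false
set_option linter.all false
namespace Cfsg.Agent.L1Mon
open Cfsg.Agent.H25.Leech Cfsg.Spor Cfsg.Agent.L1ES Subgroup

variable {G : Type*} [Group G]
variable {z s : G} {P : Subgroup G} {Y : Type*} [Group Y] {θ : Cz z →* Y} {f : Co0 →* Y} {Rp : L → G → Prop}

theorem setup [Finite G] {Q : Subgroup (Cz z)} [Q.Normal] (hM : IsOfMonsterType z Q) (sP : s ∈ Q.map (Cz z).subtype)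
    (hs : IsConj z s) (s1 : s ≠ z) :
    ∃ f Rp, MT z (Q.map (Cz z).subtype) (QuotientGroup.mk' Q) f Rp ∧ Rp (e8 none) s := by
  obtain ⟨h0, e, ψ, hψ⟩ := hM
  have h := bridge h0 hψ
  obtain ⟨y, hy, a⟩ := (h.four_iff (setting_ex h0)).1 ⟨hs, s1, sP⟩
  obtain ⟨g, rfl⟩ := trans64 (sq_e8 none) hy
  exact ⟨_, _, h.twist g, a⟩

theorem cent_pair (z s : G) : centralizer {z, s} = Cz z ⊓ Cz s := by
  ext x; simp [mem_centralizer_iff]

theorem MT.stabN (h : MT z P θ f Rp) (a : Rp (e8 none) s) (k : Co0) : f k ∈ im θ (Cz z ⊓ Cz s) ↔ k ∈ NN := by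
  have := h.ne a (by simp [sq_e8])
  rw [h.stab a this.1 this.2, NN_iff]

theorem MT.cardL [Finite G] (h : MT z P θ f Rp) (a : Rp (e8 none) s) :
    Nat.card (centralizer {z, s}) = 2 ^ 35 * 244823040 := by
  have n := h.ne a (by simp [sq_e8])
  have c1 := h.cardθ (B := Cz z ⊓ Cz s) inf_le_left
  have c2 := h.toES.card_cent' (h.rm a) n.1 n.2
  have e1 : Cz z ⊓ Cz s ⊓ P = P ⊓ centralizer {s} :=
    le_antisymm (fun x hx => ⟨hx.2, hx.1.2⟩) fun x hx => ⟨⟨mem_Cz.2 (h.cz x hx.1), hx.2⟩, hx.1⟩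
  have e2 : NN.map f = im θ (Cz z ⊓ Cz s) := by
    ext y
    obtain ⟨k, rfl⟩ := h.fs y
    refine ⟨?_, fun c => ⟨k, (h.stabN a k).1 c, rfl⟩⟩
    rintro ⟨n, c, e⟩
    exact e ▸ (h.stabN a n).2 c
  have c3 := card_map_mul f NN
  have c4 : Nat.card ↥(NN ⊓ f.ker) = 2 := by
    rw [← card_center]
    congr 2
    ext k
    rw [mem_center, mem_inf, MonoidHom.mem_ker, h.fk]
    exact ⟨fun c => c.2, fun c => ⟨c.elim (· ▸ one_mem _) (· ▸ neg1_NN), c⟩⟩
  rw [e2, c4, card_NN] at c3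
  rw [e1, show Nat.card (im θ (Cz z ⊓ Cz s)) = 2048 * 244823040 by omega,
    show Nat.card ↥(P ⊓ centralizer {s}) = 2 ^ 24 by rw [h.card] at c2; omega] at c1
  rw [cent_pair, ← c1]; norm_num

theorem fact_eq {p n m : ℕ} (hp : p.Prime) (h1 : p ^ n ∣ m) (h2 : ¬ p ^ (n + 1) ∣ m) : m.factorization p = n := by
  have m0 : m ≠ 0 := fun e => h2 (e ▸ dvd_zero _)
  rw [hp.pow_dvd_iff_le_factorization m0] at h1 h2
  omega

theorem conj_sec {p : ℕ} (hp : p.Prime) (po : Odd p) {σ τ : M24} (hσ : orderOf σ = p) {k : NN} (kp : k ^ p = 1)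
    (k1 : k ≠ 1) (c : τ * piN k * τ⁻¹ ∈ zpowers σ) : ∃ (n : NN) (j : ℕ), n * k ^ j * n⁻¹ = secN σ := by
  haveI := Fact.mk hp
  have cP : Nat.card (zpowers (secN σ)) = p := by
    rw [Nat.card_zpowers, orderOf_injective secN (Function.LeftInverse.injective piN_sec), hσ]
  have cK := card_map_mul piN ((zpowers σ).comap piN)
  rw [map_comap_eq_self_of_surjective piN_surj, inf_eq_right.2 (ker_le_comap _ _), card_ker_piN, Nat.card_zpowers, hσ] at cK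
  obtain ⟨m, -, d⟩ := H14.exists_conj_mem_of_pow hp (K := (zpowers σ).comap piN) (P := zpowers (secN σ))
    (zpowers_le.2 (by rw [mem_comap, piN_sec]; exact mem_zpowers σ)) (g := secN τ * k * (secN τ)⁻¹)
    (by simpa [mem_comap, piN_sec] using c) (j := 1) (by simp [kp]) (n := 4096) (by rw [cP, ← cK, mul_comm])
    (fun e => po.not_two_dvd_nat ((Nat.prime_dvd_prime_iff_eq hp Nat.prime_two).1
      (hp.dvd_of_dvd_pow (n := 12) e) ▸ dvd_rfl))
  obtain ⟨j, e⟩ := mem_powers_of_prime_card cP (g := ⟨_, d⟩) (g' := ⟨_, mem_zpowers _⟩)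
    (fun e => k1 (by simpa using congrArg Subtype.val e))
  refine ⟨m * secN τ, j, ?_⟩
  rw [← conj_pow, ← show _ = secN σ from congrArg Subtype.val e]
  simp [mul_assoc]

theorem MT.red [Finite G] (h : MT z P θ f Rp) (a : Rp (e8 none) s) {B : Subgroup G} (hB : B ≤ centralizer {z, s})
    {p : ℕ} (hp : p.Prime) (po : Odd p) (cB : Nat.card B = p) :
    ∃ σ' : M24, orderOf σ' = p ∧ ∀ σ τ : M24, orderOf σ = p → τ * σ' * τ⁻¹ ∈ zpowers σ →
      ∃ (b : G) (bz : b ∈ Cz z) (f' : Co0 →* Y) (Rp' : L → G → Prop), B = zpowers b ∧ b ^ p = 1 ∧ s * b = b * s ∧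
        MT z P θ f' Rp' ∧ Rp' (e8 none) s ∧ f' (permHom σ) = θ ⟨b, bz⟩ := by
  haveI := Fact.mk hp
  rw [cent_pair] at hB
  haveI : Nontrivial B := Finite.one_lt_card_iff_nontrivial.1 (cB ▸ hp.one_lt)
  have gen : ∀ b ∈ B, b ≠ 1 → B = zpowers b := fun b hb b1 => le_antisymm (fun x hx => by
    obtain ⟨j, e⟩ := mem_powers_of_prime_card cB (g := ⟨b, hb⟩) (g' := ⟨x, hx⟩) (fun e => b1 (congrArg Subtype.val e))
    exact ⟨j, by simpa using congrArg Subtype.val e⟩) (zpowers_le.2 hb)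
  have pw : ∀ b ∈ B, b ^ p = 1 := fun b hb => congrArg Subtype.val (cB ▸ pow_card_eq_one' (x := (⟨b, hb⟩ : B)))
  obtain ⟨⟨b, hb⟩, b1⟩ := exists_ne (1 : B)
  have b1 : b ≠ 1 := fun e => b1 (Subtype.ext e)
  have bz := (hB hb).1
  have θ1 : θ ⟨b, bz⟩ ≠ 1 := fun e => b1 (odd_four po (pw b hb) (mem_zpowers b) (es_four h.toES ((h.θk _).1 e)))
  obtain ⟨k, kp, e⟩ : ∃ k : Co0, k ^ p = 1 ∧ f k = θ ⟨b, bz⟩ := by
    obtain ⟨k, e⟩ := h.fs (θ ⟨b, bz⟩)
    have : f (k ^ p) = 1 := by rw [map_pow, e, ← map_pow, show (⟨b, bz⟩ : Cz z) ^ p = 1 from Subtype.ext (pw b hb), map_one]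
    rcases (h.fk _).1 this with c | c
    · exact ⟨k, c, e⟩
    · refine ⟨k * neg1, ?_, by rw [map_mul, (h.fk _).2 (Or.inr rfl), mul_one, e]⟩
      obtain ⟨n, rfl⟩ := po
      rw [(show Commute k neg1 from mem_center_iff.1 neg1_central k).mul_pow, c, pow_succ', pow_mul, pow_two, neg1_sq,
        one_pow, mul_one, neg1_sq]
  have kN : k ∈ NN := (h.stabN a k).1 ⟨⟨b, bz⟩, hB hb, e.symm⟩
  have kp' : (⟨k, kN⟩ : NN) ^ p = 1 := Subtype.ext kp
  have k1 : (⟨k, kN⟩ : NN) ≠ 1 := fun c => θ1 (by rw [← e, show k = 1 from congrArg Subtype.val c, map_one])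
  refine ⟨piN ⟨k, kN⟩, orderOf_eq_prime (by rw [← map_pow, kp', map_one]) fun c => k1 ?_, fun σ τ hσ c => ?_⟩
  · have := pow_gcd_eq_one.2 ⟨kp', congrArg Subtype.val (card_ker_piN ▸ pow_card_eq_one' (x := (⟨_, c⟩ : piN.ker)))⟩
    rwa [show p.gcd 4096 = 1 from po.coprime_two_right.pow_right 12, pow_one] at this
  · obtain ⟨n, j, d⟩ := conj_sec hp po hσ kp' k1 c
    have e' : f (n.1⁻¹ * permHom σ * n.1⁻¹⁻¹) = θ ⟨b ^ j, pow_mem bz j⟩ := by
      rw [← show _ = permHom σ from congrArg Subtype.val d, show θ ⟨b ^ j, _⟩ = _ from map_pow θ ⟨b, bz⟩ j, ← e, ← map_pow]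
      simp [mul_assoc]
    refine ⟨b ^ j, pow_mem bz j, _, _, gen _ (pow_mem hb j) fun c => ?_, pw _ (pow_mem hb j),
      (mem_Cz.1 (hB (pow_mem hb j)).2).symm, h.twist n.1⁻¹, (h.r_cg a).2 (NN_iff.1 (inv_mem n.2)), e'⟩
    rw [show θ ⟨b ^ j, _⟩ = θ 1 from congrArg θ (Subtype.ext c), map_one, map_mul, map_mul, map_inv f n.1⁻¹, mul_inv_eq_one, mul_eq_left] at e'
    have : piN (secN σ) = 1 := ((h.fk _).1 e').elim (fun c => by rw [show secN σ = 1 from Subtype.ext c, map_one])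
      fun c => by rw [show secN σ = ⟨neg1, neg1_NN⟩ from Subtype.ext c, piN_neg1]
    rw [piN_sec] at this
    rw [this, orderOf_one] at hσ
    exact hp.one_lt.ne hσ

theorem MT.fin [Finite G] (h : MT z P θ f Rp) (a : Rp (e8 none) s) (s0 : IsConj z s) {b : G} (bz : b ∈ Cz z)
    (bs : s * b = b * s) {p : ℕ} (po : Odd p) (bp : b ^ p = 1) {σ : M24} (hσ : orderOf σ = p) (e : f (permHom σ) = θ ⟨b, bz⟩)
    {S : Type*} [Group S] [Finite S] {ρ : Cz (permHom σ) →* S} {ι : Type} {rep : ι → L} (cd : CD (permHom σ) ρ rep)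
    (hS : pCore 2 S = ⊥) {w : ℕ} (hι : Nat.card ι = 2 ^ (2 * w))
    [((zpowers b).subgroupOf (centralizer (zpowers b : Set G))).Normal] :
    ∃ (x : centralizer (zpowers b : Set G) ⧸ (zpowers b).subgroupOf (centralizer (zpowers b : Set G)))
      (Q : Subgroup (Cz x)) (_ : Q.Normal), IsExtraspecialCentralizerSetting x Q w ∧ Nonempty (Cz x ⧸ Q ≃* S) ∧
      {y : Cz x | y ∈ Q ∧ IsConj x y}.ncard = 1 + 2 * {i | ∃ v : L, sqNorm v.1 = 64 ∧ Cg v (rep i)}.ncard := by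
  obtain ⟨x, l, ls, c1, c2⟩ := h.odd s0 (h.ne a (by simp [sq_e8])).2 (h.rm a) bz bs po bp
    (by rw [← map_pow, ← hσ, pow_orderOf_eq_one, map_one]) e cd hS hι (Cb := centralizer (zpowers b : Set G))
    (fun x => ⟨fun c => (c b (mem_zpowers b)).symm, fun c a ha => zp_comm c ha⟩)
    (QuotientGroup.mk' ((zpowers b).subgroupOf _)) (QuotientGroup.mk'_surjective _) fun x => QuotientGroup.eq_one_iff x
  exact ⟨x, l.ker, inferInstance, c1, ⟨QuotientGroup.quotientKerEquivOfSurjective l ls⟩, c2⟩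

theorem MT.cen [Finite G] (h : MT z P θ f Rp) (a : Rp (e8 none) s) {b : G} (bz : b ∈ Cz z)
    (bs : s * b = b * s) {p : ℕ} (po : Odd p) (bp : b ^ p = 1) {σ : M24} (e : f (permHom σ) = θ ⟨b, bz⟩) :
    Nat.card (Cz σ) ∣ Nat.card ↥(Cz z ⊓ Cz s ⊓ Cz b) := by
  have i : Function.Injective (f.comp permHom) := (injective_iff_map_eq_one _).2 fun τ c => by
    rw [← piN_sec τ]
    exact ((h.fk _).1 c).elim (fun c => by rw [show secN τ = 1 from Subtype.ext c, map_one])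
      fun c => by rw [show secN τ = ⟨neg1, neg1_NN⟩ from Subtype.ext c, piN_neg1]
  rw [← card_map_of_injective i, ← h.cardθ (inf_le_left.trans inf_le_left)]
  refine (card_dvd_of_le ?_).mul_right _
  rintro _ ⟨τ, c, rfl⟩
  obtain ⟨u, u1, u2⟩ := (h.stabN a (permHom τ)).2 (secN τ).2
  obtain ⟨m, m1, m2, m3⟩ := h.liftC bz po bp (D := Cz s) (mem_Cz.2 bs.symm) u1.2 (by
    rw [u2, ← e, ← map_mul, ← map_mul, ← map_mul, ← map_mul, mem_Cz.1 c])
  exact ⟨m, ⟨⟨m.2, m1⟩, mem_Cz.2 m2⟩, m3.trans u2⟩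

theorem central_syl [Finite G] {L : Subgroup G} {b : G} (hb : zpowers b ≤ L) {p n : ℕ} [Fact p.Prime] (bp : b ^ p = 1)
    (hL : (Nat.card L).factorization p = n) (hd : p ^ n ∣ Nat.card ↥(L ⊓ Cz b)) :
    ∃ T : Sylow p L, (zpowers b).subgroupOf L ≤ (center T).map (T : Subgroup L).subtype := by
  let H := (L ⊓ Cz b).subgroupOf L
  have cH : Nat.card H = Nat.card ↥(L ⊓ Cz b) := Nat.card_congr (subgroupOfEquivOfLe (H := L ⊓ Cz b) (K := L) inf_le_left).toEquiv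
  have pg : IsPGroup p (((zpowers b).subgroupOf L).subgroupOf H) := fun x => ⟨1, by
    obtain ⟨i, e⟩ := x.2
    refine Subtype.ext (Subtype.ext (Subtype.ext ?_))
    show x.1.1.1 ^ p ^ 1 = 1
    rw [← show b ^ i = x.1.1.1 from e, pow_one, ← zpow_natCast, ← zpow_mul, mul_comm, zpow_mul, zpow_natCast, bp, one_zpow]⟩
  obtain ⟨R, hR⟩ := pg.exists_le_sylow
  have hp : p.Prime := Fact.out
  have cR : Nat.card (R.1.map H.subtype) = p ^ (Nat.card L).factorization p := by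
    rw [card_map_of_injective H.subtype_injective, R.card_eq_multiplicity]
    congr 1
    refine le_antisymm ((Nat.factorization_le_iff_dvd Nat.card_pos.ne' Nat.card_pos.ne').2 H.card_subgroup_dvd_card p) ?_
    rw [hL, ← hp.pow_dvd_iff_le_factorization Nat.card_pos.ne', cH]; exact hd
  refine ⟨Sylow.ofCard _ cR, fun y hy => ?_⟩
  have yH : y ∈ H := ⟨y.2, mem_Cz.2 (zp_comm rfl hy)⟩
  refine ⟨⟨y, ⟨y, yH⟩, hR hy, rfl⟩, mem_center_iff.2 ?_, rfl⟩
  rintro ⟨_, u, -, rfl⟩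
  exact Subtype.ext (Subtype.ext (zp_comm (mem_Cz.1 u.2.2) hy).symm)

end Cfsg.Agent.L1Mon
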