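import Mathlib
import Cfsg.Agent.L1.OddD
import Cfsg.Agent.L1.OddR
import Cfsg.Agent.L1.Inv
set_option autoImplicit false
set_option linter.all false
set_option maxRecDepth 100000
namespace Cfsg.Agent.L1Mon
open Cfsg.Agent.H14 Subgroup MulAction

def e19 : List (ℕ × List ℕ) :=
  [(5, [0xbdab49ca307b9ac5a928398a418820, 0xb9e545b4a64c6b023d56431d318820,
    0xba1b4255cc516469a5e7b422b18820]), (4, [0xbdab49ca307b9ac5a928398a418820,
    0xb926faa22da3a0b6255231cb618820, 0xbc0ea332364b892451ebaccad18820,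
    0xbb4c93ae2453ac893e8c9d4b018820, 0xbbd8459e29b39559b606920b418820,
    0xbd17661a2a23933ac1a7448af18820, 0xba64d4562f83a87312d362caa18820,
    0xba91094e346b9e63d8955b0a918820, 0xbd6cb22627638cfa224a834b318820,
    0xbcc8cb2a265b8f47c9096c0b518820, 0xb9e086be3593a6952d94b10a618820,
    0xb99b28523343aaa4b16f258a718820, 0xbb1f3a4232ab916218ed4a8ab18820,
    0xbae957b6289ba44b1cd0524ac18820, 0xbc92655a2c3b9706cea47d0a818820,
    0xba1474922b3398d85676a3cb218820])]

theorem e19_chk : S19.enumChk e19 = true := by decide +kernel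

theorem card_c19 {T n : ℕ} (hT : A24.ok T)
    (H : sumProd A24.mul e19 (fun U => Bool.rec 0 1 (Nat.beq (A24.cj U T) T)) A24.one = n) :
    Nat.card ↥(Cz (A24.el T) ⊓ S19.K) = n := by
  rw [← H, ← S19.ncard_el e19_chk (Q := fun g => g ∈ Cz (A24.el T)) fun U hU => by rw [mem_Cz, A24.commute_iff hU hT],
    ← Nat.card_coe_set_eq]
  exact Nat.card_congr (Equiv.subtypeEquivRight fun g => and_comm)

theorem fix_next {σ g : M24} (h : g ∈ Cz σ) {p q : GolayPt} (e : σ • p = q) (a : g • p = p) : g • q = q := by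
  rw [← e, ← mul_smul, mem_Cz.1 h, mul_smul, a]

end Cfsg.Agent.L1Mon
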