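import Mathlib
import Cfsg.Agent.L1.AG
import Cfsg.Agent.H14.M24e

/-!
# Invariant subspaces of the binary permutation module of `M24`
-/

set_option autoImplicit false

namespace Cfsg.Agent.H14

open MulAction Finset
open scoped Pointwise symmDiff

theorem support_act (σ : Equiv.Perm GolayPt) (w : GolayPt → ZMod 2) :
    support₂ (fun p => w (σ.symm p)) = σ • support₂ w := by
  ext p
  rw [← Finset.inv_smul_mem_iff, mem_support₂, mem_support₂]
  rfl

theorem support_one : support₂ (fun _ : GolayPt => (1 : ZMod 2)) = univ := by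
  ext p; simp [mem_support₂]

theorem exists_small (s : Finset GolayPt) : ∃ t : Finset GolayPt, t.card ≤ 4 ∧ s ∆ t ∈ GCode := by
  rcases ag_gcode.coset card_golayPt s with ⟨u, h1, h2⟩ | ⟨-, h⟩
  · exact ⟨u, by omega, h2⟩
  · obtain ⟨u, h1, h2⟩ := Set.nonempty_of_ncard_ne_zero (by rw [h]; norm_num)
    exact ⟨u, h1.le, h2⟩

/-- move one point and fix at most four others. -/
theorem m24_move {t : Finset GolayPt} (ht : t.card ≤ 4) {a b : GolayPt} (ha : a ∉ t)
    (hb : b ∉ t) : ∃ g : M24, (∀ p ∈ t, g • p = p) ∧ g • a = b := by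
  have hi : ∀ a ∉ t, Function.Injective
      (Fin.cons a (fun i => (t.equivFin.symm i : GolayPt)) : Fin (t.card + 1) → GolayPt) :=
    fun a ha => Fin.cons_injective_iff.mpr ⟨fun ⟨i, hi⟩ => ha (hi ▸ Subtype.prop _),
      Subtype.val_injective.comp t.equivFin.symm.injective⟩
  obtain ⟨g, hg⟩ := m24_emb (by omega) _ _ (hi a ha) (hi b hb)
  exact ⟨g, fun p hp => by simpa using hg (t.equivFin ⟨p, hp⟩).succ, hg 0⟩

theorem smul_eq_of_fix {g : M24} {t : Finset GolayPt} (h : ∀ p ∈ t, g • p = p) : g • t = t := by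
  rw [Finset.smul_finset_def]
  exact (Finset.image_congr (g := id) h).trans Finset.image_id

/-- a family that is closed under sums and under `M24`. -/
structure InvF (K : Set (Finset GolayPt)) : Prop where
  add : ∀ s ∈ K, ∀ t ∈ K, s ∆ t ∈ K
  smul : ∀ g : M24, ∀ s ∈ K, g • s ∈ K

theorem invF_supports {W : Submodule (ZMod 2) (GolayPt → ZMod 2)}
    (hW : ∀ σ ∈ M24, ∀ w ∈ W, (fun p => w (σ.symm p)) ∈ W) :
    InvF (supports (W : Set (GolayPt → ZMod 2))) where
  add := by
    rintro _ ⟨v, hv, rfl⟩ _ ⟨w, hw, rfl⟩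
    exact ⟨v + w, W.add_mem hv hw, support₂_add v w⟩
  smul := by
    rintro g _ ⟨v, hv, rfl⟩
    exact ⟨_, hW g g.2 v hv, support_act _ _⟩

variable {K : Set (Finset GolayPt)}

theorem InvF.of_octad (h : InvF K) {o : Finset GolayPt} (ho : o ∈ octads) (hK : o ∈ K) :
    GCode ⊆ K :=
  gcode_subset (by simpa using h.add o hK o hK) h.add fun o' ho' => by
    obtain ⟨g, rfl⟩ := m24_octad ho ho'
    exact h.smul g o hK

theorem InvF.code_le (h : InvF K) {c : Finset GolayPt} (hc : c ∈ GCode) (hK : c ∈ K)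
    (h0 : c ≠ ∅) (h1 : c ≠ univ) : GCode ⊆ K := by
  rcases gcode_card hc with e | e | e | e | e
  · exact absurd (card_eq_zero.mp e) h0
  · exact h.of_octad ⟨hc, e⟩ hK
  · have key : ∀ m, isDod m = true → gC.set m ∈ K := fun m hm => by
      obtain ⟨g, e⟩ := m24_dodecad (mem_dodecads.mpr ⟨hc, e⟩) (isDod_iff.mp hm).2
      exact e ▸ h.smul g c hK
    refine h.of_octad (isOct_iff.mp (by decide +kernel : isOct 0x82402f = true)).2 ?_
    have := h.add _ (key 0x7dd00d (by decide +kernel)) _ (key 0xff9022 (by decide +kernel))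
    rwa [← gC.set_xor] at this
  · have key : ∀ m, isOct m = true → (gC.set m)ᶜ ∈ K := fun m hm => by
      obtain ⟨g, e⟩ := m24_octad (o := cᶜ) (mem_octads.mpr ⟨compl_mem_gcode hc, by
        rw [card_compl, card_golayPt, e]⟩) (isOct_iff.mp hm).2
      rw [← e, smul_finset_compl, compl_compl]
      exact h.smul g c hK
    refine h.of_octad (isOct_iff.mp (by decide +kernel : isOct 0x82402f = true)).2 ?_
    have := h.add _ (key 0xc75001 (by decide +kernel)) _ (key 0x45102e (by decide +kernel))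
    rwa [compl_symmDiff_compl, ← gC.set_xor] at this
  · exact absurd (eq_univ_of_card _ (e.trans card_golayPt.symm)) h1

theorem exists_notMem_two {s t : Finset GolayPt} (h : s.card + t.card < 24) :
    ∃ a, a ∉ s ∧ a ∉ t := by
  obtain ⟨a, -, ha⟩ := exists_mem_notMem_of_card_lt_card (s := s ∪ t) (t := univ)
    (lt_of_le_of_lt (card_union_le _ _) (by rw [card_univ, card_golayPt]; exact h))
  exact ⟨a, by simpa using ha⟩

theorem InvF.pair (h : InvF K) {s : Finset GolayPt} (hs : s ∉ GCode) (hK : s ∈ K)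
    {a b : GolayPt} (hab : a ≠ b) : {a, b} ∈ K := by
  obtain ⟨t, ht, hc⟩ := exists_small s
  have key : ∀ g : M24, (g • t) ∆ t ∈ K := by
    have e : s = (s ∆ t) ∆ t := (symmDiff_symmDiff_cancel_right _ _).symm
    generalize s ∆ t = c at hc e
    subst e
    by_cases h0 : c = ∅
    · subst h0
      intro g
      have : t ∈ K := by rwa [← bot_eq_empty, bot_symmDiff] at hK
      exact h.add _ (h.smul g _ this) _ this
    by_cases h1 : c = univ
    · subst h1
      intro g
      have : tᶜ ∈ K := by rwa [← top_eq_univ, top_symmDiff] at hK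
      have := h.add _ (h.smul g _ this) _ this
      rwa [smul_finset_compl, compl_symmDiff_compl] at this
    have h8 : 8 ≤ c.card ∧ c.card ≤ 16 := by
      have := gcode_card hc
      have := card_eq_zero.not.mpr h0
      have : c.card ≠ 24 := fun e => h1 (eq_univ_of_card _ (e.trans card_golayPt.symm))
      omega
    obtain ⟨x, hx, hxt⟩ := exists_notMem_two (s := cᶜ) (t := t)
      (by rw [card_compl, card_golayPt]; omega)
    obtain ⟨y, hy, hyt⟩ := exists_notMem_two (s := c) (t := t) (by omega)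
    obtain ⟨k, hk, hxy⟩ := m24_move ht hxt hyt
    have hne : ∃ p, p ∈ t := by
      by_contra hh
      rw [Finset.eq_empty_iff_forall_notMem.mpr (not_exists.mp hh)] at hs
      exact hs (by rwa [← bot_eq_empty, symmDiff_bot])
    have h2 := h.add _ (h.smul k _ hK) _ hK
    rw [smul_symmDiff', smul_eq_of_fix hk, symmDiff_symmDiff_symmDiff_comm, symmDiff_self,
      symmDiff_bot] at h2
    have h3 := h.code_le (symmDiff_mem_gcode ((m24_smul_gcode k).mpr hc) hc) h2
      (ne_empty_of_mem (a := y) (mem_symmDiff.mpr (Or.inl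
        ⟨hxy ▸ Finset.smul_mem_smul_finset (by simpa using hx), hy⟩))) (fun e => by
      obtain ⟨p, hp⟩ := hne
      have := e ▸ mem_univ p
      rw [mem_symmDiff, mem_of_stab (hk p hp)] at this
      tauto) hc
    intro g
    have : t ∈ K := by simpa [symmDiff_comm c t] using h.add _ hK _ h3
    exact h.add _ (h.smul g _ this) _ this
  obtain ⟨p, hp⟩ : ∃ p, p ∈ t := by
    by_contra hh
    rw [Finset.eq_empty_iff_forall_notMem.mpr (not_exists.mp hh)] at hc
    exact hs (by rwa [← bot_eq_empty, symmDiff_bot] at hc)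
  obtain ⟨q, hq, -⟩ := exists_notMem_two (s := t) (t := ∅) (by simp; omega)
  obtain ⟨k, hk, hpq⟩ := m24_move (t := t.erase p) (card_erase_le.trans ht) (notMem_erase p t)
    (fun h => hq (mem_of_mem_erase h))
  have h2 : (k • t) ∆ t = {p, q} := by
    have : k • t = insert q (t.erase p) := by
      conv_lhs => rw [← insert_erase hp, Finset.smul_finset_insert, smul_eq_of_fix hk, hpq]
    rw [this]
    ext x
    simp only [mem_symmDiff, mem_insert, mem_erase, mem_singleton]
    by_cases h1 : x = p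
    · subst h1; simp [hp]; rintro rfl; exact hq hp
    by_cases h2 : x = q
    · subst h2; simp [hq]
    simp [h1, h2]
  obtain ⟨g, h3, h4⟩ := m24_two (p := p) (q := q) (fun e => hq (e ▸ hp)) hab
  have := h.smul g _ (h2 ▸ key k)
  rwa [Finset.smul_finset_insert, Finset.smul_finset_singleton, h3, h4] at this

theorem zmod2_cases (a : ZMod 2) : a = 0 ∨ a = 1 := by revert a; decide

theorem even_le {W : Submodule (ZMod 2) (GolayPt → ZMod 2)}
    (h : ∀ a b : GolayPt, a ≠ b → {a, b} ∈ supports (W : Set (GolayPt → ZMod 2)))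
    {w : GolayPt → ZMod 2} (hw : ∑ p, w p = 0) : w ∈ W := by
  have e : w = ∑ p, w p • (Pi.single p 1 + Pi.single none 1 : GolayPt → ZMod 2) := by
    simp only [smul_add, sum_add_distrib, ← sum_smul, hw, zero_smul, add_zero]
    ext q
    simp [Finset.sum_apply, Pi.single_apply]
  rw [e]
  refine W.sum_mem fun p _ => W.smul_mem _ ?_
  by_cases hp : p = none
  · subst hp
    rw [← zmod2_sub, sub_self]
    exact W.zero_mem
  · refine support₂_mem.mp ?_
    convert h p none hp using 1
    ext q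
    rw [mem_support₂]
    by_cases h1 : q = p
    · subst h1; simp [hp]
    by_cases h2 : q = none
    · subst h2; simp [h1]
    simp [h1, h2]

theorem sub_code {W : Submodule (ZMod 2) (GolayPt → ZMod 2)}
    (hW : ∀ σ ∈ M24, ∀ w ∈ W, (fun p => w (σ.symm p)) ∈ W) (hle : W ≤ golayCode) :
    W = ⊥ ∨ W = Submodule.span (ZMod 2) {fun _ => (1 : ZMod 2)} ∨ W = golayCode := by
  by_cases h : ∃ w ∈ W, w ≠ 0 ∧ w ≠ fun _ => 1
  · obtain ⟨w, hw, h0, h1⟩ := h
    refine Or.inr (Or.inr (le_antisymm hle fun v hv => support₂_mem.mp ?_))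
    exact (invF_supports hW).code_le (support_mem_gcode.mpr (hle hw)) ⟨w, hw, rfl⟩
      (fun e => h0 (support₂_injective (e.trans support₂_zero.symm)))
      (fun e => h1 (support₂_injective (e.trans support_one.symm))) (support_mem_gcode.mpr hv)
  push Not at h
  by_cases h1 : (fun _ => (1 : ZMod 2)) ∈ W
  · refine Or.inr (Or.inl (le_antisymm (fun w hw => ?_) (by simpa using h1)))
    by_cases h0 : w = 0
    · rw [h0]; exact Submodule.zero_mem _
    · rw [h w hw h0]; exact Submodule.subset_span rfl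
  · exact Or.inl (eq_bot_iff.mpr fun w hw => by
      by_contra h0
      exact h1 (h w hw h0 ▸ hw))

theorem CSub.no_fix (S : CSub A24) (H : allLt2 64 64 (fun c => bor (Nat.beq c 0)
    (anyL S.gens fun T => bnot (Nat.beq (xfn T c) c))) = true) {s : Finset GolayPt}
    (hs : s ∉ GCode) : ∃ g ∈ S.K, (g • s) ∆ s ∉ GCode := by
  obtain ⟨m, hm, rfl⟩ := gC.exists_mask s
  have hc : syn m < 4096 := syn_lt m
  rcases bor_iff.mp (allLt2_iff.mp H _ hc) with h | h
  · exact absurd ((set_mem_gcode hm).mpr (nbeq_iff.mp h)) hs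
  obtain ⟨T, hT, h⟩ := anyL_iff.mp h
  have ok := S.gens_ok T hT
  refine ⟨_, S.el_mem hT, fun hh => bnot_iff.mp h (nbeq_iff.mpr ?_)⟩
  have h1 := (m24_smul_gcode (A24.el T)).mpr ((symmDiff_set_mem hm (shl12_lt hc)).mpr
    (syn_shiftLeft hc).symm)
  rw [smul_symmDiff', A24_smul_set ok, A24_smul_set ok,
    symmDiff_set_mem (img24_lt (A24_isPerm ok) _) (img24_lt (A24_isPerm ok) _)] at h1
  rw [A24_smul_set ok, symmDiff_set_mem (img24_lt (A24_isPerm ok) _) hm] at hh
  rw [xfn_eq (A24_isPerm ok) hc, ← h1, hh]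

theorem no_fix_stab {c s : Finset GolayPt} (hc : c ∈ GCode) (hs : s ∉ GCode) :
    ∃ g : M24, g • c = c ∧ (g • s) ∆ s ∉ GCode := by
  have tr : ∀ (S : CSub A24) (x : Finset GolayPt), S.K = stabilizer M24 x →
      (∀ s ∉ GCode, ∃ g ∈ S.K, (g • s) ∆ s ∉ GCode) → ∀ k : M24,
      ∃ g : M24, g • k • x = k • x ∧ (g • s) ∆ s ∉ GCode := fun S x hS h k => by
    obtain ⟨g, hg, h1⟩ := h (k⁻¹ • s) (by rwa [m24_smul_gcode])
    rw [hS] at hg
    refine ⟨k * g * k⁻¹, conj_mem_stabilizer hg, ?_⟩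
    rwa [← m24_smul_gcode k, smul_symmDiff', smul_inv_smul, ← mul_smul, ← mul_smul] at h1
  have ho : ∀ o ∈ octads, ∃ g : M24, g • o = o ∧ (g • s) ∆ s ∉ GCode := fun o ho => by
    obtain ⟨k, rfl⟩ := m24_octad o0_mem ho
    exact tr SOs o0 rfl (fun s hs => SOs.no_fix (by decide +kernel) hs) k
  rcases gcode_card hc with e | e | e | e | e
  · obtain ⟨g, -, h⟩ := ho _ o0_mem
    exact ⟨g, by rw [card_eq_zero.mp e]; simp, h⟩
  · exact ho c ⟨hc, e⟩
  · obtain ⟨k, rfl⟩ := m24_dodecad d0_mem (mem_dodecads.mpr ⟨hc, e⟩)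
    exact tr SDs d0 rfl (fun s hs => SDs.no_fix (by decide +kernel) hs) k
  · obtain ⟨g, h1, h⟩ := ho cᶜ (mem_octads.mpr ⟨compl_mem_gcode hc, by
      rw [card_compl, card_golayPt, e]⟩)
    exact ⟨g, compl_injective (by rwa [smul_finset_compl] at h1), h⟩
  · obtain ⟨g, -, h⟩ := ho _ o0_mem
    exact ⟨g, by rw [eq_univ_of_card _ (e.trans card_golayPt.symm)]; simp, h⟩

end Cfsg.Agent.H14
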