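import Mathlib

/-!
# Poisson summation for Gaussians on `ℤⁿ`
-/

set_option autoImplicit false

namespace Cfsg.Agent.L1Th

open Matrix Complex
open scoped Real

variable {n : ℕ}

/-- the quadratic form of a matrix. -/
def Q (B : Matrix (Fin n) (Fin n) ℝ) (x : Fin n → ℝ) : ℝ := x ⬝ᵥ B *ᵥ x

/-- a positive definite matrix with its inverse. -/
structure PD (B C : Matrix (Fin n) (Fin n) ℝ) : Prop where
  symm : Bᵀ = B
  pos : ∀ x, x ≠ 0 → 0 < Q B x
  inv : B * C = 1

variable {B C : Matrix (Fin n) (Fin n) ℝ}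

theorem PD.dot (h : PD B C) (x y : Fin n → ℝ) : x ⬝ᵥ B *ᵥ y = y ⬝ᵥ B *ᵥ x := by
  rw [dotProduct_mulVec, ← mulVec_transpose, h.symm, dotProduct_comm]

theorem PD.Q_inv (h : PD B C) (u : Fin n → ℝ) : Q C (B *ᵥ u) = Q B u := by
  rw [Q, mulVec_mulVec, mul_eq_one_comm.mp h.inv, one_mulVec, dotProduct_comm, Q]

theorem PD.flip (h : PD B C) : PD C B where
  symm := by
    have h1 : Cᵀ * B = 1 := by rw [← h.symm, ← transpose_mul, h.inv, transpose_one]
    rw [← mul_one Cᵀ, ← h.inv, ← mul_assoc, h1, one_mul]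
  pos x hx := by
    have e : B *ᵥ (C *ᵥ x) = x := by rw [mulVec_mulVec, h.inv, one_mulVec]
    rw [← e, h.Q_inv]
    exact h.pos _ fun h0 => hx (by rw [← e, h0, mulVec_zero])
  inv := mul_eq_one_comm.mp h.inv

theorem Q_smul (t : ℝ) (x : Fin n → ℝ) : Q B (t • x) = t ^ 2 * Q B x := by
  simp only [Q, mulVec_smul, dotProduct_smul, smul_dotProduct, smul_eq_mul]; ring

theorem continuous_Q : Continuous (Q B) := by unfold Q; fun_prop

theorem PD.coer (h : PD B C) : ∃ ε > 0, ∀ x, ε * ∑ i, x i ^ 2 ≤ Q B x := by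
  rcases Nat.eq_zero_or_pos n with rfl | hn
  · exact ⟨1, one_pos, fun x => by simp [Q]⟩
  have : Nonempty (Fin n) := ⟨⟨0, hn⟩⟩
  obtain ⟨v, hv, hm⟩ := (isCompact_sphere (0 : Fin n → ℝ) 1).exists_isMinOn
    (NormedSpace.sphere_nonempty.mpr zero_le_one) (continuous_Q (B := B)).continuousOn
  have h0 : 0 < Q B v := h.pos v (by rintro rfl; simp at hv)
  have hn' : (0 : ℝ) < n := by exact_mod_cast hn
  refine ⟨Q B v / n, by positivity, fun x => ?_⟩
  by_cases hx : x = 0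
  · simp [hx, Q]
  have hx' : 0 < ‖x‖ := norm_pos_iff.mpr hx
  have h1 : Q B v ≤ Q B (‖x‖⁻¹ • x) := hm (by simp [norm_smul, hx'.ne'])
  have h2 : ∑ i, x i ^ 2 ≤ n * ‖x‖ ^ 2 := by
    simpa using Finset.sum_le_card_nsmul Finset.univ (fun i => x i ^ 2) (‖x‖ ^ 2) fun i _ => by
      rw [← sq_abs]
      exact pow_le_pow_left₀ (abs_nonneg _) (norm_le_pi_norm x i) 2
  rw [Q_smul] at h1
  calc Q B v / n * ∑ i, x i ^ 2 ≤ Q B v / n * (n * ‖x‖ ^ 2) := by gcongr
    _ = Q B v * ‖x‖ ^ 2 := by field_simp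
    _ ≤ ‖x‖⁻¹ ^ 2 * Q B x * ‖x‖ ^ 2 := by gcongr
    _ = Q B x := by field_simp

theorem summ1 {c : ℝ} (hc : 0 < c) (u : ℝ) : Summable fun m : ℤ => Real.exp (-c * (m - u) ^ 2) := by
  have h := ((summable_jacobiTheta₂_term_iff (-(c * u / π : ℝ) * I) ((c / π : ℝ) * I)).mpr
    (by simpa using div_pos hc Real.pi_pos)).norm.mul_left (Real.exp (-c * u ^ 2))
  refine h.congr fun m => ?_
  rw [norm_jacobiTheta₂_term, ← Real.exp_add]
  congr 1
  simp only [mul_im, ofReal_re, I_im, ofReal_im, I_re, neg_re, neg_im]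
  field_simp
  ring

theorem summ_prod (f : Fin n → ℤ → ℝ) (h0 : ∀ i m, 0 ≤ f i m) (h : ∀ i, Summable (f i)) :
    Summable fun x : Fin n → ℤ => ∏ i, f i (x i) := by
  induction n with
  | zero => exact .of_finite
  | succ n ih =>
    rw [← (Fin.consEquiv fun _ => ℤ).summable_iff]
    refine ((h 0).mul_of_nonneg (ih (fun i => f i.succ) (fun _ => h0 _) fun _ => h _) (h0 0)
      fun x => Finset.prod_nonneg fun _ _ => h0 _ _).congr fun p => ?_
    simp [Fin.prod_univ_succ, Fin.consEquiv]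

theorem PD.summ (h : PD B C) {c : ℝ} (hc : 0 < c) (u : Fin n → ℝ) :
    Summable fun x : Fin n → ℤ => Real.exp (-c * Q B ((fun i => (x i : ℝ)) - u)) := by
  obtain ⟨ε, hε, h1⟩ := h.coer
  refine (summ_prod (fun i m => Real.exp (-(c * ε) * (m - u i) ^ 2))
    (fun _ _ => (Real.exp_pos _).le) fun i => summ1 (mul_pos hc hε) _).of_nonneg_of_le
    (fun _ => (Real.exp_pos _).le) fun x => ?_
  rw [← Real.exp_sum, ← Finset.mul_sum, Real.exp_le_exp]
  have := h1 ((fun i => (x i : ℝ)) - u)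
  simp only [Pi.sub_apply] at this
  nlinarith

/-- the terms of the theta series. -/
noncomputable def T (B : Matrix (Fin n) (Fin n) ℝ) (s : ℂ) (u z : Fin n → ℝ) (x : Fin n → ℤ) : ℂ :=
  cexp (-π * s * Q B ((fun i => (x i : ℝ)) - u) + 2 * π * I * (z ⬝ᵥ fun i => (x i : ℝ) : ℝ))

theorem norm_T (s : ℂ) (u z : Fin n → ℝ) (x : Fin n → ℤ) :
    ‖T B s u z x‖ = Real.exp (-(π * s.re) * Q B ((fun i => (x i : ℝ)) - u)) := by
  rw [T, norm_exp]
  congr 1
  simp

theorem PD.summ_norm (h : PD B C) {s : ℂ} (hs : 0 < s.re) (u z : Fin n → ℝ) :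
    Summable fun x => ‖T B s u z x‖ := by
  simp only [norm_T]
  exact h.summ (mul_pos Real.pi_pos hs) u

section step

variable {B C : Matrix (Fin (n + 1)) (Fin (n + 1)) ℝ}

/-- the Schur complement. -/
noncomputable def sc (B : Matrix (Fin (n + 1)) (Fin (n + 1)) ℝ) : Matrix (Fin n) (Fin n) ℝ :=
  of fun i j => B i.succ j.succ - B i.succ 0 * B 0 j.succ / B 0 0

theorem PD.pos0 (h : PD B C) : 0 < B 0 0 := by
  simpa [Q] using h.pos (Pi.single 0 1) (by simp)

theorem PD.sw (h : PD B C) (i j : Fin (n + 1)) : B i j = B j i := by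
  rw [← transpose_apply B j i, h.symm]

theorem PD.Q_cons (h : PD B C) (a : ℝ) (x : Fin n → ℝ) : Q B (Fin.cons a x) =
    B 0 0 * a ^ 2 + 2 * a * ((fun i => B 0 i.succ) ⬝ᵥ x) +
      ((fun i => B 0 i.succ) ⬝ᵥ x) ^ 2 / B 0 0 + Q (sc B) x := by
  simp only [Q, sc, dotProduct, mulVec, Fin.sum_univ_succ, Fin.cons_zero, Fin.cons_succ, of_apply,
    h.sw _ 0, sub_mul, Finset.sum_sub_distrib, mul_sub, mul_add, Finset.sum_add_distrib]
  have e1 : ∑ i, x i * (B 0 i.succ * a) = a * ∑ i, B 0 i.succ * x i := by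
    rw [Finset.mul_sum]; exact Finset.sum_congr rfl fun _ _ => by ring
  have e2 : ∑ i, x i * ∑ j, B 0 i.succ * B 0 j.succ / B 0 0 * x j =
      (∑ i, B 0 i.succ * x i) ^ 2 / B 0 0 := by
    rw [pow_two, Finset.sum_mul_sum, Finset.sum_div]
    refine Finset.sum_congr rfl fun _ _ => ?_
    rw [Finset.mul_sum, Finset.sum_div]
    exact Finset.sum_congr rfl fun _ _ => by ring
  rw [e1, e2]
  ring

theorem PD.step (h : PD B C) : PD (sc B) (C.submatrix Fin.succ Fin.succ) where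
  symm := by
    ext i j
    simp only [sc, transpose_apply, of_apply, h.sw j.succ, h.sw i.succ 0]
    ring
  pos x hx := by
    have := h.pos (Fin.cons (-((fun i => B 0 i.succ) ⬝ᵥ x) / B 0 0) x) fun e =>
      hx (funext fun i => congrFun e i.succ)
    rw [h.Q_cons] at this
    convert this using 1
    have := h.pos0
    field_simp
    ring
  inv := by
    ext i j
    have h1 := congrFun (congrFun h.inv i.succ) j.succ
    have h2 := congrFun (congrFun h.inv 0) j.succ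
    rw [mul_apply, Fin.sum_univ_succ] at h1 h2
    rw [one_apply_ne (Fin.succ_ne_zero j).symm] at h2
    have e : ∑ k : Fin n, B i.succ 0 * B 0 k.succ / B 0 0 * C k.succ j.succ =
        B i.succ 0 / B 0 0 * ∑ k : Fin n, B 0 k.succ * C k.succ j.succ := by
      rw [Finset.mul_sum]; exact Finset.sum_congr rfl fun _ _ => by ring
    simp only [mul_apply, sc, of_apply, submatrix_apply, sub_mul, Finset.sum_sub_distrib, e]
    simp only [one_apply, Fin.succ_inj] at h1 ⊢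
    have := h.pos0
    rw [← h1, eq_neg_of_add_eq_zero_right h2]
    field_simp
    ring

theorem PD.Q_dual (h : PD B C) (a : ℝ) (w : Fin n → ℝ) : Q C (Fin.cons a w) =
    a ^ 2 / B 0 0 + Q (C.submatrix Fin.succ Fin.succ) (w - (a / B 0 0) • fun i => B 0 i.succ) := by
  have h0 := h.pos0
  have e1 : ∀ v, Q (C.submatrix Fin.succ Fin.succ) v = Q C (Fin.cons 0 v) := fun v => by
    simp [Q, dotProduct, mulVec, Fin.sum_univ_succ]
  obtain ⟨u, hu⟩ : ∃ u, B *ᵥ u = Fin.cons a w :=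
    ⟨C *ᵥ _, by rw [mulVec_mulVec, h.inv, one_mulVec]⟩
  have e2 : (Fin.cons 0 (w - (a / B 0 0) • fun i => B 0 i.succ) : Fin (n + 1) → ℝ) =
      B *ᵥ (u - (a / B 0 0) • Pi.single 0 1) := by
    rw [mulVec_sub, hu, mulVec_smul]
    ext i
    refine Fin.cases ?_ (fun i => ?_) i
    · simp; field_simp; ring
    · simp [h.sw i.succ]
  rw [e1, e2, ← hu, h.Q_inv, h.Q_inv]
  simp only [Q, mulVec_sub, mulVec_smul, sub_dotProduct, dotProduct_sub, smul_dotProduct,
    dotProduct_smul, h.dot u (Pi.single 0 1), hu, smul_eq_mul]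
  simp
  field_simp
  ring

end step

theorem cast_cons (a : ℤ) (x : Fin n → ℤ) :
    (fun i => ((Fin.cons a x : Fin (n + 1) → ℤ) i : ℝ)) = Fin.cons (a : ℝ) fun i => (x i : ℝ) := by
  ext i
  refine Fin.cases rfl (fun _ => rfl) i

theorem cpow_mul {s : ℂ} (hs : 0 < s.re) {a : ℝ} (ha : 0 < a) :
    (s * a) ^ (1 / 2 : ℂ) = s ^ (1 / 2 : ℂ) * a ^ (1 / 2 : ℂ) := by
  have h1 : s ≠ 0 := by rintro rfl; simp at hs
  have h2 : (a : ℂ) ≠ 0 := by exact_mod_cast ha.ne'
  rw [cpow_def_of_ne_zero (mul_ne_zero h1 h2), cpow_def_of_ne_zero h1, cpow_def_of_ne_zero h2,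
    log_mul_ofReal a ha s h1, ofReal_log ha.le, add_mul, exp_add, mul_comm]

theorem re_inv_pos {s : ℂ} (hs : 0 < s.re) : 0 < s⁻¹.re := by
  rw [inv_re]
  exact div_pos hs (normSq_pos.mpr (by rintro rfl; simp at hs))

theorem PD.poisson (h : PD B C) : ∃ r : ℂ, ∀ s : ℂ, 0 < s.re → ∀ z,
    ∑' x, T B s 0 z x = r * (1 / s ^ (1 / 2 : ℂ)) ^ n * ∑' y, T C s⁻¹ z 0 y := by
  induction n with
  | zero => exact ⟨1, fun s _ z => by simp [T, Q]⟩
  | succ n ih =>
    obtain ⟨r, hr⟩ := ih h.step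
    have h0 := h.pos0
    have h0' : (B 0 0 : ℂ) ≠ 0 := by exact_mod_cast h0.ne'
    refine ⟨r / (B 0 0 : ℂ) ^ (1 / 2 : ℂ), fun s hs z => ?_⟩
    have hs0 : s ≠ 0 := by rintro rfl; simp at hs
    obtain ⟨z0, z, rfl⟩ : ∃ z0 z', z = Fin.cons z0 z' := ⟨_, _, (Fin.cons_self_tail z).symm⟩
    set β : Fin n → ℝ := fun i => B 0 i.succ with hβ
    let E : ℤ → ℂ := fun m => cexp (-π * s⁻¹ * ((m - z0) ^ 2 / B 0 0 : ℝ))
    let G : ℤ → (Fin n → ℤ) → ℂ := fun m x => E m * T (sc B) s 0 (z + ((m - z0) / B 0 0) • β) x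
    have hG : Summable (Function.uncurry G) := by
      refine .of_norm (((summ1 (c := π * s⁻¹.re / B 0 0)
        (div_pos (mul_pos Real.pi_pos (re_inv_pos hs)) h0) z0).mul_of_nonneg
        (h.step.summ_norm hs 0 0) (fun _ => (Real.exp_pos _).le) fun _ => norm_nonneg _).congr
        fun p => ?_)
      simp only [Function.uncurry, G, E, norm_mul, norm_T, norm_exp]
      congr 2
      simp only [neg_mul, neg_re, mul_re, ofReal_re, ofReal_im, mul_zero, zero_mul, sub_zero]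
      ring
    have h1 : ∀ x : Fin n → ℤ, ∑' m : ℤ, T B s 0 (Fin.cons z0 z) (Fin.cons m x) =
        1 / (s * B 0 0) ^ (1 / 2 : ℂ) * ∑' m, G m x := fun x => by
      have := tsum_exp_neg_quadratic (a := s * B 0 0) (by simpa using mul_pos hs h0)
        (-s * (β ⬝ᵥ fun i => (x i : ℝ) : ℝ) + I * z0)
      have := congrArg (· * cexp (-π * s * ((β ⬝ᵥ fun i => (x i : ℝ)) ^ 2 / B 0 0 +
        Q (sc B) (fun i => x i) : ℝ) + 2 * π * I * (z ⬝ᵥ fun i => (x i : ℝ) : ℝ))) this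
      rw [← tsum_mul_right, mul_assoc (1 / _ : ℂ), ← tsum_mul_right] at this
      refine (tsum_congr fun m => ?_).trans (this.trans (congrArg _ (tsum_congr fun m => ?_)))
      · have e : ∀ (a : ℝ) (w : Fin n → ℝ), Fin.cons z0 z ⬝ᵥ Fin.cons a w = z0 * a + z ⬝ᵥ w :=
          fun a w => cons_dotProduct_cons _ _ _ _
        simp only [T, cast_cons, sub_zero, h.Q_cons, ← hβ, e, ← exp_add]
        congr 1
        push_cast
        ring
      · simp only [G, E, T, sub_zero, ← exp_add, add_dotProduct, smul_dotProduct, smul_eq_mul]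
        congr 1
        push_cast
        field_simp
        ring_nf
        simp only [I_sq, I_pow_three, I_pow_four]
        ring
    have h2 : ∀ m : ℤ, ∑' x, G m x = r * (1 / s ^ (1 / 2 : ℂ)) ^ n *
        ∑' y, T C s⁻¹ (Fin.cons z0 z) 0 (Fin.cons m y) := fun m => by
      simp only [G]
      rw [tsum_mul_left, hr s hs, mul_left_comm, ← tsum_mul_left]
      congr 2
      ext y
      have e : (Fin.cons (m : ℝ) (fun i => (y i : ℝ)) - Fin.cons z0 z : Fin (n + 1) → ℝ) =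
          Fin.cons (m - z0) ((fun i => (y i : ℝ)) - z) := by
        ext i
        refine Fin.cases rfl (fun _ => rfl) i
      simp only [E, T, ← exp_add, cast_cons, e, h.Q_dual, zero_dotProduct, sub_sub, ← hβ]
      push_cast
      ring_nf
    have s1 := (Fin.consEquiv fun _ => ℤ).summable_iff.mpr
      (h.summ_norm hs 0 (Fin.cons z0 z)).of_norm
    have s2 := (Fin.consEquiv fun _ => ℤ).summable_iff.mpr
      (h.flip.summ_norm (re_inv_pos hs) (Fin.cons z0 z) 0).of_norm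
    rw [← (Fin.consEquiv fun _ => ℤ).tsum_eq, ← (Fin.consEquiv fun _ => ℤ).tsum_eq]
    refine (s1.tsum_prod.trans (Summable.tsum_comm (f := fun m x =>
      T B s 0 (Fin.cons z0 z) (Fin.cons m x)) s1).symm).trans ?_
    rw [show ∑' c, T C s⁻¹ _ 0 ((Fin.consEquiv fun _ => ℤ) c) = _ from s2.tsum_prod]
    simp only [h1]
    rw [tsum_mul_left, hG.tsum_comm]
    simp only [h2]
    rw [tsum_mul_left, cpow_mul hs h0]
    show _ = _ * ∑' m, ∑' y, T C s⁻¹ (Fin.cons z0 z) 0 (Fin.cons m y)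
    ring

end Cfsg.Agent.L1Th
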